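import Mathlib
import Cfsg.Agent.Helper15.B42Defs
import Cfsg.Agent.Helper77.D1Final
import Cfsg.Agent.Helper77.D1Fourier
import Cfsg.Agent.Helper65.D1IF
import Cfsg.Agent.Helper79.S4441Setup
import Cfsg.Agent.Helper79.Basic
import Cfsg.Agent.Helper81.CharBasic
import Cfsg.Agent.Helper3.Induced
import Cfsg.Agent.Helper3.Frobenius

universe u
set_option autoImplicit false
open Cfsg Cfsg.Agent.Helper77 Cfsg.Agent.Helper15
open scoped ComplexConjugate

namespace Cfsg.Agent.Helper67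

variable {G : Type u} [Group G] [Finite G]

set_option linter.unusedSectionVars false

/-- A sum over the units of `ZMod p` is the sum over `ZMod p` minus the term at `0`. -/
theorem b42keyy_units_sum (p : ℕ) [Fact p.Prime] (g : ZMod p → ℂ) :
    ∑ u : (ZMod p)ˣ, g (u : ZMod p) = ∑ i : ZMod p, g i - g 0 := by
  classical
  have h1 : Finset.image (fun u : (ZMod p)ˣ => (u : ZMod p)) Finset.univ
      = (Finset.univ : Finset (ZMod p)).erase 0 := by
    ext i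
    simp only [Finset.mem_image, Finset.mem_univ, true_and, Finset.mem_erase, and_true]
    constructor
    · rintro ⟨u, rfl⟩; exact u.ne_zero
    · intro hi; exact ⟨Units.mk0 i hi, rfl⟩
  rw [← Finset.add_sum_erase Finset.univ g (Finset.mem_univ 0), ← h1,
    Finset.sum_image (fun a _ b _ h => Units.ext h)]
  ring

/-- The sum of `ζ ^ (u c)` over all units `u` is `-1` for `c ≠ 0`. -/
theorem b42keyy_units_zeta (p : ℕ) [Fact p.Prime] (c : ZMod p) (hc : c ≠ 0) :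
    ∑ u : (ZMod p)ˣ, d1zeta p ^ ((u : ZMod p) * c).val = -1 := by
  have hζ : IsPrimitiveRoot (d1zeta p) p :=
    Complex.isPrimitiveRoot_exp p (Fact.out : p.Prime).ne_zero
  have h1 := b42keyy_units_sum p (fun i => d1zeta p ^ (i * c).val)
  have h2 := d1f_sum p (d1zeta p) hζ c
  rw [if_neg hc] at h2
  rw [h1, h2]
  simp

/-- KEYY -/
theorem b42_key_Y (p : ℕ) [Fact p.Prime] [Fintype G] (x : G) (K : Subgroup G) (h : D1Hyp p x K)
    (hps : ∀ g : G, p ∣ orderOf g →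
      ∃ (y : G) (b : ℕ) (k : G), ¬ p ∣ b ∧ k ∈ K ∧ y * g * y⁻¹ = x ^ b * k)
    (F : Subgroup (ZMod p)ˣ) (hF : (F : Set (ZMod p)ˣ) = normUnits p x)
    (χ₁ χ₂ : Cfsg.IrrCharacter G)
    (hreg : ∀ g : G, ¬ p ∣ orderOf g → (χ₂ : G → ℂ) g = (χ₁ : G → ℂ) g) (hne : χ₁ ≠ χ₂)
    (ψ₀ : Cfsg.IrrCharacter G) (l : ZMod p) (hl : l ≠ 0)
    (hexc : ∀ b : ℕ, ¬ p ∣ b → ∀ k ∈ K, (ψ₀ : G → ℂ) (x ^ b * k)
      = ∑ᶠ s ∈ normUnits p x, d1zeta p ^ ((b : ZMod p) * ((s : (ZMod p)ˣ) : ZMod p) * l).val) :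
    ∃ (ψ' : Cfsg.IrrCharacter G) (l' : ZMod p), l' ≠ 0 ∧
      Cfsg.classInner (b42Prod (χ₁ : G → ℂ) (χ₂ : G → ℂ)) (ψ' : G → ℂ) ≠ 0 ∧
      ∀ b : ℕ, ¬ p ∣ b → (ψ' : G → ℂ) (x ^ b)
        = ∑ᶠ s ∈ normUnits p x,
            d1zeta p ^ ((b : ZMod p) * ((s : (ZMod p)ˣ) : ZMod p) * l').val := by
  classical
  have hp : p.Prime := Fact.out
  -- the modulus `M₀`
  have hpG : p ∣ Nat.card G := by rw [← h.hx]; exact orderOf_dvd_natCard x
  obtain ⟨M₀, hM₀⟩ := hpG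
  have hM₀p : ¬ p ∣ M₀ := by
    intro hd; apply h.hsq; rw [hM₀, pow_two]; exact mul_dvd_mul_left p hd
  have hGM : Nat.card G ∣ p * M₀ := by rw [hM₀]
  obtain ⟨-, hin, -⟩ := Helper65.d1_inertial p x K h M₀ hM₀p hGM
  choose τ hτfix hτζ hτval using hin
  -- the Galois conjugates
  set ψ : (ZMod p)ˣ → Cfsg.IrrCharacter G := fun u => Helper79.galIrr (τ u) ψ₀ with hψ
  -- the finite set `F`
  set Fs : Finset (ZMod p)ˣ := Finset.univ.filter (fun s => s ∈ F) with hFs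
  have hFsc : (Fs : Set (ZMod p)ˣ) = normUnits p x := by
    rw [← hF]; ext s; simp [hFs]
  have hfin : ∀ g : (ZMod p)ˣ → ℂ, ∑ᶠ s ∈ normUnits p x, g s = ∑ s ∈ Fs, g s := by
    intro g
    rw [← hFsc, finsum_mem_coe_finset]
  have hFs1 : (1 : (ZMod p)ˣ) ∈ Fs := by simp [hFs, F.one_mem]
  have hN : 0 < Fs.card := Finset.card_pos.2 ⟨1, hFs1⟩
  -- values of the conjugates on the `p`-singular elements
  have hval : ∀ (u : (ZMod p)ˣ) (b : ℕ), ¬ p ∣ b → ∀ k ∈ K, (ψ u : G → ℂ) (x ^ b * k)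
      = ∑ s ∈ Fs, d1zeta p ^ ((b : ZMod p) * (s : ZMod p) * ((u : ZMod p) * l)).val := by
    intro u b hb k hk
    have e1 : (ψ u : G → ℂ) (x ^ b * k) = τ u ((ψ₀ : G → ℂ) (x ^ b * k)) := rfl
    have e2 := hτval u ψ₀ b ⟨k, hk⟩
    rw [e1, e2]
    have hb' : ¬ p ∣ b * (u : ZMod p).val := by
      intro hd
      rcases (Nat.Prime.dvd_mul hp).1 hd with h1 | h1
      · exact hb h1
      · have h2 : (((u : ZMod p).val : ℕ) : ZMod p) = 0 := (ZMod.natCast_eq_zero_iff _ _).2 h1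
        rw [ZMod.natCast_zmod_val] at h2
        exact u.ne_zero h2
    rw [hexc _ hb' k hk, hfin]
    refine Finset.sum_congr rfl (fun s _ => ?_)
    have e3 : ((b * (u : ZMod p).val : ℕ) : ZMod p) * (s : ZMod p) * l
        = (b : ZMod p) * (s : ZMod p) * ((u : ZMod p) * l) := by
      push_cast
      rw [ZMod.natCast_zmod_val]; ring
    rw [e3]
  -- the function `Φ`
  set Φ : G → ℂ := fun g => (Fs.card : ℂ) + ∑ u : (ZMod p)ˣ, (ψ u : G → ℂ) g with hΦ
  have hΦ0 : ∀ g : G, p ∣ orderOf g → Φ g = 0 := by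
    intro g hg
    obtain ⟨y, b, k, hb, hk, hyg⟩ := hps g hg
    have hb0 : (b : ZMod p) ≠ 0 := fun h0 => hb ((ZMod.natCast_eq_zero_iff _ _).1 h0)
    have hcl : ∀ u : (ZMod p)ˣ, (ψ u : G → ℂ) g
        = ∑ s ∈ Fs, d1zeta p ^ ((b : ZMod p) * (s : ZMod p) * ((u : ZMod p) * l)).val := by
      intro u
      rw [← hval u b hb k hk, ← hyg]
      exact (Helper79.isCharacter_conj_eq (Helper79.isCharacter_of_irr (ψ u).2) g y).symm
    have hs : ∀ s ∈ Fs, ∑ u : (ZMod p)ˣ,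
        d1zeta p ^ ((b : ZMod p) * (s : ZMod p) * ((u : ZMod p) * l)).val = -1 := by
      intro s _
      have hc : (b : ZMod p) * (s : ZMod p) * l ≠ 0 := mul_ne_zero (mul_ne_zero hb0 s.ne_zero) hl
      rw [← b42keyy_units_zeta p _ hc]
      refine Finset.sum_congr rfl (fun u _ => ?_)
      have e : (b : ZMod p) * (s : ZMod p) * ((u : ZMod p) * l)
          = (u : ZMod p) * ((b : ZMod p) * (s : ZMod p) * l) := by ring
      rw [e]
    show (Fs.card : ℂ) + ∑ u : (ZMod p)ˣ, (ψ u : G → ℂ) g = 0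
    rw [Finset.sum_congr rfl (fun u _ => hcl u), Finset.sum_comm, Finset.sum_congr rfl hs,
      Finset.sum_const, nsmul_eq_mul]
    ring
  -- linearity of the inner product in `Φ`
  have hlin : ∀ A : G → ℂ, Cfsg.classInner A Φ
      = (Fs.card : ℂ) * Cfsg.classInner A (fun _ => (1 : ℂ))
        + ∑ u : (ZMod p)ˣ, Cfsg.classInner A (ψ u : G → ℂ) := by
    intro A
    have e1 : ∀ g : G, A g * conj (Φ g) = (Fs.card : ℂ) * (A g * conj (1 : ℂ))
        + ∑ u : (ZMod p)ˣ, A g * conj ((ψ u : G → ℂ) g) := by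
      intro g
      show A g * conj ((Fs.card : ℂ) + ∑ u : (ZMod p)ˣ, (ψ u : G → ℂ) g) = _
      rw [map_add, map_natCast, map_sum, mul_add, Finset.mul_sum, map_one]
      ring
    unfold Cfsg.classInner
    rw [Finset.sum_congr rfl (fun g _ => e1 g), Finset.sum_add_distrib, ← Finset.mul_sum,
      Finset.sum_comm, mul_add, ← Finset.mul_sum]
    ring
  -- inner products with the trivial character
  have hone : ∀ χ χ' : Cfsg.IrrCharacter G,
      Cfsg.classInner (b42Prod (χ : G → ℂ) (χ' : G → ℂ)) (fun _ => (1 : ℂ))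
        = if χ = χ' then 1 else 0 := by
    intro χ χ'
    rw [← Helper3.classInner_irr χ χ']
    unfold Cfsg.classInner b42Prod
    simp
  -- the key identity
  have hkey : Cfsg.classInner (b42Prod (χ₁ : G → ℂ) (χ₁ : G → ℂ)) Φ
      = Cfsg.classInner (b42Prod (χ₁ : G → ℂ) (χ₂ : G → ℂ)) Φ := by
    unfold Cfsg.classInner
    congr 1
    refine Finset.sum_congr rfl (fun g _ => ?_)
    by_cases hg : p ∣ orderOf g
    · rw [hΦ0 g hg]; simp
    · unfold b42Prod; rw [hreg g hg]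
  rw [hlin, hlin, hone, hone, if_pos rfl, if_neg hne] at hkey
  -- natural numbers
  have hA : Cfsg.IsCharacter G (b42Prod (χ₁ : G → ℂ) (χ₁ : G → ℂ)) :=
    Helper79.isCharacter_mul (Helper79.isCharacter_of_irr χ₁.2)
      (Helper79.isCharacter_conj (Helper79.isCharacter_of_irr χ₁.2))
  have hB : Cfsg.IsCharacter G (b42Prod (χ₁ : G → ℂ) (χ₂ : G → ℂ)) :=
    Helper79.isCharacter_mul (Helper79.isCharacter_of_irr χ₁.2)
      (Helper79.isCharacter_conj (Helper79.isCharacter_of_irr χ₂.2))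
  have hnA : ∀ u : (ZMod p)ˣ, ∃ n : ℕ,
      Cfsg.classInner (b42Prod (χ₁ : G → ℂ) (χ₁ : G → ℂ)) (ψ u : G → ℂ) = (n : ℂ) :=
    fun u => Helper3.classInner_isCharacter_nat hA (Helper79.isCharacter_of_irr (ψ u).2)
  choose nA hnA using hnA
  by_contra hcon
  push Not at hcon
  have hz : ∀ u : (ZMod p)ˣ,
      Cfsg.classInner (b42Prod (χ₁ : G → ℂ) (χ₂ : G → ℂ)) (ψ u : G → ℂ) = 0 := by
    intro u
    by_contra hu
    have hlu : (u : ZMod p) * l ≠ 0 := mul_ne_zero u.ne_zero hl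
    obtain ⟨b, hb, hbne⟩ := hcon (ψ u) ((u : ZMod p) * l) hlu hu
    apply hbne
    have e := hval u b hb 1 K.one_mem
    rw [mul_one] at e
    rw [e, hfin]
  rw [Finset.sum_congr rfl (fun u _ => hz u), Finset.sum_congr rfl (fun u _ => hnA u)] at hkey
  simp only [mul_one, mul_zero, Finset.sum_const_zero, add_zero] at hkey
  have hkey' : ((Fs.card + ∑ u : (ZMod p)ˣ, nA u : ℕ) : ℂ) = 0 := by
    push_cast; exact hkey
  have := Nat.cast_eq_zero.1 hkey'
  omega
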