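import Mathlib
import Cfsg.Agent.Helper15.B42Defs
import Cfsg.Agent.Helper77.D1Final

universe u
set_option autoImplicit false
open Cfsg Cfsg.Agent.Helper77 Cfsg.Agent.Helper15
open scoped ComplexConjugate

namespace Cfsg.Agent.Helper67

variable {G : Type u} [Group G] [Finite G]

set_option linter.unusedSectionVars false

/-- If `x` has prime order `p` and `x ∉ L`, then `L ∩ ⟨x⟩ = 1`. -/
theorem b42gt3_inter (p : ℕ) [Fact p.Prime] (x : G) (hx : orderOf x = p)
    (L : Subgroup G) (hxL : x ∉ L) (y : G) (hyL : y ∈ L) (hyx : y ∈ Subgroup.zpowers x) :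
    y = 1 := by
  by_contra hy1
  apply hxL
  obtain ⟨k, rfl⟩ := hyx
  -- order of x^k is p
  have hp : p.Prime := Fact.out
  have hord : orderOf (x ^ k) = p := by
    have hdvd : orderOf (x ^ k) ∣ p := by
      rw [← hx]; exact orderOf_dvd_of_pow_eq_one (by rw [← zpow_natCast, ← zpow_mul, mul_comm, zpow_mul, zpow_natCast, pow_orderOf_eq_one, one_zpow])
    rcases (Nat.dvd_prime hp).1 hdvd with h | h
    · exact absurd (orderOf_eq_one_iff.1 h) hy1
    · exact h
  have hx_mem : x ∈ Subgroup.zpowers (x ^ k) := by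
    have hle : Subgroup.zpowers (x ^ k) ≤ Subgroup.zpowers x :=
      Subgroup.zpowers_le.2 ⟨k, rfl⟩
    have hcard : Nat.card (Subgroup.zpowers (x ^ k)) = Nat.card (Subgroup.zpowers x) := by
      rw [Nat.card_zpowers, Nat.card_zpowers, hord, hx]
    have heq : Subgroup.zpowers (x ^ k) = Subgroup.zpowers x :=
      Subgroup.eq_of_le_of_card_ge hle (le_of_eq hcard.symm)
    rw [heq]; exact Subgroup.mem_zpowers x
  exact (Subgroup.zpowers_le.2 hyL) hx_mem

/-- GT3 -/
theorem b42_normal_central (p : ℕ) [Fact p.Prime] (x : G) (hx : orderOf x = p)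
    (hmin : ∀ H : Subgroup G, H ≠ ⊤ → x ∈ H → ∀ h ∈ H, h * x * h⁻¹ ∈ Subgroup.zpowers x)
    (htop : ∀ L : Subgroup G, L.Normal → x ∈ L → L = ⊤)
    (u : (ZMod p)ˣ) (hu : u ∈ normUnits p x) (hu1 : u ≠ 1)
    (L : Subgroup G) (hL : L.Normal) (hxL : x ∉ L) : L ≤ Subgroup.center G := by
  have hp : p.Prime := Fact.out
  -- key: every l ∈ L with l x l⁻¹ ∈ ⟨x⟩ commutes with x
  have hkey : ∀ l ∈ L, l * x * l⁻¹ ∈ Subgroup.zpowers x → l * x = x * l := by
    intro l hl hmem
    have h1 : l * x * l⁻¹ * x⁻¹ ∈ L := by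
      have : l * x * l⁻¹ * x⁻¹ = l * (x * l⁻¹ * x⁻¹) := by group
      rw [this]
      exact L.mul_mem hl (hL.conj_mem _ (L.inv_mem hl) x)
    have h2 : l * x * l⁻¹ * x⁻¹ ∈ Subgroup.zpowers x :=
      (Subgroup.zpowers x).mul_mem hmem ((Subgroup.zpowers x).inv_mem (Subgroup.mem_zpowers x))
    have h3 := b42gt3_inter p x hx L hxL _ h1 h2
    have : l * x = (l * x * l⁻¹ * x⁻¹) * (x * l) := by group
    rw [this, h3, one_mul]
  have hcomm : ∀ l ∈ L, l * x = x * l := by
    intro l hl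
    by_cases hH : L ⊔ Subgroup.zpowers x = ⊤
    · exfalso
      apply hu1
      obtain ⟨n, hn⟩ := hu
      have hnmem : n ∈ L ⊔ Subgroup.zpowers x := by rw [hH]; trivial
      obtain ⟨l', hl', z, hz, rfl⟩ := (Subgroup.mem_sup_of_normal_left (hs := hL)).1 hnmem
      obtain ⟨k, rfl⟩ := hz
      have hconj : l' * x ^ k * x * (l' * x ^ k)⁻¹ = l' * x * l'⁻¹ := by
        have : x ^ k * x * (x ^ k)⁻¹ = x := by
          rw [← zpow_add_one, ← zpow_neg, ← zpow_add]; simp
        calc l' * x ^ k * x * (l' * x ^ k)⁻¹ = l' * (x ^ k * x * (x ^ k)⁻¹) * l'⁻¹ := by group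
          _ = l' * x * l'⁻¹ := by rw [this]
      rw [hconj] at hn
      have hmem : l' * x * l'⁻¹ ∈ Subgroup.zpowers x := by
        rw [hn]; exact Subgroup.npow_mem_zpowers x _
      have hc := hkey l' hl' hmem
      have hxx : x ^ (u : ZMod p).val = x := by
        rw [← hn, hc]; group
      -- so u.val ≡ 1 mod p
      have h1 : x ^ ((u : ZMod p).val) = x ^ 1 := by rw [hxx, pow_one]
      have h2 := (pow_eq_pow_iff_modEq).1 h1
      rw [hx] at h2
      have h3 : (((u : ZMod p).val : ℕ) : ZMod p) = ((1 : ℕ) : ZMod p) :=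
        (ZMod.natCast_eq_natCast_iff _ _ _).2 h2
      rw [ZMod.natCast_zmod_val, Nat.cast_one] at h3
      exact Units.ext h3
    · have hxH : x ∈ L ⊔ Subgroup.zpowers x :=
        (le_sup_right : Subgroup.zpowers x ≤ L ⊔ Subgroup.zpowers x) (Subgroup.mem_zpowers x)
      have hlH : l ∈ L ⊔ Subgroup.zpowers x := (le_sup_left : L ≤ L ⊔ Subgroup.zpowers x) hl
      exact hkey l hl (hmin _ hH hxH l hlH)
  -- the centralizer of L is normal and contains x
  have hC : Subgroup.centralizer (L : Set G) = ⊤ := by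
    apply htop _ (@Subgroup.normal_centralizer G _ L hL)
    rw [Subgroup.mem_centralizer_iff]
    intro l hl
    exact hcomm l hl
  intro l hl
  rw [Subgroup.mem_center_iff]
  intro g
  have hg : g ∈ Subgroup.centralizer (L : Set G) := by rw [hC]; trivial
  rw [Subgroup.mem_centralizer_iff] at hg
  exact (hg l hl).symm
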