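import Mathlib
import Cfsg.Agent.Helper52.K2B2b1

/-!
# PIECE B1 of CALL S4648 (helper77): codimension of the commutator space

`kul_codim`: in a symmetric algebra whose centre has dimension at most 4, any five elements
are linearly dependent modulo the span of the commutators.
-/

set_option autoImplicit false

namespace Cfsg.Agent.Helper67

universe u v w

variable {k : Type v} [Field k] {A : Type u} [Ring A] [Algebra k A]

theorem kul_codim [FiniteDimensional k A] (lam : A →ₗ[k] k)
    (hsym : ∀ x y, lam (x * y) = lam (y * x))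
    (hnd : ∀ x, (∀ y, lam (x * y) = 0) → x = 0)
    (hZ : ∀ v : Fin 5 → A, (∀ i a, v i * a = a * v i) → ¬ LinearIndependent k v)
    (x : Fin 5 → A) :
    ∃ c : Fin 5 → k, c ≠ 0 ∧
      ∑ i, c i • x i ∈ Submodule.span k {w : A | ∃ s t : A, w = s * t - t * s} := by
  classical
  set W : Submodule k A := Submodule.span k {w : A | ∃ s t : A, w = s * t - t * s} with hWdef
  have hWc : ∀ s t : A, s * t - t * s ∈ W := fun s t => Submodule.subset_span ⟨s, t, rfl⟩
  by_contra hcon
  push Not at hcon
  let F : (Fin 5 → k) →ₗ[k] (A ⧸ W) := W.mkQ.comp (Fintype.linearCombination k x)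
  have hF : LinearMap.ker F = ⊥ := by
    rw [LinearMap.ker_eq_bot']
    intro c hc
    by_contra h0
    apply hcon c h0
    have h1 : W.mkQ (∑ i, c i • x i) = 0 := hc
    exact (Submodule.Quotient.mk_eq_zero W).mp h1
  obtain ⟨G, hG⟩ := LinearMap.exists_leftInverse_of_injective F hF
  let L : A →ₗ[k] (Fin 5 → k) := G.comp W.mkQ
  have hLW : ∀ w ∈ W, L w = 0 := by
    intro w hw
    show G (W.mkQ w) = 0
    rw [Submodule.mkQ_apply, (Submodule.Quotient.mk_eq_zero W).mpr hw, map_zero]
  have hLx : ∀ c : Fin 5 → k, L (∑ i, c i • x i) = c := by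
    intro c
    have h1 : (G.comp F) c = c := by rw [hG]; rfl
    exact h1
  have hLxj : ∀ j, L (x j) = Pi.single j 1 := by
    intro j
    have h1 := hLx (Pi.single j 1)
    have h2 : ∑ i, (Pi.single j (1 : k) : Fin 5 → k) i • x i = x j := by
      rw [Finset.sum_eq_single j]
      · simp
      · intro i _ hij
        simp [hij]
      · simp
    rwa [h2] at h1
  have hτ : ∀ i : Fin 5, ∃ c : A, (∀ a', c * a' = a' * c) ∧ ∀ y, (L y) i = lam (c * y) := by
    intro i
    refine Cfsg.Agent.Helper52.k2_duality lam hsym hnd ((LinearMap.proj i).comp L) ?_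
    intro y w
    have h := hLW _ (hWc y w)
    rw [map_sub, sub_eq_zero] at h
    show (L (y * w)) i = (L (w * y)) i
    rw [h]
  choose cc hcc1 hcc2 using hτ
  apply hZ cc (fun i a' => hcc1 i a')
  rw [Fintype.linearIndependent_iff]
  intro α hα j
  have h1 : lam ((∑ i, α i • cc i) * x j) = 0 := by rw [hα, zero_mul, map_zero]
  rw [Finset.sum_mul, map_sum] at h1
  have h2 : ∀ i, lam (α i • cc i * x j) = α i * (Pi.single j (1 : k) : Fin 5 → k) i := by
    intro i
    rw [smul_mul_assoc, map_smul, smul_eq_mul, ← hcc2 i (x j), hLxj j]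
  rw [Finset.sum_congr rfl fun i _ => h2 i, Finset.sum_eq_single j] at h1
  · simpa using h1
  · intro i _ hij
    simp [hij]
  · simp

end Cfsg.Agent.Helper67
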