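import Mathlib

set_option autoImplicit false

namespace Cfsg.Agent.Helper67

theorem g2exp_key (q : ℕ) (hq : 5 ≤ q) (c1 c2 : ℤ) (h1 : |c1| ≤ 4) (h2 : |c2| ≤ 4)
    (hne : ¬(c1 = 0 ∧ c2 = 0)) :
    ¬ (((q : ℤ) ^ 2 + q + 1) ∣ c1 + c2 * q) := by
  intro hdvd
  have hQ : (5 : ℤ) ≤ q := by exact_mod_cast hq
  obtain ⟨h1l, h1u⟩ := abs_le.mp h1
  obtain ⟨h2l, h2u⟩ := abs_le.mp h2
  have hup : c1 + c2 * q ≤ 4 + 4 * q := by nlinarith
  have hlo : -(4 + 4 * q) ≤ c1 + c2 * q := by nlinarith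
  have habs : |c1 + c2 * q| < (q : ℤ) ^ 2 + q + 1 := by
    rw [abs_lt]; constructor <;> nlinarith
  have h0 := Int.eq_zero_of_abs_lt_dvd hdvd habs
  by_cases hc2 : c2 = 0
  · subst hc2
    simp at h0
    exact hne ⟨h0, rfl⟩
  · rcases lt_or_gt_of_ne hc2 with h | h
    · have : c2 ≤ -1 := by omega
      nlinarith
    · have : 1 ≤ c2 := by omega
      nlinarith

theorem g2exp_mem_bound (a : ℤ × ℤ)
    (ha : a ∈ [((-1 : ℤ), (-2 : ℤ)), (-2, -1), (-1, -1), (0, -1), (-1, 0), (1, -1), (-1, 1), (1, 0),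
      (0, 1), (1, 1), (2, 1), (1, 2)]) :
    (-2 ≤ a.1 ∧ a.1 ≤ 2) ∧ (-2 ≤ a.2 ∧ a.2 ≤ 2) ∧ ¬(a.1 = 0 ∧ a.2 = 0) := by
  simp only [List.mem_cons, List.not_mem_nil, or_false] at ha
  rcases ha with rfl | rfl | rfl | rfl | rfl | rfl | rfl | rfl | rfl | rfl | rfl | rfl <;>
    norm_num

theorem g2_exponents_distinct (q : ℕ) (hq : 3 ≤ q) (a b : ℤ × ℤ)
    (ha : a ∈ [((-1 : ℤ), (-2 : ℤ)), (-2, -1), (-1, -1), (0, -1), (-1, 0), (1, -1), (-1, 1), (1, 0),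
      (0, 1), (1, 1), (2, 1), (1, 2)])
    (hb : b ∈ [((-1 : ℤ), (-2 : ℤ)), (-2, -1), (-1, -1), (0, -1), (-1, 0), (1, -1), (-1, 1), (1, 0),
      (0, 1), (1, 1), (2, 1), (1, 2)])
    (hab : a ≠ b) :
    ¬ (((q : ℤ) ^ 2 + q + 1) ∣ (a.1 - b.1) + (a.2 - b.2) * q) := by
  rcases Nat.lt_or_ge q 5 with h5 | h5
  · have hq34 : q = 3 ∨ q = 4 := by omega
    simp only [List.mem_cons, List.not_mem_nil, or_false] at ha hb
    rcases hq34 with rfl | rfl
    · rcases ha with rfl | rfl | rfl | rfl | rfl | rfl | rfl | rfl | rfl | rfl | rfl | rfl <;>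
        rcases hb with rfl | rfl | rfl | rfl | rfl | rfl | rfl | rfl | rfl | rfl | rfl | rfl <;>
        first
        | exact absurd rfl hab
        | norm_num
    · rcases ha with rfl | rfl | rfl | rfl | rfl | rfl | rfl | rfl | rfl | rfl | rfl | rfl <;>
        rcases hb with rfl | rfl | rfl | rfl | rfl | rfl | rfl | rfl | rfl | rfl | rfl | rfl <;>
        first
        | exact absurd rfl hab
        | norm_num
  · obtain ⟨⟨a1l, a1u⟩, ⟨a2l, a2u⟩, -⟩ := g2exp_mem_bound a ha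
    obtain ⟨⟨b1l, b1u⟩, ⟨b2l, b2u⟩, -⟩ := g2exp_mem_bound b hb
    apply g2exp_key q h5
    · rw [abs_le]; constructor <;> omega
    · rw [abs_le]; constructor <;> omega
    · rintro ⟨h1, h2⟩
      exact hab (Prod.ext (by omega) (by omega))

theorem g2_exponents_ne_zero (q : ℕ) (hq : 3 ≤ q) (a : ℤ × ℤ)
    (ha : a ∈ [((-1 : ℤ), (-2 : ℤ)), (-2, -1), (-1, -1), (0, -1), (-1, 0), (1, -1), (-1, 1), (1, 0),
      (0, 1), (1, 1), (2, 1), (1, 2)]) :
    ¬ (((q : ℤ) ^ 2 + q + 1) ∣ a.1 + a.2 * q) := by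
  rcases Nat.lt_or_ge q 5 with h5 | h5
  · have hq34 : q = 3 ∨ q = 4 := by omega
    simp only [List.mem_cons, List.not_mem_nil, or_false] at ha
    rcases hq34 with rfl | rfl
    · rcases ha with rfl | rfl | rfl | rfl | rfl | rfl | rfl | rfl | rfl | rfl | rfl | rfl <;>
        norm_num
    · rcases ha with rfl | rfl | rfl | rfl | rfl | rfl | rfl | rfl | rfl | rfl | rfl | rfl <;>
        norm_num
  · obtain ⟨⟨a1l, a1u⟩, ⟨a2l, a2u⟩, hne⟩ := g2exp_mem_bound a ha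
    apply g2exp_key q h5
    · rw [abs_le]; constructor <;> omega
    · rw [abs_le]; constructor <;> omega
    · exact hne

end Cfsg.Agent.Helper67
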