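import Mathlib

namespace Cfsg.Agent.Helper67

open Finset

/-- In a field with `q ^ 2` elements, `q ≥ 2`. -/
theorem hgs_two_le {F : Type*} [Field F] [Fintype F] (q : ℕ) (hF : Fintype.card F = q ^ 2) :
    2 ≤ q := by
  by_contra h
  rw [not_le] at h
  have h1 : 1 < Fintype.card F := Fintype.one_lt_card
  interval_cases q <;> simp_all

/-- The norm `c ↦ c * c ^ q` is onto the nonzero fixed points of `x ↦ x ^ q`. -/
theorem hgs_norm_surj {F : Type*} [Field F] [Fintype F] (q : ℕ) (hF : Fintype.card F = q ^ 2)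
    (a : F) (ha : a ≠ 0) (hfix : a ^ q = a) : ∃ c : F, c * c ^ q = a := by
  classical
  have hq2 : 2 ≤ q := hgs_two_le q hF
  obtain ⟨g, hg⟩ := IsCyclic.exists_generator (α := Fˣ)
  have hcard : Fintype.card Fˣ = q ^ 2 - 1 := by rw [Fintype.card_units, hF]
  have hord : orderOf g = q ^ 2 - 1 := by
    rw [orderOf_eq_card_of_forall_mem_zpowers hg, Nat.card_eq_fintype_card, hcard]
  obtain ⟨k, hk⟩ : ∃ k : ℕ, g ^ k = Units.mk0 a ha := by
    have h1 := hg (Units.mk0 a ha)
    have h2 := (mem_powers_iff_mem_zpowers (x := g) (y := Units.mk0 a ha)).mpr h1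
    exact (Submonoid.mem_powers_iff _ _).mp h2
  have h1 : (Units.mk0 a ha) ^ (q - 1) = 1 := by
    apply Units.ext
    simp only [Units.val_pow_eq_pow_val, Units.val_mk0, Units.val_one]
    have h3 : a ^ (q - 1) * a = a := by
      rw [← pow_succ]
      have : q - 1 + 1 = q := by omega
      rw [this, hfix]
    have h4 : (a ^ (q - 1) - 1) * a = 0 := by rw [sub_mul, h3, one_mul, sub_self]
    rcases mul_eq_zero.mp h4 with h5 | h5
    · exact sub_eq_zero.mp h5
    · exact absurd h5 ha
  rw [← hk, ← pow_mul] at h1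
  have hdvd : q ^ 2 - 1 ∣ k * (q - 1) := by rw [← hord]; exact orderOf_dvd_of_pow_eq_one h1
  have hfact : q ^ 2 - 1 = (q + 1) * (q - 1) := by
    obtain ⟨r, rfl⟩ : ∃ r, q = r + 1 := ⟨q - 1, by omega⟩
    simp only [Nat.add_sub_cancel]
    have : (r + 1) ^ 2 = (r + 1 + 1) * r + 1 := by ring
    rw [this, Nat.add_sub_cancel]
  rw [hfact] at hdvd
  have hdvd2 : q + 1 ∣ k := Nat.dvd_of_mul_dvd_mul_right (by omega : 0 < q - 1) hdvd
  obtain ⟨j, rfl⟩ := hdvd2
  refine ⟨((g ^ j : Fˣ) : F), ?_⟩
  rw [← pow_succ']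
  have h6 := congrArg Units.val hk
  simp only [Units.val_pow_eq_pow_val, Units.val_mk0] at h6
  rw [← h6, Units.val_pow_eq_pow_val, ← pow_mul, mul_comm]

/-- Some element is moved by `x ↦ x ^ q`. -/
theorem hgs_exists_moved {F : Type*} [Field F] [Fintype F] (q : ℕ) (hF : Fintype.card F = q ^ 2) :
    ∃ c : F, c ^ q ≠ c := by
  classical
  have hq2 : 2 ≤ q := hgs_two_le q hF
  obtain ⟨g, hg⟩ := IsCyclic.exists_generator (α := Fˣ)
  have hcard : Fintype.card Fˣ = q ^ 2 - 1 := by rw [Fintype.card_units, hF]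
  have hord : orderOf g = q ^ 2 - 1 := by
    rw [orderOf_eq_card_of_forall_mem_zpowers hg, Nat.card_eq_fintype_card, hcard]
  refine ⟨(g : F), fun h => ?_⟩
  have h1 : g ^ (q - 1) = 1 := by
    apply Units.ext
    simp only [Units.val_pow_eq_pow_val, Units.val_one]
    have h3 : (g : F) ^ (q - 1) * (g : F) = (g : F) := by
      rw [← pow_succ]
      have : q - 1 + 1 = q := by omega
      rw [this, h]
    have h4 : ((g : F) ^ (q - 1) - 1) * (g : F) = 0 := by rw [sub_mul, h3, one_mul, sub_self]
    rcases mul_eq_zero.mp h4 with h5 | h5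
    · exact sub_eq_zero.mp h5
    · exact absurd h5 g.ne_zero
  have hdvd : q ^ 2 - 1 ∣ q - 1 := by rw [← hord]; exact orderOf_dvd_of_pow_eq_one h1
  have hle := Nat.le_of_dvd (by omega) hdvd
  have : q ^ 2 ≥ 2 * q := by nlinarith
  omega

/-- The sesquilinear form attached to `A` and `σ`. -/
def hgsForm {F : Type*} [Field F] {m : ℕ} (A : Matrix (Fin m) (Fin m) F) (σ : F ≃+* F)
    (x y : Fin m → F) : F := ∑ i, ∑ j, x i * A i j * σ (y j)

section form

variable {F : Type*} [Field F] {m : ℕ} (A : Matrix (Fin m) (Fin m) F) (σ : F ≃+* F)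

theorem hgsForm_add_left (x x' y : Fin m → F) :
    hgsForm A σ (x + x') y = hgsForm A σ x y + hgsForm A σ x' y := by
  simp [hgsForm, add_mul, Finset.sum_add_distrib]

theorem hgsForm_smul_left (c : F) (x y : Fin m → F) :
    hgsForm A σ (c • x) y = c * hgsForm A σ x y := by
  simp [hgsForm, Finset.mul_sum, mul_assoc]

theorem hgsForm_add_right (x y y' : Fin m → F) :
    hgsForm A σ x (y + y') = hgsForm A σ x y + hgsForm A σ x y' := by
  simp [hgsForm, mul_add, Finset.sum_add_distrib]

theorem hgsForm_smul_right (c : F) (x y : Fin m → F) :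
    hgsForm A σ x (c • y) = σ c * hgsForm A σ x y := by
  simp only [hgsForm, Pi.smul_apply, smul_eq_mul, map_mul, Finset.mul_sum]
  refine Finset.sum_congr rfl fun i _ => Finset.sum_congr rfl fun j _ => ?_
  ring

theorem hgsForm_zero_left (y : Fin m → F) : hgsForm A σ 0 y = 0 := by
  simp [hgsForm]

theorem hgsForm_zero_right (x : Fin m → F) : hgsForm A σ x 0 = 0 := by
  simp [hgsForm]

theorem hgsForm_neg_left (x y : Fin m → F) : hgsForm A σ (-x) y = - hgsForm A σ x y := by
  simp [hgsForm]

theorem hgsForm_sub_left (x x' y : Fin m → F) :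
    hgsForm A σ (x - x') y = hgsForm A σ x y - hgsForm A σ x' y := by
  rw [sub_eq_add_neg, hgsForm_add_left, hgsForm_neg_left, ← sub_eq_add_neg]

theorem hgsForm_sum_left {ι : Type*} (s : Finset ι) (f : ι → Fin m → F) (y : Fin m → F) :
    hgsForm A σ (∑ k ∈ s, f k) y = ∑ k ∈ s, hgsForm A σ (f k) y := by
  classical
  induction s using Finset.induction_on with
  | empty => simp [hgsForm_zero_left]
  | insert a s ha ih => rw [Finset.sum_insert ha, Finset.sum_insert ha, hgsForm_add_left, ih]

theorem hgsForm_herm (hA : A.transpose = A.map σ) (hσσ : ∀ x, σ (σ x) = x) (x y : Fin m → F) :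
    hgsForm A σ y x = σ (hgsForm A σ x y) := by
  have hA' : ∀ i j, σ (A i j) = A j i := by
    intro i j
    have := congrFun (congrFun hA i) j
    simp only [Matrix.transpose_apply, Matrix.map_apply] at this
    exact this.symm
  simp only [hgsForm, map_sum, map_mul, hA', hσσ]
  rw [Finset.sum_comm]
  refine Finset.sum_congr rfl fun i _ => Finset.sum_congr rfl fun j _ => ?_
  ring

theorem hgsForm_nondeg (hdet : A.det ≠ 0) (x : Fin m → F)
    (h : ∀ y, hgsForm A σ x y = 0) : x = 0 := by
  classical
  apply Matrix.eq_zero_of_vecMul_eq_zero hdet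
  funext j
  have := h (Pi.single j 1)
  simp only [hgsForm] at this
  simp only [Matrix.vecMul, dotProduct, Pi.zero_apply]
  rw [← this]
  refine Finset.sum_congr rfl fun i _ => ?_
  rw [Finset.sum_eq_single j]
  · simp
  · intro b _ hb
    simp [Pi.single_eq_of_ne hb]
  · intro hj; exact absurd (Finset.mem_univ j) hj

end form

theorem hgs_orthonormal {F : Type*} [Field F] [Fintype F] (q : ℕ) (hF : Fintype.card F = q ^ 2)
    (σ : F ≃+* F) (hσ : ∀ x, σ x = x ^ q) (m : ℕ) (A : Matrix (Fin m) (Fin m) F)
    (hA : A.transpose = A.map σ) (hdet : A.det ≠ 0) :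
    ∀ k, k ≤ m → ∃ u : Fin k → (Fin m → F),
      ∀ i j, hgsForm A σ (u i) (u j) = if i = j then 1 else 0 := by
  classical
  have hσσ : ∀ x, σ (σ x) = x := by
    intro x; rw [hσ, hσ, ← pow_mul, ← sq, ← hF, FiniteField.pow_card]
  have herm := hgsForm_herm A σ hA hσσ
  intro k
  induction k with
  | zero => intro _; exact ⟨Fin.elim0, fun i => i.elim0⟩
  | succ k ih =>
    intro hk
    obtain ⟨u, hu⟩ := ih (by omega)
    have hlt : Module.finrank F (Submodule.span F (Set.range u)) <
        Module.finrank F (Fin m → F) := by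
      calc Module.finrank F (Submodule.span F (Set.range u)) ≤ Fintype.card (Fin k) :=
            finrank_range_le_card u
        _ = k := Fintype.card_fin k
        _ < m := hk
        _ = _ := (Module.finrank_fin_fun F).symm
    have hne : Submodule.span F (Set.range u) ≠ ⊤ := by
      intro h; rw [h, finrank_top] at hlt; exact lt_irrefl _ hlt
    obtain ⟨x, hx⟩ : ∃ x, x ∉ Submodule.span F (Set.range u) := by
      by_contra hcon
      rw [not_exists] at hcon
      exact hne (Submodule.eq_top_iff'.mpr fun x => not_not.mp (hcon x))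
    have hpr_orth : ∀ z j,
        hgsForm A σ (z - ∑ i, hgsForm A σ z (u i) • u i) (u j) = 0 := by
      intro z j
      simp only [hgsForm_sub_left, hgsForm_sum_left, hgsForm_smul_left, hu]
      simp
    have hw0 : x - ∑ i, hgsForm A σ x (u i) • u i ≠ 0 := by
      intro h0
      apply hx
      have h1 : x = ∑ i, hgsForm A σ x (u i) • u i := sub_eq_zero.mp h0
      rw [h1]
      exact Submodule.sum_mem _ fun i _ =>
        Submodule.smul_mem _ _ (Submodule.subset_span ⟨i, rfl⟩)
    have hex : ∃ v, (∀ i, hgsForm A σ v (u i) = 0) ∧ hgsForm A σ v v ≠ 0 := by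
      by_contra hcon
      have hcon' : ∀ v, (∀ i, hgsForm A σ v (u i) = 0) → hgsForm A σ v v = 0 := by
        intro v hv
        by_contra h
        exact hcon ⟨v, hv, h⟩
      have hW0 : ∀ v w, (∀ i, hgsForm A σ v (u i) = 0) → (∀ i, hgsForm A σ w (u i) = 0) →
          hgsForm A σ v w = 0 := by
        intro v w hv hw
        have key : ∀ c : F, σ c * hgsForm A σ v w + c * σ (hgsForm A σ v w) = 0 := by
          intro c
          have h1 := hcon' (v + c • w) (by
            intro i; rw [hgsForm_add_left, hgsForm_smul_left, hv, hw]; simp)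
          rw [hgsForm_add_left, hgsForm_add_right, hgsForm_add_right, hgsForm_smul_left,
            hgsForm_smul_left, hgsForm_smul_right, hgsForm_smul_right, hcon' v hv, hcon' w hw,
            herm v w] at h1
          simpa using h1
        have k1 := key 1
        simp only [map_one, one_mul] at k1
        obtain ⟨c0, hc0⟩ := hgs_exists_moved q hF
        have k2 := key c0
        have k3 : σ (hgsForm A σ v w) = - hgsForm A σ v w := by
          rw [eq_neg_iff_add_eq_zero, add_comm]; exact k1
        rw [k3] at k2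
        have k4 : (σ c0 - c0) * hgsForm A σ v w = 0 := by
          rw [sub_mul]; rw [mul_neg] at k2; rw [sub_eq_add_neg]; exact k2
        rcases mul_eq_zero.mp k4 with h5 | h5
        · exfalso; apply hc0; rw [← hσ]; exact sub_eq_zero.mp h5
        · exact h5
      apply hw0
      apply hgsForm_nondeg A σ hdet
      intro y
      have hy : y = (∑ i, hgsForm A σ y (u i) • u i) +
          (y - ∑ i, hgsForm A σ y (u i) • u i) := by
        rw [add_sub_cancel]
      rw [hy, hgsForm_add_right, hW0 _ _ (hpr_orth x) (hpr_orth y), add_zero,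
        herm, hgsForm_sum_left]
      have hz : ∀ i, hgsForm A σ (hgsForm A σ y (u i) • u i)
          (x - ∑ i, hgsForm A σ x (u i) • u i) = 0 := by
        intro i
        rw [hgsForm_smul_left, herm (x - ∑ i, hgsForm A σ x (u i) • u i) (u i), hpr_orth x i]
        simp
      simp only [hz, Finset.sum_const_zero, map_zero]
    obtain ⟨v, hv, hvv⟩ := hex
    have hfix : (hgsForm A σ v v) ^ q = hgsForm A σ v v := by
      rw [← hσ]; exact (herm v v).symm
    have hfix' : (hgsForm A σ v v)⁻¹ ^ q = (hgsForm A σ v v)⁻¹ := by rw [inv_pow, hfix]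
    obtain ⟨c, hc⟩ := hgs_norm_surj q hF _ (inv_ne_zero hvv) hfix'
    refine ⟨Fin.snoc u (c • v), ?_⟩
    intro i j
    induction i using Fin.lastCases with
    | last =>
      induction j using Fin.lastCases with
      | last =>
        simp only [Fin.snoc_last, hgsForm_smul_left, hgsForm_smul_right, hσ, if_true]
        rw [← mul_assoc, mul_comm (c ^ q) c, hc, inv_mul_cancel₀ hvv]
      | cast j =>
        simp only [Fin.snoc_last, Fin.snoc_castSucc, hgsForm_smul_left, hv, mul_zero]
        rw [if_neg (Fin.castSucc_lt_last j).ne']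
    | cast i =>
      induction j using Fin.lastCases with
      | last =>
        simp only [Fin.snoc_last, Fin.snoc_castSucc, hgsForm_smul_right]
        rw [herm, hv, map_zero, mul_zero, if_neg (Fin.castSucc_lt_last i).ne]
      | cast j =>
        simp only [Fin.snoc_castSucc, hu, Fin.castSucc_inj]

theorem herm_gram_schmidt {F : Type*} [Field F] [Fintype F] (q : ℕ) (hF : Fintype.card F = q ^ 2) (σ : F ≃+* F) (hσ : ∀ x, σ x = x ^ q) (m : ℕ) (A : Matrix (Fin m) (Fin m) F) (hA : A.transpose = A.map σ) (hdet : A.det ≠ 0) : ∃ U : Matrix (Fin m) (Fin m) F, U.det ≠ 0 ∧ U.transpose * A * U.map σ = 1 := by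
  classical
  obtain ⟨u, hu⟩ := hgs_orthonormal q hF σ hσ m A hA hdet m le_rfl
  have hUA : (Matrix.of fun l j => u j l).transpose * A *
      (Matrix.of fun l j => u j l).map σ = 1 := by
    ext i j
    rw [Matrix.one_apply, ← hu i j]
    simp only [Matrix.mul_apply, Matrix.transpose_apply, Matrix.of_apply, Matrix.map_apply,
      hgsForm, Finset.sum_mul]
    exact Finset.sum_comm
  refine ⟨Matrix.of fun l j => u j l, ?_, hUA⟩
  intro h0
  have h1 := congrArg Matrix.det hUA
  rw [Matrix.det_mul, Matrix.det_mul, Matrix.det_transpose, h0] at h1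
  simp at h1

end Cfsg.Agent.Helper67
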