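import Mathlib
import Cfsg.Prelude.Def_GeometricClasses
import Cfsg.Agent.Helper96.SpT2d

/-!
# PIECE T2S of CALL S5847 (helper30)

`o10_tensor_two_sim`: a tensor decomposition of the polar form of a quadratic form with an
anisotropic two-dimensional first factor gives a degree-2 field of similarities of `Q`.
-/

set_option autoImplicit false
set_option linter.unusedSectionVars false
set_option linter.unusedVariables false
open Cfsg Cfsg.Geo Matrix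
open scoped Kronecker

namespace Cfsg.Agent.Helper67

open Cfsg.Agent.Helper96.Sy

variable {ι : Type} [Fintype ι] [DecidableEq ι] {F : Type*} [Field F]

theorem o10t2s_sim2 (G : Matrix (Fin 2) (Fin 2) F) (hs : G 1 0 = G 0 1) (α β : F) :
    (α • (1 : Matrix (Fin 2) (Fin 2) F) + β • jm G)ᵀ * G *
        (α • (1 : Matrix (Fin 2) (Fin 2) F) + β • jm G)
      = (α ^ 2 + (G 0 0 * G 1 1 - G 0 1 ^ 2) * β ^ 2) • G := by
  ext i j
  fin_cases i <;> fin_cases j <;>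
    simp [jm, Matrix.mul_apply, Fin.sum_univ_two, Matrix.add_apply, Matrix.smul_apply,
      Matrix.one_apply, hs] <;> ring

theorem o10t2s_dot {κ : Type} [Fintype κ] (N A : Matrix κ κ F) (x y : κ → F) :
    (N *ᵥ x) ⬝ᵥ (A *ᵥ (N *ᵥ y)) = x ⬝ᵥ ((Nᵀ * A * N) *ᵥ y) := by
  rw [(Matrix.vecMul_transpose N x).symm, ← Matrix.dotProduct_mulVec]
  simp only [Matrix.mulVec_mulVec, Matrix.mul_assoc]

theorem o10_tensor_two_sim (h2 : (2 : F) ≠ 0) (Q : (ι → F) → F)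
    (hQ : IsNondegenerateQuadraticForm Q)
    {n₂ : ℕ} (hn₂ : 0 < n₂) (e : ι ≃ Fin 2 × Fin n₂) (P : GL ι F)
    (f₁ : (Fin 2 → F) → (Fin 2 → F) → F) (f₂ : (Fin n₂ → F) → (Fin n₂ → F) → F)
    (hf₁ : IsSymmetricForm f₁) (hf₂ : IsSymmetricForm f₂)
    (hT : IsTensorFormStructure id (QuadraticMap.polar Q) f₁ f₂ e P)
    (haniso : ∀ s : Fin 2 → F, f₁ s s = 0 → s = 0) :
    ∃ K : Subalgebra F (Matrix ι ι F), IsFieldSubalgebra 2 K ∧
      ∀ k ∈ K, ∃ c : F, ∀ v : ι → F, Q (k *ᵥ v) = c * Q v := by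
  classical
  obtain ⟨c, hc, hT⟩ := hT
  obtain ⟨G, hGdef⟩ : ∃ G : Matrix (Fin 2) (Fin 2) F, G = gramMatrix f₁ := ⟨_, rfl⟩
  obtain ⟨G₂, hG₂def⟩ : ∃ G₂ : Matrix (Fin n₂) (Fin n₂) F, G₂ = gramMatrix f₂ := ⟨_, rfl⟩
  have hs : G 1 0 = G 0 1 := by rw [hGdef]; exact hf₁.symm _ _
  obtain ⟨δ, hδ⟩ : ∃ δ : F, δ = G 0 0 * G 1 1 - G 0 1 ^ 2 := ⟨_, rfl⟩
  have hani : ∀ v : Fin 2 → F, v ≠ 0 → f₁ v v ≠ 0 := fun v hv h0 => hv (haniso v h0)
  have hN : ∀ α β : F, α ^ 2 + δ * β ^ 2 = 0 → α = 0 ∧ β = 0 := by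
    intro α β h
    rw [hδ, hGdef] at h
    exact aniso_norm hf₁ hani α β h
  have hcard : Fintype.card ι = 2 * n₂ := by
    have := Fintype.card_congr e
    rw [Fintype.card_prod, Fintype.card_fin, Fintype.card_fin] at this
    exact this
  have hne : Nonempty ι := by
    apply Fintype.card_pos_iff.mp
    rw [hcard]
    omega
  obtain ⟨Jh, hJh⟩ : ∃ Jh : Matrix ι ι F,
      Jh = Helper98.conjReindex e P (jm G ⊗ₖ (1 : Matrix (Fin n₂) (Fin n₂) F)) := ⟨_, rfl⟩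
  have hJsq : Jh * Jh = (-δ) • (1 : Matrix ι ι F) := by
    rw [hJh, ← map_mul, ← Matrix.mul_kronecker_mul, Matrix.one_mul, jm_sq, ← hδ,
      Matrix.smul_kronecker, Matrix.one_kronecker_one, map_smul, map_one]
  obtain ⟨K, hKf, hK⟩ := quadField Jh δ hJsq hN
  refine ⟨K, hKf, ?_⟩
  intro k hk
  obtain ⟨α, β, rfl⟩ := (hK k).mp hk
  refine ⟨α ^ 2 + δ * β ^ 2, ?_⟩
  obtain ⟨M, hM⟩ : ∃ M : Matrix (Fin 2) (Fin 2) F,
      M = α • (1 : Matrix (Fin 2) (Fin 2) F) + β • jm G := ⟨_, rfl⟩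
  have hkN : α • (1 : Matrix ι ι F) + β • Jh
      = Helper98.conjReindex e P (M ⊗ₖ (1 : Matrix (Fin n₂) (Fin n₂) F)) := by
    rw [hM, Matrix.add_kronecker, Matrix.smul_kronecker, Matrix.smul_kronecker,
      Matrix.one_kronecker_one, map_add, map_smul, map_smul, map_one, hJh]
  have hMG : Mᵀ * G * M = (α ^ 2 + δ * β ^ 2) • G := by
    rw [hM, hδ]
    exact o10t2s_sim2 G hs α β
  have hNG : (M ⊗ₖ (1 : Matrix (Fin n₂) (Fin n₂) F))ᵀ * (G ⊗ₖ G₂) *
      (M ⊗ₖ (1 : Matrix (Fin n₂) (Fin n₂) F)) = (α ^ 2 + δ * β ^ 2) • (G ⊗ₖ G₂) := by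
    rw [← Matrix.kroneckerMap_transpose, Matrix.transpose_one, ← Matrix.mul_kronecker_mul,
      ← Matrix.mul_kronecker_mul, Matrix.one_mul, Matrix.mul_one, hMG, Matrix.smul_kronecker]
  have hpol : ∀ x y : Fin 2 × Fin n₂ → F,
      QuadraticMap.polar Q ((α • (1 : Matrix ι ι F) + β • Jh) *ᵥ phiL e P x)
          ((α • (1 : Matrix ι ι F) + β • Jh) *ᵥ phiL e P y)
        = (α ^ 2 + δ * β ^ 2) * QuadraticMap.polar Q (phiL e P x) (phiL e P y) := by
    intro x y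
    rw [hkN, conj_act, conj_act, phiL_apply, phiL_apply, phiL_apply, phiL_apply, hT, hT,
      ← hGdef, ← hG₂def, formOfGram_dot, formOfGram_dot, o10t2s_dot, hNG, Matrix.smul_mulVec,
      dotProduct_smul, smul_eq_mul]
    ring
  have hps : ∀ w : ι → F, QuadraticMap.polar Q w w = 2 * Q w := by
    intro w
    have h1 : w + w = (2 : F) • w := (two_smul F w).symm
    rw [QuadraticMap.polar, h1, hQ.smul]
    ring
  intro v
  have h3 := hpol (psiL e P v) (psiL e P v)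
  rw [phiL_psiL, hps, hps] at h3
  exact mul_left_cancel₀ h2 (by linear_combination h3)

end Cfsg.Agent.Helper67
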