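import Mathlib
import Cfsg.Prelude.Def_GeometricClasses
import Cfsg.Agent.Helper96.SpField
import Cfsg.Agent.Helper76.O12L2

/-!
# PIECE X2 of CALL S5847 (helper30)

`o10_unitary_not_plus`: a degree-2 field of similarities of a quadratic form `Q` on a space of
dimension `2 m` with `m` odd is impossible when `Q` is of plus type.
-/

set_option autoImplicit false
set_option linter.unusedSectionVars false
set_option linter.unusedVariables false
open Cfsg Cfsg.Geo Matrix
open scoped Kronecker

namespace Cfsg.Agent.Helper67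

variable {ι : Type} [Fintype ι] [DecidableEq ι] {F : Type*} [Field F]

theorem o10_unitary_not_plus [Fintype F] (Q : (ι → F) → F) (hQ : IsNondegenerateQuadraticForm Q)
    {m : ℕ} (hm : Odd m) (hcard : Fintype.card ι = 2 * m)
    (K : Subalgebra F (Matrix ι ι F)) (hK : IsFieldSubalgebra 2 K)
    (hsim : ∀ k ∈ K, ∃ c : F, ∀ v : ι → F, Q (k *ᵥ v) = c * Q v) : ¬ IsPlusTypeOn Q ⊤ := by
  classical
  rintro ⟨U, -, hUts, hUdim⟩
  have hb := hQ.polar_bilinear
  have hmpos : 0 < m := hm.pos
  have hne : Nonempty ι := by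
    apply Fintype.card_pos_iff.mp
    rw [hcard]
    omega
  obtain ⟨i₀⟩ := hne
  -- the polar form as a Mathlib bilinear form
  obtain ⟨B, hB⟩ : ∃ B : LinearMap.BilinForm F (ι → F),
      ∀ x y, B x y = QuadraticMap.polar Q x y :=
    ⟨LinearMap.mk₂ F (QuadraticMap.polar Q) hb.add_left
      (fun c x v => by rw [hb.smul_left, smul_eq_mul]) hb.add_right
      (fun c v x => by rw [hb.smul_right, smul_eq_mul]), fun x y => rfl⟩
  have hBnd : B.Nondegenerate := by
    constructor
    · intro x hx
      by_contra hne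
      obtain ⟨-, y, hy⟩ := hQ.nondegenerate x hne
      exact hy (by rw [← hB]; exact hx y)
    · intro y hy
      by_contra hne
      obtain ⟨⟨x, hx⟩, -⟩ := hQ.nondegenerate y hne
      exact hx (by rw [← hB]; exact hy x)
  have hfinV : Module.finrank F (ι → F) = 2 * m := by
    rw [Module.finrank_fintype_fun_eq_card, hcard]
  have hUm : Module.finrank F U = m := by
    rw [finrank_top, hfinV] at hUdim
    omega
  have hUU : ∀ u ∈ U, ∀ v ∈ U, QuadraticMap.polar Q u v = 0 := by
    intro u hu v hv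
    rw [QuadraticMap.polar, hUts _ (U.add_mem hu hv), hUts _ hu, hUts _ hv]
    ring
  have hUorth : B.orthogonal U = U := by
    symm
    apply Submodule.eq_of_le_of_finrank_eq
    · intro u hu
      rw [LinearMap.BilinForm.mem_orthogonal_iff]
      intro n hn
      rw [hB]
      exact hUU n hn u hu
    · rw [LinearMap.BilinForm.finrank_orthogonal hBnd, hfinV, hUm]
      omega
  have hUperp : ∀ x : ι → F, (∀ u ∈ U, QuadraticMap.polar Q u x = 0) → x ∈ U := by
    intro x hx
    rw [← hUorth, LinearMap.BilinForm.mem_orthogonal_iff]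
    intro n hn
    rw [hB]
    exact hx n hn
  -- a non-scalar element of K
  have hex : ∃ k ∈ K, ∀ a : F, k ≠ a • (1 : Matrix ι ι F) := by
    by_contra hcon
    push Not at hcon
    have hle : Subalgebra.toSubmodule K ≤ Submodule.span F {(1 : Matrix ι ι F)} := by
      intro k hk
      obtain ⟨a, ha⟩ := hcon k hk
      rw [ha]
      exact Submodule.smul_mem _ _ (Submodule.subset_span rfl)
    have h1 := Submodule.finrank_mono hle
    have h2 : Module.finrank F (Submodule.span F {(1 : Matrix ι ι F)}) ≤ 1 := by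
      have := finrank_span_le_card (R := F) ({(1 : Matrix ι ι F)} : Set (Matrix ι ι F))
      simpa using this
    have h3 : Module.finrank F (Subalgebra.toSubmodule K) = 2 := hK.finrank_eq
    omega
  obtain ⟨k, hkK, hkns⟩ := hex
  have hKrep : ∀ x ∈ K, ∃ a b : F, x = a • (1 : Matrix ι ι F) + b • k := by
    let φ : (F × F) →ₗ[F] K :=
      { toFun := fun p => ⟨p.1 • (1 : Matrix ι ι F) + p.2 • k,
          K.add_mem (K.smul_mem K.one_mem _) (K.smul_mem hkK _)⟩
        map_add' := by
          intro p q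
          apply Subtype.ext
          show (p.1 + q.1) • (1 : Matrix ι ι F) + (p.2 + q.2) • k
            = (p.1 • (1 : Matrix ι ι F) + p.2 • k) + (q.1 • (1 : Matrix ι ι F) + q.2 • k)
          rw [add_smul, add_smul]
          abel
        map_smul' := by
          intro c p
          apply Subtype.ext
          show (c * p.1) • (1 : Matrix ι ι F) + (c * p.2) • k
            = c • (p.1 • (1 : Matrix ι ι F) + p.2 • k)
          rw [smul_add, smul_smul, smul_smul] }
    have hφ : ∀ p : F × F, ((φ p : K) : Matrix ι ι F) = p.1 • (1 : Matrix ι ι F) + p.2 • k :=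
      fun p => rfl
    have hinj : Function.Injective φ := by
      rw [injective_iff_map_eq_zero]
      rintro ⟨a, b⟩ h
      have h0 : a • (1 : Matrix ι ι F) + b • k = 0 := by
        have := congrArg Subtype.val h
        rw [hφ] at this
        exact this
      have hb0 : b = 0 := by
        by_contra hbne
        apply hkns (-(b⁻¹ * a))
        have h1 : b • k = -(a • (1 : Matrix ι ι F)) := eq_neg_of_add_eq_zero_right h0
        calc k = b⁻¹ • (b • k) := by rw [smul_smul, inv_mul_cancel₀ hbne, one_smul]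
          _ = -(b⁻¹ * a) • (1 : Matrix ι ι F) := by rw [h1, smul_neg, smul_smul, neg_smul]
      subst hb0
      rw [zero_smul, add_zero] at h0
      have h2 := congrFun (congrFun h0 i₀) i₀
      simp at h2
      rw [h2]
      rfl
    have hfr : Module.finrank F (F × F) = Module.finrank F K := by
      rw [Module.finrank_prod, Module.finrank_self, hK.finrank_eq]
    have hsurj : Function.Surjective φ :=
      (LinearMap.injective_iff_surjective_of_finrank_eq_finrank hfr).mp hinj
    intro x hx
    obtain ⟨⟨a, b⟩, hab⟩ := hsurj ⟨x, hx⟩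
    refine ⟨a, b, ?_⟩
    have := congrArg Subtype.val hab
    rw [hφ] at this
    exact this.symm
  -- the form x, y ↦ polar x (k y) is alternating on U
  have halt : ∀ x ∈ U, QuadraticMap.polar Q x (k *ᵥ x) = 0 := by
    intro x hx
    obtain ⟨c, hc⟩ := hsim k hkK
    obtain ⟨c', hc'⟩ := hsim (1 + k) (K.add_mem K.one_mem hkK)
    have h1 : x + k *ᵥ x = (1 + k) *ᵥ x := by rw [Matrix.add_mulVec, Matrix.one_mulVec]
    rw [QuadraticMap.polar, h1, hc', hc, hUts x hx]
    ring
  have hskew : ∀ x ∈ U, ∀ y ∈ U,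
      QuadraticMap.polar Q x (k *ᵥ y) = -QuadraticMap.polar Q y (k *ᵥ x) := by
    intro x hx y hy
    have h1 := halt (x + y) (U.add_mem hx hy)
    rw [Matrix.mulVec_add, hb.add_left, hb.add_right, hb.add_right, halt x hx, halt y hy] at h1
    linear_combination h1
  -- the radical
  obtain ⟨R, hR⟩ : ∃ R : Submodule F (ι → F), ∀ x, x ∈ R ↔ x ∈ U ∧ k *ᵥ x ∈ U := by
    refine ⟨U ⊓ U.comap (Matrix.toLin' k), fun x => ?_⟩
    rw [Submodule.mem_inf, Submodule.mem_comap, Matrix.toLin'_apply]
  have hRU : R ≤ U := fun x hx => ((hR x).mp hx).1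
  have hRstab : ∀ k' ∈ K, ∀ x ∈ R, k' *ᵥ x ∈ R := by
    intro k' hk' x hx
    obtain ⟨hxU, hkxU⟩ := (hR x).mp hx
    obtain ⟨a, b, rfl⟩ := hKrep k' hk'
    obtain ⟨a', b', hkk⟩ := hKrep (k * k) (K.mul_mem hkK hkK)
    have hkkx : k *ᵥ (k *ᵥ x) ∈ U := by
      rw [Matrix.mulVec_mulVec, hkk, Matrix.add_mulVec, Matrix.smul_mulVec, Matrix.smul_mulVec,
        Matrix.one_mulVec]
      exact U.add_mem (U.smul_mem _ hxU) (U.smul_mem _ hkxU)
    have e1 : (a • (1 : Matrix ι ι F) + b • k) *ᵥ x = a • x + b • (k *ᵥ x) := by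
      rw [Matrix.add_mulVec, Matrix.smul_mulVec, Matrix.smul_mulVec, Matrix.one_mulVec]
    rw [hR, e1]
    refine ⟨U.add_mem (U.smul_mem _ hxU) (U.smul_mem _ hkxU), ?_⟩
    rw [Matrix.mulVec_add, Matrix.mulVec_smul, Matrix.mulVec_smul]
    exact U.add_mem (U.smul_mem _ hkxU) (U.smul_mem _ hkkx)
  have hRdvd : 2 ∣ Module.finrank F R := by
    have := Cfsg.Agent.Helper96.Sy.dvd_finrank_of_inv K hK.inv R hRstab
    rwa [hK.finrank_eq] at this
  -- a complement of the radical in U
  obtain ⟨q, hq⟩ := Submodule.exists_isCompl R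
  obtain ⟨C, hC⟩ : ∃ C : Submodule F (ι → F), C = q ⊓ U := ⟨_, rfl⟩
  have hCU : C ≤ U := by rw [hC]; exact inf_le_right
  have hRC : R ⊓ C = ⊥ := by
    rw [hC, ← inf_assoc, hq.inf_eq_bot, bot_inf_eq]
  have hRCU : R ⊔ C = U := by
    rw [hC, ← sup_inf_assoc_of_le q hRU, hq.sup_eq_top, top_inf_eq]
  have hdim : Module.finrank F R + Module.finrank F C = m := by
    have := Submodule.finrank_sup_add_finrank_inf_eq R C
    rw [hRC, hRCU, finrank_bot, hUm] at this
    omega
  -- the nondegenerate alternating form on C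
  obtain ⟨bC, hbC⟩ : ∃ bC : LinearMap.BilinForm F C,
      ∀ x y : C, bC x y = QuadraticMap.polar Q (x : ι → F) (k *ᵥ (y : ι → F)) := by
    refine ⟨(B.compRight (Matrix.toLin' k)).restrict C, fun x y => ?_⟩
    show B (x : ι → F) (Matrix.toLin' k (y : ι → F)) = _
    rw [hB, Matrix.toLin'_apply]
  have hCalt : bC.IsAlt := by
    intro x
    rw [hbC]
    exact halt _ (hCU x.2)
  have hCnd : bC.Nondegenerate := by
    apply (LinearMap.IsRefl.nondegenerate_iff_separatingLeft (LinearMap.IsAlt.isRefl hCalt)).mpr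
    intro x hx
    have hxU : (x : ι → F) ∈ U := hCU x.2
    have hxR : (x : ι → F) ∈ R := by
      rw [hR]
      refine ⟨hxU, hUperp _ ?_⟩
      intro u hu
      rw [← hRCU] at hu
      obtain ⟨r, hr, c, hc, rfl⟩ := Submodule.mem_sup.mp hu
      rw [hb.add_left]
      have h1 : QuadraticMap.polar Q r (k *ᵥ (x : ι → F)) = 0 := by
        rw [hskew r (hRU hr) _ hxU, hUU _ hxU _ ((hR r).mp hr).2, neg_zero]
      have h2 : QuadraticMap.polar Q c (k *ᵥ (x : ι → F)) = 0 := by
        rw [hskew c (hCU hc) _ hxU]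
        have := hx ⟨c, hc⟩
        rw [hbC] at this
        rw [this, neg_zero]
      rw [h1, h2, add_zero]
    have h0 : (x : ι → F) ∈ R ⊓ C := ⟨hxR, x.2⟩
    rw [hRC, Submodule.mem_bot] at h0
    exact Subtype.ext h0
  have hCeven : Even (Module.finrank F C) := Cfsg.Agent.Helper76.o12_alt_even bC hCalt hCnd
  have hmeven : Even m := by
    obtain ⟨r, hr⟩ := hRdvd
    obtain ⟨s, hs⟩ := hCeven
    exact ⟨r + s, by omega⟩
  exact (Nat.not_even_iff_odd.mpr hm) hmeven

end Cfsg.Agent.Helper67
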