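import Mathlib
import Cfsg.Agent.Helper80.CharOrtho
import Cfsg.Agent.Helper81.CharBasic

/-!
# CALL S0996, PIECE I1 (helper67): the permutation character `1_H^G` through multiplicities
-/

set_option autoImplicit false
open Cfsg
open scoped ComplexConjugate

universe u

namespace Cfsg.Agent.Helper67

/-- I1 -/
theorem brn_ind_one {G : Type u} [Group G] [Fintype G] (H : Subgroup G)
    (m : Cfsg.IrrCharacter G → ℕ)
    (hm : ∀ χ : Cfsg.IrrCharacter G,
      ∑ᶠ x : H, (χ : G → ℂ) (x : G) = (Nat.card H : ℂ) * (m χ : ℂ)) (g : G) :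
    (Nat.card H : ℂ) * ∑ᶠ χ : Cfsg.IrrCharacter G, (m χ : ℂ) * conj ((χ : G → ℂ) g)
      = (Nat.card (Subgroup.centralizer ({g} : Set G)) : ℂ)
        * (Nat.card {x : H // IsConj (x : G) g} : ℂ) := by
  classical
  let _i1 : Fintype (Cfsg.IrrCharacter G) := Fintype.ofFinite _
  let _i2 : Fintype H := Fintype.ofFinite _
  have hm' : ∀ χ : Cfsg.IrrCharacter G,
      ∑ x : H, (χ : G → ℂ) (x : G) = (Nat.card H : ℂ) * (m χ : ℂ) := by
    intro χ
    rw [← hm χ, finsum_eq_sum_of_fintype]
  have hcol : ∀ x : H, ∑ χ : Cfsg.IrrCharacter G, (χ : G → ℂ) (x : G) * conj ((χ : G → ℂ) g)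
      = if IsConj (x : G) g then (Nat.card (Subgroup.centralizer ({g} : Set G)) : ℂ) else 0 := by
    intro x
    split_ifs with hx
    · have h1 := Helper80.irr_finsum_column_orthogonality_of_isConj (IsConj.refl g)
      rw [finsum_eq_sum_of_fintype] at h1
      rw [← h1]
      refine Finset.sum_congr rfl fun χ _ => ?_
      obtain ⟨c, hc⟩ := isConj_iff.mp hx.symm
      rw [← hc, Helper81.irr_conj]
    · have h1 := Helper80.irr_finsum_column_orthogonality_of_not_isConj hx
      rw [finsum_eq_sum_of_fintype] at h1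
      exact h1
  rw [finsum_eq_sum_of_fintype, Finset.mul_sum]
  calc ∑ χ : Cfsg.IrrCharacter G, (Nat.card H : ℂ) * ((m χ : ℂ) * conj ((χ : G → ℂ) g))
      = ∑ χ : Cfsg.IrrCharacter G, ∑ x : H, (χ : G → ℂ) (x : G) * conj ((χ : G → ℂ) g) := by
        refine Finset.sum_congr rfl fun χ _ => ?_
        rw [← mul_assoc, ← hm' χ, Finset.sum_mul]
    _ = ∑ x : H, ∑ χ : Cfsg.IrrCharacter G, (χ : G → ℂ) (x : G) * conj ((χ : G → ℂ) g) :=
        Finset.sum_comm
    _ = ∑ x : H, if IsConj (x : G) g then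
          (Nat.card (Subgroup.centralizer ({g} : Set G)) : ℂ) else 0 :=
        Finset.sum_congr rfl fun x _ => hcol x
    _ = (Nat.card (Subgroup.centralizer ({g} : Set G)) : ℂ)
        * (Nat.card {x : H // IsConj (x : G) g} : ℂ) := by
        have hcard : Nat.card {x : H // IsConj (x : G) g}
            = (Finset.univ.filter (fun x : H => IsConj (x : G) g)).card := by
          rw [Nat.card_eq_fintype_card, Fintype.card_subtype]
        rw [Finset.sum_ite, Finset.sum_const_zero, add_zero, Finset.sum_const, nsmul_eq_mul,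
          hcard, mul_comm]

end Cfsg.Agent.Helper67
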