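import Mathlib
import Cfsg.Agent.Helper81.SectionChar
import Cfsg.Agent.Helper81.CharBasic
import Cfsg.Agent.Helper80.CharOrtho

/-!
# CALL S0996, PIECE MONO (helper67): multiplicities of the trivial character are monotone
-/

set_option autoImplicit false
open Cfsg
open scoped ComplexConjugate

universe u

namespace Cfsg.Agent.Helper67

/-- MONO -/
theorem brn_mult_mono {G : Type u} [Group G] [Finite G] (χ : Cfsg.IrrCharacter G)
    (A B : Subgroup G) (hAB : A ≤ B) (mA mB : ℕ)
    (hA : ∑ᶠ x : A, (χ : G → ℂ) (x : G) = (Nat.card A : ℂ) * (mA : ℂ))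
    (hB : ∑ᶠ x : B, (χ : G → ℂ) (x : G) = (Nat.card B : ℂ) * (mB : ℂ)) : mB ≤ mA := by
  classical
  let _i1 : Fintype B := Fintype.ofFinite _
  let _i2 : Fintype A := Fintype.ofFinite _
  let _i3 : Fintype (A.subgroupOf B) := Fintype.ofFinite _
  let _i4 : Fintype (Cfsg.IrrCharacter B) := Fintype.ofFinite _
  have hχB : Cfsg.IsCharacter B (fun b : B => (χ : G → ℂ) b) :=
    Helper79.isCharacter_restrict (Helper79.isCharacter_of_irr χ.2) B
  obtain ⟨n, ρ, hρ⟩ := hχB
  obtain ⟨c, hc⟩ := Helper81.exists_mult_of_mem_natSpanIrr (Helper81.character_mem_natSpanIrr ρ)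
  have hval : ∀ b : B, (χ : G → ℂ) b
      = ∑ η : Cfsg.IrrCharacter B, (c η : ℂ) * (η : B → ℂ) b := by
    intro b
    have h1 := congrFun (hρ.symm.trans hc) b
    rw [h1, Finset.sum_apply]
    rfl
  -- the sum over `B`
  have hBsum : ∑ b : B, (χ : G → ℂ) b
      = (c (Helper81.trivIrr B) : ℂ) * (Fintype.card B : ℂ) := by
    have h0 : ∀ η : Cfsg.IrrCharacter B, ∑ b : B, (c η : ℂ) * (η : B → ℂ) b
        = if η = Helper81.trivIrr B then (c η : ℂ) * (Fintype.card B : ℂ) else 0 := by
      intro η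
      rw [← Finset.mul_sum]
      have h1 := Helper80.irr_orthogonality_conj η (Helper81.trivIrr B)
      simp only [Helper81.trivIrr_apply, map_one, mul_one] at h1
      rw [h1]
      split_ifs <;> simp
    calc ∑ b : B, (χ : G → ℂ) b
        = ∑ b : B, ∑ η : Cfsg.IrrCharacter B, (c η : ℂ) * (η : B → ℂ) b :=
          Finset.sum_congr rfl fun b _ => hval b
      _ = ∑ η : Cfsg.IrrCharacter B, ∑ b : B, (c η : ℂ) * (η : B → ℂ) b := Finset.sum_comm
      _ = ∑ η : Cfsg.IrrCharacter B,
            if η = Helper81.trivIrr B then (c η : ℂ) * (Fintype.card B : ℂ) else 0 :=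
          Finset.sum_congr rfl fun η _ => h0 η
      _ = (c (Helper81.trivIrr B) : ℂ) * (Fintype.card B : ℂ) := by
          rw [Finset.sum_ite_eq' Finset.univ (Helper81.trivIrr B)
            (fun η => (c η : ℂ) * (Fintype.card B : ℂ)), if_pos (Finset.mem_univ _)]
  have hmB : mB = c (Helper81.trivIrr B) := by
    rw [finsum_eq_sum_of_fintype, hBsum, Nat.card_eq_fintype_card] at hB
    have hne : (Fintype.card B : ℂ) ≠ 0 := by exact_mod_cast Fintype.card_ne_zero
    have h1 : (c (Helper81.trivIrr B) : ℂ) = (mB : ℂ) := by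
      apply mul_left_cancel₀ hne
      rw [← hB]; ring
    exact_mod_cast h1.symm
  -- the sum over `A`
  have hk : ∀ η : Cfsg.IrrCharacter B, ∃ k : ℕ,
      ∑ a : A.subgroupOf B, (η : B → ℂ) (a : B)
        = (Fintype.card (A.subgroupOf B) : ℂ) * k := by
    intro η
    obtain ⟨k, hk⟩ := Helper81.exists_linMult η (A.subgroupOf B).subtype 1
    refine ⟨k, ?_⟩
    rw [← hk]
    refine Finset.sum_congr rfl fun a _ => ?_
    simp
  choose k hk using hk
  have hne : (Fintype.card (A.subgroupOf B) : ℂ) ≠ 0 := by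
    exact_mod_cast Fintype.card_ne_zero
  have hk1 : k (Helper81.trivIrr B) = 1 := by
    have h1 := hk (Helper81.trivIrr B)
    simp only [Helper81.trivIrr_apply, Finset.sum_const, Finset.card_univ, nsmul_eq_mul,
      mul_one] at h1
    have h2 : (1 : ℂ) = (k (Helper81.trivIrr B) : ℂ) := by
      apply mul_left_cancel₀ hne
      rw [mul_one]; exact h1
    exact_mod_cast h2.symm
  have hAsum : ∑ a : A, (χ : G → ℂ) a
      = (Fintype.card (A.subgroupOf B) : ℂ)
        * ∑ η : Cfsg.IrrCharacter B, (c η : ℂ) * (k η : ℂ) := by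
    have h1 : ∑ a : A.subgroupOf B, (χ : G → ℂ) ((a : B) : G)
        = ∑ a : A, (χ : G → ℂ) a := by
      apply Fintype.sum_equiv (Subgroup.subgroupOfEquivOfLe hAB).toEquiv
      intro a
      rfl
    rw [← h1]
    calc ∑ a : A.subgroupOf B, (χ : G → ℂ) ((a : B) : G)
        = ∑ a : A.subgroupOf B, ∑ η : Cfsg.IrrCharacter B, (c η : ℂ) * (η : B → ℂ) (a : B) :=
          Finset.sum_congr rfl fun a _ => hval a
      _ = ∑ η : Cfsg.IrrCharacter B, ∑ a : A.subgroupOf B, (c η : ℂ) * (η : B → ℂ) (a : B) :=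
          Finset.sum_comm
      _ = (Fintype.card (A.subgroupOf B) : ℂ)
          * ∑ η : Cfsg.IrrCharacter B, (c η : ℂ) * (k η : ℂ) := by
          rw [Finset.mul_sum]
          refine Finset.sum_congr rfl fun η _ => ?_
          rw [← Finset.mul_sum, hk η]; ring
  have hcardA : Nat.card A = Fintype.card (A.subgroupOf B) := by
    rw [← Nat.card_eq_fintype_card]
    exact (Nat.card_congr (Subgroup.subgroupOfEquivOfLe hAB).toEquiv).symm
  have hmA : mA = ∑ η : Cfsg.IrrCharacter B, c η * k η := by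
    rw [finsum_eq_sum_of_fintype, hAsum, hcardA] at hA
    have h1 : (mA : ℂ) = ∑ η : Cfsg.IrrCharacter B, (c η : ℂ) * (k η : ℂ) :=
      (mul_left_cancel₀ hne hA).symm
    have h2 : (mA : ℂ) = ((∑ η : Cfsg.IrrCharacter B, c η * k η : ℕ) : ℂ) := by
      rw [h1]; push_cast; rfl
    exact_mod_cast h2
  rw [hmA, hmB]
  calc c (Helper81.trivIrr B) = c (Helper81.trivIrr B) * k (Helper81.trivIrr B) := by
        rw [hk1, mul_one]
    _ ≤ ∑ η : Cfsg.IrrCharacter B, c η * k η :=
        Finset.single_le_sum (f := fun η => c η * k η) (fun _ _ => Nat.zero_le _)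
          (Finset.mem_univ _)

end Cfsg.Agent.Helper67
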