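import Cfsg.Agent.Helper45.FldA

/-!
# CALL S2715 piece D4: the four cosets of `Inn` in `Inndiag(PΩ⁺)` in odd characteristic
-/

set_option autoImplicit false
set_option linter.unusedSectionVars false
set_option linter.unusedSimpArgs false
set_option linter.unusedVariables false
set_option linter.style.haveILetI false

universe u v

namespace Cfsg.Agent.Helper67.FldP

open Matrix Cfsg
open Cfsg.Agent.Helper45.OO (semiAut semiMap glMap)
open Cfsg.Agent.Helper44.POm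
open Cfsg.Agent.Helper45.Fld
open Cfsg.Agent.Helper45.Oct (om one8 cj Tri q_one8_ne)

section Plus

variable {F : Type u} [Field F] [Fintype F] {m : ℕ}

/-- a nonzero scalar matrix as an invertible matrix -/
def d4sc (m : ℕ) (c : F) (hc : c ≠ 0) : GL (Fin m ⊕ Fin m) F :=
  ⟨c • (1 : Matrix (Fin m ⊕ Fin m) (Fin m ⊕ Fin m) F),
    c⁻¹ • (1 : Matrix (Fin m ⊕ Fin m) (Fin m ⊕ Fin m) F),
    by rw [Matrix.smul_mul, Matrix.one_mul, smul_smul, mul_inv_cancel₀ hc, one_smul],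
    by rw [Matrix.smul_mul, Matrix.one_mul, smul_smul, inv_mul_cancel₀ hc, one_smul]⟩

/-- the case of a square multiplier -/
theorem d4_core (hm : 3 ≤ m) (h2 : (2 : F) ≠ 0)
    (ε : F) (hε : ¬ IsSquare ε)
    (a b : Fin m ⊕ Fin m → F) (ha : Helper43.plusQF m F a ≠ 0) (hb : Helper43.plusQF m F b ≠ 0)
    (hab : ¬ IsSquare (Helper43.plusQF m F a * Helper43.plusQF m F b))
    (s : MulAut (POmega F (quadFormPlus m F)))
    (hs : Helper45.Ind (quadFormPlus m F)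
      ((Helper45.reflO (Helper43.plusQF m F) a ha * Helper45.reflO (Helper43.plusQF m F) b hb :
        ↥(isometryGroup F ⇑(Helper43.plusQF m F))) : GL (Fin m ⊕ Fin m) F) s)
    (d : GL (Fin m ⊕ Fin m) F) (ν : F) (hν : ν ≠ 0)
    (hd : ∀ v, quadFormPlus m F ((d : Matrix (Fin m ⊕ Fin m) (Fin m ⊕ Fin m) F) *ᵥ v)
      = ν * ν * quadFormPlus m F v)
    (hP : PreservesSingularClasses (quadFormPlus m F)
      (d : Matrix (Fin m ⊕ Fin m) (Fin m ⊕ Fin m) F))
    (δ : MulAut (POmega F (quadFormPlus m F))) (hδ : Helper45.Ind (quadFormPlus m F) d δ) :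
    δ ∈ Inn (POmega F (quadFormPlus m F)) ∨ δ * s⁻¹ ∈ Inn (POmega F (quadFormPlus m F)) := by
  have hQ := Helper45.plusQF_nondeg' (F := F) m
  have hcard : 2 ≤ Fintype.card (Fin m ⊕ Fin m) := by
    rw [Fintype.card_sum, Fintype.card_fin]; omega
  obtain ⟨z, hz⟩ : ∃ z : GL (Fin m ⊕ Fin m) F,
      (z : Matrix (Fin m ⊕ Fin m) (Fin m ⊕ Fin m) F)
        = ν⁻¹ • (1 : Matrix (Fin m ⊕ Fin m) (Fin m ⊕ Fin m) F) :=
    ⟨d4sc m ν⁻¹ (inv_ne_zero hν), rfl⟩
  have hdsim : d ∈ Geo.quadSimilarityGroup (F := F) (quadFormPlus m F) :=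
    ⟨Units.mk0 (ν * ν) (mul_ne_zero hν hν), hd⟩
  have hzd : ((z * d : GL (Fin m ⊕ Fin m) F) : Matrix (Fin m ⊕ Fin m) (Fin m ⊕ Fin m) F)
      = ν⁻¹ • (d : Matrix (Fin m ⊕ Fin m) (Fin m ⊕ Fin m) F) := by
    rw [Units.val_mul, hz, Matrix.smul_mul, Matrix.one_mul]
  have hgv : ∀ v, quadFormPlus m F
      (((z * d : GL (Fin m ⊕ Fin m) F) : Matrix (Fin m ⊕ Fin m) (Fin m ⊕ Fin m) F) *ᵥ v)
        = quadFormPlus m F v := by
    intro v
    rw [hzd, Matrix.smul_mulVec]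
    have h1 := QuadraticMap.map_smul (Helper43.plusQF m F) ν⁻¹
      ((d : Matrix (Fin m ⊕ Fin m) (Fin m ⊕ Fin m) F) *ᵥ v)
    rw [Helper43.plusQF_coe] at h1
    rw [h1, hd, smul_eq_mul]
    field_simp
  have hgiso : z * d ∈ isometryGroup F ⇑(Helper43.plusQF m F) :=
    (Helper45.mem_iso_iff _ _).mpr hgv
  obtain ⟨g, hg⟩ : ∃ g : ↥(isometryGroup F ⇑(Helper43.plusQF m F)),
      (g : GL (Fin m ⊕ Fin m) F) = z * d := ⟨⟨_, hgiso⟩, rfl⟩
  have hIndg : Helper45.Ind (quadFormPlus m F) (g : GL (Fin m ⊕ Fin m) F) δ := by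
    rw [hg]
    have h1 := Helper45.ind_mul (quadFormPlus m F) hdsim
      (Helper45.ind_scalar (quadFormPlus m F) z ν⁻¹ hz) hδ
    rwa [one_mul] at h1
  have hdet : ((g : GL (Fin m ⊕ Fin m) F) : Matrix (Fin m ⊕ Fin m) (Fin m ⊕ Fin m) F).det = 1 := by
    have hPg : PreservesSingularClasses (quadFormPlus m F)
        ((g : GL (Fin m ⊕ Fin m) F) : Matrix (Fin m ⊕ Fin m) (Fin m ⊕ Fin m) F) := by
      rw [hg, hzd, pres_smul _ _ (inv_ne_zero hν)]
      exact hP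
    have h1 := (Helper45.ID.pres_plus_iff h2 (g : GL (Fin m ⊕ Fin m) F) 1 one_ne_zero
      (fun v => by rw [hg, hgv, one_mul])).mp hPg
    rw [h1, one_pow]
  have hspin := (Helper45.det_eq_one_iff (Helper43.plusQF m F) h2 hQ ε hε g).mp hdet
  obtain ⟨r, hr⟩ : ∃ r : ↥(isometryGroup F ⇑(Helper43.plusQF m F)),
      r = Helper45.reflO (Helper43.plusQF m F) a ha * Helper45.reflO (Helper43.plusQF m F) b hb :=
    ⟨_, rfl⟩
  rw [← hr] at hs
  have hrs : Helper45.spin ⇑(Helper43.plusQF m F) 1 r = -1 ∧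
      Helper45.spin ⇑(Helper43.plusQF m F) ε r = -1 := by
    rw [hr, map_mul, map_mul]
    by_cases hsa : IsSquare (Helper43.plusQF m F a)
    · have hsb : ¬ IsSquare (Helper43.plusQF m F b) := fun hsb => hab (hsa.mul hsb)
      rw [Helper45.spin_one_reflO_sq _ h2 a ha hsa, Helper45.spin_one_reflO_nsq _ h2 b hb hsb,
        Helper45.spin_eps_reflO_sq _ h2 ε hε a ha hsa,
        Helper45.spin_eps_reflO_nsq _ h2 ε hε b hb hsb]
      exact ⟨by decide, by decide⟩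
    · have hsb : IsSquare (Helper43.plusQF m F b) := by
        by_contra hsb
        exact hab (Helper45.isSquare_mul_of_not h2 hsa hsb)
      rw [Helper45.spin_one_reflO_nsq _ h2 a ha hsa, Helper45.spin_one_reflO_sq _ h2 b hb hsb,
        Helper45.spin_eps_reflO_nsq _ h2 ε hε a ha hsa,
        Helper45.spin_eps_reflO_sq _ h2 ε hε b hb hsb]
      exact ⟨by decide, by decide⟩
  rcases Int.units_eq_one_or (Helper45.spin ⇑(Helper43.plusQF m F) 1 g) with h1 | h1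
  · left
    have hε1 : Helper45.spin ⇑(Helper43.plusQF m F) ε g = 1 := by
      rw [h1, one_mul] at hspin
      exact hspin
    exact Helper45.mem_inn_of_ind_omega (Helper43.plusQF m F) g
      ((Helper45.mem_omega_iff _ h2 hQ hcard ε hε g).mpr ⟨h1, hε1⟩) δ hIndg
  · right
    have hε1 : Helper45.spin ⇑(Helper43.plusQF m F) ε g = -1 := by
      rw [h1] at hspin
      rcases Int.units_eq_one_or (Helper45.spin ⇑(Helper43.plusQF m F) ε g) with h3 | h3
      · rw [h3] at hspin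
        exact absurd hspin (by decide)
      · exact h3
    have hmem : g * r⁻¹ ∈ Omega F ⇑(Helper43.plusQF m F) := by
      apply (Helper45.mem_omega_iff _ h2 hQ hcard ε hε _).mpr
      rw [map_mul, map_mul, map_inv, map_inv, h1, hε1, hrs.1, hrs.2]
      exact ⟨by decide, by decide⟩
    refine Helper45.mem_inn_of_ind_omega (Helper43.plusQF m F) (g * r⁻¹) hmem (δ * s⁻¹) ?_
    exact Helper45.ind_mul _ (inv_mem (Helper45.iso_le_sim _ r.2)) hIndg
      (Helper45.ind_inv _ (Helper45.iso_le_sim _ r.2) hs)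

/-- PIECE D4 -/
theorem inndiag_plus_cosets (hm : 3 ≤ m) (hodd : Odd (Fintype.card F))
    (ε : F) (hε0 : ε ≠ 0) (hε : ¬ IsSquare ε)
    (a b : Fin m ⊕ Fin m → F) (ha : Helper43.plusQF m F a ≠ 0) (hb : Helper43.plusQF m F b ≠ 0)
    (hab : ¬ IsSquare (Helper43.plusQF m F a * Helper43.plusQF m F b))
    (s t : MulAut (POmega F (quadFormPlus m F)))
    (hs : Helper45.Ind (quadFormPlus m F)
      ((Helper45.reflO (Helper43.plusQF m F) a ha * Helper45.reflO (Helper43.plusQF m F) b hb :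
        ↥(isometryGroup F ⇑(Helper43.plusQF m F))) : GL (Fin m ⊕ Fin m) F) s)
    (ht : Helper45.Ind (quadFormPlus m F) (DcGL m ε hε0) t)
    (δ : MulAut (POmega F (quadFormPlus m F))) (hδ : δ ∈ inndiagPOmegaPlus m F) :
    δ ∈ Inn (POmega F (quadFormPlus m F)) ∨ δ * s⁻¹ ∈ Inn (POmega F (quadFormPlus m F)) ∨
      δ * t⁻¹ ∈ Inn (POmega F (quadFormPlus m F)) ∨
      δ * (s * t)⁻¹ ∈ Inn (POmega F (quadFormPlus m F)) := by
  have h2 : (2 : F) ≠ 0 := Helper43.two_ne_zero_of_odd_card rfl hodd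
  have hQ := Helper45.plusQF_nondeg' (F := F) m
  have hR : Helper45.reflGroup (Helper43.plusQF m F) = ⊤ :=
    Helper45.reflGroup_eq_top (Helper43.plusQF m F) h2 hQ
  obtain ⟨d, hdsim, hP, hInd⟩ := inndiag_plus_rep hR δ hδ
  obtain ⟨c, hc⟩ := hdsim
  by_cases hcsq : IsSquare (c : F)
  · obtain ⟨ν, hν⟩ := hcsq
    have hν0 : ν ≠ 0 := by
      rintro rfl
      rw [mul_zero] at hν
      exact c.ne_zero hν
    rcases d4_core hm h2 ε hε a b ha hb hab s hs d ν hν0 (fun v => by rw [hc, hν]) hP δ hInd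
      with h | h
    · exact Or.inl h
    · exact Or.inr (Or.inl h)
  · obtain ⟨ν₀, hν₀⟩ := Helper45.isSquare_mul_of_not h2 hcsq hε
    have hν₀0 : ν₀ ≠ 0 := by
      rintro rfl
      rw [mul_zero] at hν₀
      exact mul_ne_zero c.ne_zero hε0 hν₀
    have hDsim : DcGL m ε hε0 ∈ Geo.quadSimilarityGroup (F := F) (quadFormPlus m F) :=
      DcGL_sim ε hε0
    have hDP : PreservesSingularClasses (quadFormPlus m F)
        ((DcGL m ε hε0 : GL (Fin m ⊕ Fin m) F) : Matrix (Fin m ⊕ Fin m) (Fin m ⊕ Fin m) F) := by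
      apply (isCls_psc hR _ 0 ⟨ε, 1, hε0, ?_, Helper45.dick_one _⟩).mpr rfl
      rw [DcGL_coe]
      show Dc m ε = Dc m ε * (1 : Matrix (Fin m ⊕ Fin m) (Fin m ⊕ Fin m) F)
      rw [Matrix.mul_one]
    have hd' : ∀ v, quadFormPlus m F
        (((d * (DcGL m ε hε0)⁻¹ : GL (Fin m ⊕ Fin m) F) :
          Matrix (Fin m ⊕ Fin m) (Fin m ⊕ Fin m) F) *ᵥ v)
          = (ν₀ * ε⁻¹) * (ν₀ * ε⁻¹) * quadFormPlus m F v := by
      intro v
      rw [Units.val_mul, DcGL_inv_coe, ← Matrix.mulVec_mulVec, hc, Dc_quad]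
      have h3 : (ν₀ * ε⁻¹) * (ν₀ * ε⁻¹) = (c : F) * ε⁻¹ := by
        field_simp
        linear_combination -hν₀
      rw [h3, mul_assoc]
    have hP' := psc_mul hR d (DcGL m ε hε0)⁻¹ ⟨c, hc⟩ (inv_mem hDsim) hP
      (psc_inv hR _ hDsim hDP)
    have hInd' : Helper45.Ind (quadFormPlus m F) (d * (DcGL m ε hε0)⁻¹) (δ * t⁻¹) :=
      Helper45.ind_mul _ (inv_mem hDsim) hInd (Helper45.ind_inv _ hDsim ht)
    rcases d4_core hm h2 ε hε a b ha hb hab s hs (d * (DcGL m ε hε0)⁻¹) (ν₀ * ε⁻¹)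
      (mul_ne_zero hν₀0 (inv_ne_zero hε0)) hd' hP' (δ * t⁻¹) hInd' with h | h
    · exact Or.inr (Or.inr (Or.inl h))
    · refine Or.inr (Or.inr (Or.inr ?_))
      rw [_root_.mul_inv_rev, ← mul_assoc]
      exact h

end Plus

end Cfsg.Agent.Helper67.FldP
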