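import Mathlib

/-!
# CALL S2715 piece SC: square roots of nonsquares of the subfield in a quadratic extension
-/

set_option autoImplicit false

universe u v

namespace Cfsg.Agent.Helper67.FldP

section Two

variable {F : Type u} [Field F] [Fintype F] {F₀ : Type v} [Field F₀] [Fintype F₀]

/-- PIECE SC -/
theorem sqrt_nonsquare_isSquare_iff (hodd : Odd (Fintype.card F₀))
    (hcard : Fintype.card F = Fintype.card F₀ ^ 2) (ι : F₀ →+* F) (ε₀ : F₀)
    (hε₀ : ¬ IsSquare ε₀) (ω : F) (hω : ω * ω = ι ε₀) :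
    IsSquare ω ↔ Fintype.card F₀ % 4 = 3 := by
  obtain ⟨k, hk⟩ := hodd
  have hch0 : ringChar F₀ ≠ 2 := by
    intro h
    have := FiniteField.even_card_iff_char_two.mp h
    omega
  have hch : ringChar F ≠ 2 := by
    intro h
    have := FiniteField.even_card_iff_char_two.mp h
    rw [hcard, hk] at this
    have h2 : (2 * k + 1) ^ 2 = 2 * (2 * k * k + 2 * k) + 1 := by ring
    omega
  have hε0 : ε₀ ≠ 0 := by
    rintro rfl
    exact hε₀ ⟨0, by simp⟩
  have hω0 : ω ≠ 0 := by
    rintro rfl
    rw [mul_zero] at hω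
    exact hε0 (ι.injective (by rw [← hω, map_zero]))
  have hεk : ε₀ ^ k = -1 := by
    have hd := FiniteField.pow_dichotomy hch0 hε0
    have hi := FiniteField.isSquare_iff hch0 hε0
    have hhalf : Fintype.card F₀ / 2 = k := by omega
    rw [hhalf] at hd hi
    rcases hd with h | h
    · exact absurd (hi.mpr h) hε₀
    · exact h
  have hhalfF : Fintype.card F / 2 = 2 * k * (k + 1) := by
    rw [hcard, hk]
    have h2 : (2 * k + 1) ^ 2 = 2 * (2 * k * (k + 1)) + 1 := by ring
    omega
  have hωpow : ω ^ (Fintype.card F / 2) = (-1) ^ (k + 1) := by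
    rw [hhalfF, pow_mul, pow_mul, pow_two, hω, ← map_pow, hεk, map_neg, map_one]
  have hne : (-1 : F) ≠ 1 := Ring.neg_one_ne_one_of_char_ne_two hch
  rw [FiniteField.isSquare_iff hch hω0, hωpow, neg_one_pow_eq_one_iff_even hne, hk, Nat.even_iff]
  omega

end Two

end Cfsg.Agent.Helper67.FldP
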