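import Mathlib
import Cfsg.Agent.Helper45.StDefs

set_option autoImplicit false
set_option linter.unusedSectionVars false

/-!
CALL S2547 (helper45), piece STABD (helper67): an element of the Borel subgroup whose conjugate
by the longest-element representative `n₀` is again in the Borel subgroup is monomial with
trivial pattern.
-/

universe u

namespace Cfsg.Agent.Helper67.StSTABD

open Cfsg Cfsg.Agent.Helper13 Cfsg.Agent.Helper95.SpBN Cfsg.Agent.Helper45 Cfsg.Agent.Helper45.St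

variable {ι : Type} [Fintype ι] [DecidableEq ι] {F : Type u} [Field F]
  {Q : QuadraticForm F (ι → F)} {m : ℕ} {L R : Fin m → ι}

theorem flag_sum (x : ι → F) (k : ℕ) (hx : FlagP L k x) (hL : Function.Injective L) :
    x = ∑ l : Fin m, (if (l : ℕ) < k then x (L l) else 0) •
      (Pi.single (L l) (1 : F) : ι → F) := by
  funext c
  rw [Finset.sum_apply]
  simp only [Pi.smul_apply, Pi.single_apply, smul_eq_mul, mul_ite, mul_one, mul_zero]
  by_cases hc : x c = 0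
  · rw [hc]; symm
    apply Finset.sum_eq_zero
    intro l _
    by_cases h1 : c = L l
    · rw [if_pos h1]; subst h1; rw [hc]; simp
    · rw [if_neg h1]
  · obtain ⟨i, hi, rfl⟩ := hx c hc
    rw [Finset.sum_eq_single i]
    · rw [if_pos rfl, if_pos hi]
    · intro l _ hl
      rw [if_neg]; intro h; exact hl (hL h).symm
    · intro h; exact absurd (Finset.mem_univ _) h

theorem polar_mv_right (g : ↥(isometryGroup F ⇑Q)) (u v : ι → F) :
    QuadraticMap.polar ⇑Q u (mv ⇑Q g v) = QuadraticMap.polar ⇑Q (mv ⇑Q g⁻¹ u) v := by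
  have h := mv_polar Q g⁻¹ u (mv ⇑Q g v)
  rw [mv_inv_cancel'] at h
  exact h.symm

theorem flag_zero {k : ℕ} {z : ι → F} (hz : FlagP L k z) (hL : Function.Injective L)
    (j : Fin m) (hj : k ≤ (j : ℕ)) : z (L j) = 0 := by
  by_contra hne
  obtain ⟨l, hl, e⟩ := hz (L j) hne
  have := hL e
  rw [this] at hj
  omega

-- === PIECE STABD ===
theorem p_STABD (H : HypPairs Q m L R) (g n₀ : ↥(isometryGroup F ⇑Q)) (hg : g ∈ borelO Q L)
    (hn₀ : PatO Q L R n₀ (tauP m)) (hn₀' : PatO Q L R n₀⁻¹ (tauP m))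
    (h : n₀⁻¹ * g * n₀ ∈ borelO Q L) : PatO Q L R g 1 := by
  have hev_inl : ∀ i : Fin m, ev L R F (Sum.inl i) = Pi.single (L i) 1 := fun i => rfl
  have hev_inr : ∀ i : Fin m, ev L R F (Sum.inr i) = Pi.single (R i) 1 := fun i => rfl
  -- `n₀ e_i = c f_i` with `c ≠ 0`
  have hn1 : ∀ i : Fin m, ∃ c : F, c ≠ 0 ∧
      mv ⇑Q n₀ (Pi.single (L i) 1) = c • (Pi.single (R i) (1 : F) : ι → F) := by
    intro i
    obtain ⟨c, hc⟩ := hn₀ (Sum.inl i)
    rw [tauP_inl, hev_inl, hev_inr] at hc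
    refine ⟨c, ?_, hc⟩
    rintro rfl
    rw [zero_smul] at hc
    have h2 := mv_inv_cancel' (Q := Q) n₀ (Pi.single (L i) (1 : F))
    rw [hc] at h2
    have h3 : mv ⇑Q n₀⁻¹ (0 : ι → F) = 0 := Matrix.mulVec_zero _
    rw [h3] at h2
    have h4 := congrFun h2 (L i)
    rw [Pi.single_eq_same, Pi.zero_apply] at h4
    exact zero_ne_one h4
  choose cc hcc0 hcc using hn1
  -- `n₀⁻¹ e_j = c' f_j`
  have hn2 : ∀ j : Fin m, ∃ c : F,
      mv ⇑Q n₀⁻¹ (Pi.single (L j) 1) = c • (Pi.single (R j) (1 : F) : ι → F) := by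
    intro j
    obtain ⟨c, hc⟩ := hn₀' (Sum.inl j)
    rw [tauP_inl, hev_inl, hev_inr] at hc
    exact ⟨c, hc⟩
  -- key fact A
  have hKA : ∀ i j : Fin m, i < j → (mv ⇑Q g⁻¹ (Pi.single (R i) (1 : F))) (R j) = 0 := by
    intro i j hij
    obtain ⟨u, hu⟩ : ∃ u : ι → F, u = mv ⇑Q g⁻¹ (Pi.single (R i) (1 : F)) := ⟨_, rfl⟩
    rw [← hu]
    have hz : FlagP L ((i : ℕ) + 1) (mv ⇑Q (n₀⁻¹ * g * n₀)⁻¹ (ev L R F (Sum.inl i))) :=
      (h _ _ (flagP_ev i)).2
    have e1 : (n₀⁻¹ * g * n₀)⁻¹ = n₀⁻¹ * g⁻¹ * n₀ := by group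
    rw [e1, mv_mul, mv_mul, hev_inl, hcc i, mv_smul, mv_smul, ← hu] at hz
    have hz0 : (cc i • mv ⇑Q n₀⁻¹ u) (L j) = 0 := flag_zero hz H.hL j (by
      have : (i : ℕ) < (j : ℕ) := hij
      omega)
    rw [Pi.smul_apply, smul_eq_mul] at hz0
    have hz1 : (mv ⇑Q n₀⁻¹ u) (L j) = 0 := by
      rcases mul_eq_zero.1 hz0 with h' | h'
      · exact absurd h' (hcc0 i)
      · exact h'
    obtain ⟨c', hc'⟩ := hn2 j
    have e2 : u (R j) = QuadraticMap.polar ⇑Q (Pi.single (L j) (1 : F)) u := (H.hpL j u).symm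
    have e4 : QuadraticMap.polar ⇑Q (Pi.single (L j) (1 : F)) u
        = QuadraticMap.polar ⇑Q (mv ⇑Q n₀⁻¹ (Pi.single (L j) (1 : F))) (mv ⇑Q n₀⁻¹ u) :=
      (mv_polar Q n₀⁻¹ _ _).symm
    rw [e2, e4, hc', QuadraticMap.polar_smul_left, H.hpR j, hz1, smul_zero]
  intro a
  rcases a with j | j
  · -- `g e_j`
    obtain ⟨y, hy⟩ : ∃ y : ι → F, y = mv ⇑Q g (ev L R F (Sum.inl j)) := ⟨_, rfl⟩
    have hyF : FlagP L ((j : ℕ) + 1) y := by rw [hy]; exact (hg _ _ (flagP_ev j)).1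
    have hy0 : ∀ i : Fin m, i < j → y (L i) = 0 := by
      intro i hij
      rw [← H.hpR i y, hy, hev_inl, polar_mv_right, QuadraticMap.polar_comm, H.hpL j]
      exact hKA i j hij
    refine ⟨y (L j), ?_⟩
    rw [← hy, Equiv.Perm.one_apply, hev_inl]
    funext c
    rw [Pi.smul_apply, Pi.single_apply, smul_eq_mul]
    by_cases hc : c = L j
    · rw [if_pos hc, mul_one, hc]
    · rw [if_neg hc, mul_zero]
      by_contra hne
      obtain ⟨i, hi, rfl⟩ := hyF c hne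
      have hij : i < j := by
        have h1 : i ≠ j := fun e => hc (by rw [e])
        have h2 : (i : ℕ) ≠ (j : ℕ) := fun e => h1 (Fin.ext e)
        exact Fin.lt_def.2 (by omega)
      exact hne (hy0 i hij)
  · -- `g f_j`
    obtain ⟨y, hy⟩ : ∃ y : ι → F, y = mv ⇑Q g (ev L R F (Sum.inr j)) := ⟨_, rfl⟩
    obtain ⟨z, hz⟩ : ∃ z : ι → F, z = mv ⇑Q (n₀⁻¹ * g * n₀) (ev L R F (Sum.inl j)) := ⟨_, rfl⟩
    have hzF : FlagP L ((j : ℕ) + 1) z := by rw [hz]; exact (h _ _ (flagP_ev j)).1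
    have hzy : mv ⇑Q n₀ z = cc j • y := by
      rw [hz, mv_mul, mv_mul, hev_inl, hcc j, mv_smul, mv_smul, mv_smul, mv_inv_cancel, hy, hev_inr]
    have hysum : y = ∑ l : Fin m, ((cc j)⁻¹ * ((if (l : ℕ) < (j : ℕ) + 1 then z (L l) else 0)
        * cc l)) • (Pi.single (R l) (1 : F) : ι → F) := by
      have e1 : y = (cc j)⁻¹ • mv ⇑Q n₀ z := by
        rw [hzy, smul_smul, inv_mul_cancel₀ (hcc0 j), one_smul]
      have e2 := flag_sum z _ hzF H.hL
      have e3 : mv ⇑Q n₀ z = ∑ l : Fin m, (if (l : ℕ) < (j : ℕ) + 1 then z (L l) else 0) •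
          mv ⇑Q n₀ (Pi.single (L l) (1 : F)) := by
        conv_lhs => rw [e2]
        have e4 := map_sum (Matrix.mulVecLin ((n₀ : GL ι F) : Matrix ι ι F))
          (fun l : Fin m => (if (l : ℕ) < (j : ℕ) + 1 then z (L l) else 0) •
            (Pi.single (L l) (1 : F) : ι → F)) Finset.univ
        simp only [Matrix.mulVecLin_apply, Matrix.mulVec_smul] at e4
        exact e4
      rw [e1, e3, Finset.smul_sum]
      apply Finset.sum_congr rfl
      intro l _
      rw [hcc l, smul_smul, smul_smul, mul_assoc]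
    have hyR : ∀ l : Fin m, y (R l) = (cc j)⁻¹ * ((if (l : ℕ) < (j : ℕ) + 1 then z (L l) else 0)
        * cc l) := by
      intro l
      conv_lhs => rw [hysum]
      rw [Finset.sum_apply, Finset.sum_eq_single l]
      · rw [Pi.smul_apply, Pi.single_eq_same, smul_eq_mul, mul_one]
      · intro l' _ hl'
        rw [Pi.smul_apply, Pi.single_eq_of_ne (fun e => hl' (H.hR e).symm), smul_zero]
      · intro h'; exact absurd (Finset.mem_univ _) h'
    have hy0 : ∀ l : Fin m, l ≠ j → y (R l) = 0 := by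
      intro l hl
      by_cases hlt : (l : ℕ) < (j : ℕ)
      · rw [← H.hpL l y, hy, hev_inr, polar_mv_right, QuadraticMap.polar_comm, H.hpR j]
        have hF : FlagP L ((l : ℕ) + 1) (mv ⇑Q g⁻¹ (ev L R F (Sum.inl l))) :=
          (hg _ _ (flagP_ev l)).2
        rw [hev_inl] at hF
        exact flag_zero hF H.hL j (by omega)
      · rw [hyR l, if_neg, zero_mul, mul_zero]
        have h2 : (l : ℕ) ≠ (j : ℕ) := fun e => hl (Fin.ext e)
        omega
    refine ⟨y (R j), ?_⟩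
    rw [← hy, Equiv.Perm.one_apply, hev_inr]
    conv_lhs => rw [hysum]
    rw [Finset.sum_eq_single j]
    · rw [← hyR j]
    · intro l _ hl
      rw [← hyR l, hy0 l hl, zero_smul]
    · intro h'; exact absurd (Finset.mem_univ _) h'

end Cfsg.Agent.Helper67.StSTABD
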