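import Mathlib
import Cfsg.Agent.Helper45.StDefs

set_option autoImplicit false

/-!
CALL S2547 (helper45), piece TORB (helper67): a `p`-element (`p` odd, the characteristic) fixing
the frame is trivial when `V₀` is anisotropic.
-/

universe u

namespace Cfsg.Agent.Helper67.StTORB

open Cfsg Cfsg.Agent.Helper13 Cfsg.Agent.Helper95.SpBN Cfsg.Agent.Helper45 Cfsg.Agent.Helper45.St

variable {ι : Type} [Fintype ι] [DecidableEq ι] {F : Type u} [Field F]
  {Q : QuadraticForm F (ι → F)} {m : ℕ} {L R : Fin m → ι}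

-- === PIECE TORB ===
theorem p_TORB (H : HypPairs Q m L R) (haniso : Aniso Q L R) (p : ℕ) [Fact p.Prime] [CharP F p]
    (hp2 : p ≠ 2) (g : ↥(isometryGroup F ⇑Q)) (hfix : ∀ a, mv ⇑Q g (ev L R F a) = ev L R F a)
    (hgp : g ^ p = 1) : g = 1 := by
  rcases isEmpty_or_nonempty ι with hι | hι
  · exact ext_mv Q g 1 (fun x => Subsingleton.elim _ _)
  have h2 : (2 : F) ≠ 0 := by
    intro h
    have h' : ((2 : ℕ) : F) = 0 := by exact_mod_cast h
    rw [CharP.cast_eq_zero_iff F p 2] at h'
    have hp : p.Prime := Fact.out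
    exact hp2 ((Nat.prime_dvd_prime_iff_eq hp Nat.prime_two).1 h')
  -- the key lemma on vectors
  have hK : ∀ x : ι → F, mv ⇑Q g (mv ⇑Q g x - x) = mv ⇑Q g x - x → mv ⇑Q g x - x = 0 := by
    intro x hw
    obtain ⟨w, hwdef⟩ : ∃ w : ι → F, w = mv ⇑Q g x - x := ⟨_, rfl⟩
    rw [← hwdef] at hw ⊢
    have hV0 : InV0 L R w := by
      intro a
      have e1 : (mv ⇑Q g x) (idx L R a) = x (idx L R a) := by
        have e2 := polar_ev H (tauP m a) (mv ⇑Q g x)
        rw [tauP_tauP] at e2
        have e3 := polar_ev H (tauP m a) x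
        rw [tauP_tauP] at e3
        rw [← e2, ← e3]
        have e4 := mv_polar Q g (ev L R F (tauP m a)) x
        rw [hfix] at e4
        exact e4
      rw [hwdef, Pi.sub_apply, e1, sub_self]
    have hgx : mv ⇑Q g x = x + w := by rw [hwdef]; abel
    have e5 := mv_polar Q g x w
    rw [hw, hgx, QuadraticMap.polar_add_left, QuadraticMap.polar_self] at e5
    have e6 : (2 : F) * Q w = 0 := by
      have : (2 : ℕ) • Q w = 0 := by
        have := e5
        rw [add_eq_left] at this
        exact this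
      rw [← this]; simp
    have hQw : Q w = 0 := by
      rcases mul_eq_zero.1 e6 with h | h
      · exact absurd h h2
      · exact h
    exact haniso w hV0 hQw
  -- matrices
  obtain ⟨M, hM⟩ : ∃ M : Matrix ι ι F, M = ((g : GL ι F) : Matrix ι ι F) := ⟨_, rfl⟩
  have hmv : ∀ x : ι → F, mv ⇑Q g x = M.mulVec x := by
    intro x; rw [hM]
  have hMp : M ^ p = 1 := by
    have h1 := congrArg (fun g : ↥(isometryGroup F ⇑Q) => ((g : GL ι F) : Matrix ι ι F)) hgp
    simp only [Subgroup.coe_pow, Units.val_pow_eq_pow_val, OneMemClass.coe_one, Units.val_one]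
      at h1
    rw [hM]; exact h1
  have hNp : (M - 1) ^ p = 0 := by
    rw [sub_pow_char_of_commute p (Commute.one_right M), hMp, one_pow, sub_self]
  have hNx : ∀ x : ι → F, (M - 1).mulVec x = mv ⇑Q g x - x := by
    intro x
    rw [Matrix.sub_mulVec, Matrix.one_mulVec, hmv]
  have hKm : ∀ x : ι → F, (M - 1).mulVec ((M - 1).mulVec x) = 0 → (M - 1).mulVec x = 0 := by
    intro x hx
    rw [hNx x]
    apply hK
    rw [hNx ((M - 1).mulVec x), hNx x] at hx
    exact sub_eq_zero.1 hx
  have hS : ∀ k : ℕ, (∀ x : ι → F, ((M - 1) ^ (k + 1)).mulVec x = 0) →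
      ∀ x : ι → F, (M - 1).mulVec x = 0 := by
    intro k
    induction k with
    | zero =>
      intro h x
      have := h x
      rw [zero_add, pow_one] at this
      exact this
    | succ k ih =>
      intro h
      apply ih
      intro x
      have h1 := h x
      rw [pow_succ', pow_succ', ← Matrix.mulVec_mulVec, ← Matrix.mulVec_mulVec] at h1
      have h2 := hKm _ h1
      rw [Matrix.mulVec_mulVec, ← pow_succ'] at h2
      exact h2
  have hp : p.Prime := Fact.out
  have hN : ∀ x : ι → F, (M - 1).mulVec x = 0 := by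
    apply hS (p - 1)
    intro x
    rw [Nat.sub_add_cancel hp.one_le, hNp, Matrix.zero_mulVec]
  apply ext_mv
  intro x
  rw [mv_one]
  have := hN x
  rw [hNx x] at this
  exact sub_eq_zero.1 this

end Cfsg.Agent.Helper67.StTORB
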