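/-
CALL S2314 (helper40), piece REIDX (double by helper67): the Steinberg character of the induced
BN-pair of `P_J`, as a sum over the subsets of `J0`.
-/
import Mathlib
import Cfsg.Agent.Helper40.BNStD

set_option autoImplicit false

namespace Cfsg.Agent.Helper67.UCREIDX

open Cfsg.Agent.Helper6 Cfsg.Agent.Helper40.BNSt

theorem reidx_aux {G : Type*} [Group G] (P : Cfsg.BNPair G) (σ : ℕ → G) (J0 : Finset ℕ)
    (PJ : Subgroup G) (hPJ : PJ = P.parabolic (σ '' (J0 : Set ℕ)))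
    (Q : Cfsg.BNPair ↥PJ) (hQB : Q.B = P.B.subgroupOf PJ)
    (hQS : Q.S = {x : ↥PJ | (x : G) ∈ σ '' (J0 : Set ℕ)}) :
    ∃ (r' : ℕ) (σ' : ℕ → ↥PJ),
      Q.S = σ' '' ((Finset.range r' : Finset ℕ) : Set ℕ) ∧
      ∀ x : ↥PJ, stChar Q r' σ' x =
        ∑ K0 ∈ J0.powerset, (-1 : ℂ) ^ K0.card *
          Cfsg.fixedPointCharacter ((P.parabolic (σ '' (K0 : Set ℕ))).subgroupOf PJ) x := by
  classical
  have hBle : P.B ≤ PJ := by
    rw [hPJ]
    exact le_sup_left
  have hσmem : ∀ j ∈ J0, σ j ∈ PJ := by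
    intro j hj
    rw [hPJ]
    exact (le_sup_right : Subgroup.closure (σ '' (J0 : Set ℕ)) ≤ P.parabolic (σ '' (J0 : Set ℕ)))
      (Subgroup.subset_closure ⟨j, hj, rfl⟩)
  -- an enumeration of `J0`
  obtain ⟨f, hfdef⟩ : ∃ f : ℕ → ℕ, f = fun k =>
      if h : k < J0.card then ((J0.equivFin.symm ⟨k, h⟩ : ↥J0) : ℕ) else 0 := ⟨_, rfl⟩
  have hfmem : ∀ k ∈ Finset.range J0.card, f k ∈ J0 := by
    intro k hk
    rw [Finset.mem_range] at hk
    rw [hfdef]
    simp only [dif_pos hk]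
    exact (J0.equivFin.symm ⟨k, hk⟩).2
  have hfinj : ∀ k ∈ Finset.range J0.card, ∀ k' ∈ Finset.range J0.card, f k = f k' → k = k' := by
    intro k hk k' hk' hkk
    rw [Finset.mem_range] at hk hk'
    rw [hfdef] at hkk
    simp only [dif_pos hk, dif_pos hk'] at hkk
    have h1 := J0.equivFin.symm.injective (Subtype.ext hkk)
    exact congrArg Fin.val h1
  have hfsurj : ∀ j ∈ J0, ∃ k ∈ Finset.range J0.card, f k = j := by
    intro j hj
    refine ⟨(J0.equivFin ⟨j, hj⟩ : ℕ), Finset.mem_range.mpr (J0.equivFin ⟨j, hj⟩).2, ?_⟩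
    rw [hfdef]
    simp only [dif_pos (J0.equivFin ⟨j, hj⟩).2]
    simp
  obtain ⟨σ', hσ'def⟩ : ∃ σ' : ℕ → ↥PJ, σ' = fun k =>
      if h : f k ∈ J0 then (⟨σ (f k), hσmem _ h⟩ : ↥PJ) else 1 := ⟨_, rfl⟩
  have hσ' : ∀ k ∈ Finset.range J0.card, ((σ' k : ↥PJ) : G) = σ (f k) := by
    intro k hk
    rw [hσ'def]
    simp only [dif_pos (hfmem k hk)]
  refine ⟨J0.card, σ', ?_, ?_⟩
  · ext x
    rw [hQS]
    constructor
    · rintro ⟨j, hj, hjx⟩
      obtain ⟨k, hk, rfl⟩ := hfsurj j hj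
      exact ⟨k, hk, Subtype.ext (by rw [hσ' k hk]; exact hjx)⟩
    · rintro ⟨k, hk, rfl⟩
      show ((σ' k : ↥PJ) : G) ∈ σ '' (J0 : Set ℕ)
      rw [hσ' k hk]
      exact ⟨f k, hfmem k hk, rfl⟩
  · intro x
    unfold stChar
    apply Finset.sum_bij (fun K' _ => K'.image f)
    · intro K' hK'
      rw [Finset.mem_powerset] at hK' ⊢
      intro j hj
      obtain ⟨k, hk, rfl⟩ := Finset.mem_image.mp hj
      exact hfmem k (hK' hk)
    · intro K1 h1 K2 h2 h12
      rw [Finset.mem_powerset] at h1 h2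
      ext k
      constructor
      · intro hk
        have h3 : f k ∈ K2.image f := by rw [← h12]; exact Finset.mem_image_of_mem f hk
        obtain ⟨k', hk', hkk⟩ := Finset.mem_image.mp h3
        rw [← hfinj k' (h2 hk') k (h1 hk) hkk]
        exact hk'
      · intro hk
        have h3 : f k ∈ K1.image f := by rw [h12]; exact Finset.mem_image_of_mem f hk
        obtain ⟨k', hk', hkk⟩ := Finset.mem_image.mp h3
        rw [← hfinj k' (h1 hk') k (h2 hk) hkk]
        exact hk'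
    · intro K0 hK0
      rw [Finset.mem_powerset] at hK0
      refine ⟨(Finset.range J0.card).filter (fun k => f k ∈ K0),
        Finset.mem_powerset.mpr (Finset.filter_subset _ _), ?_⟩
      ext j
      rw [Finset.mem_image]
      constructor
      · rintro ⟨k, hk, rfl⟩
        exact (Finset.mem_filter.mp hk).2
      · intro hj
        obtain ⟨k, hk, rfl⟩ := hfsurj j (hK0 hj)
        exact ⟨k, Finset.mem_filter.mpr ⟨hk, hj⟩, rfl⟩
    · intro K' hK'
      rw [Finset.mem_powerset] at hK'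
      have hcard : (K'.image f).card = K'.card :=
        Finset.card_image_of_injOn (fun k hk k' hk' h => hfinj k (hK' hk) k' (hK' hk') h)
      have hsub : Q.parabolic (σ' '' (K' : Set ℕ)) =
          (P.parabolic (σ '' ((K'.image f : Finset ℕ) : Set ℕ))).subgroupOf PJ := by
        unfold Cfsg.BNPair.parabolic
        have hX : σ '' ((K'.image f : Finset ℕ) : Set ℕ) = PJ.subtype '' (σ' '' (K' : Set ℕ)) := by
          ext g
          constructor
          · rintro ⟨j, hj, rfl⟩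
            obtain ⟨k, hk, rfl⟩ := Finset.mem_image.mp (Finset.mem_coe.mp hj)
            exact ⟨σ' k, ⟨k, hk, rfl⟩, hσ' k (hK' hk)⟩
          · rintro ⟨_, ⟨k, hk, rfl⟩, rfl⟩
            exact ⟨f k, Finset.mem_coe.mpr (Finset.mem_image_of_mem f hk), (hσ' k (hK' hk)).symm⟩
        have hle : (Subgroup.closure (σ' '' (K' : Set ℕ))).map PJ.subtype ≤ PJ := by
          rintro _ ⟨y, _, rfl⟩
          exact y.2
        rw [hX, ← MonoidHom.map_closure, hQB, Subgroup.subgroupOf_sup hBle hle]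
        congr 1
        exact (Subgroup.comap_map_eq_self_of_injective (Subgroup.subtype_injective _) _).symm
      rw [hcard, hsub]

/-- REIDX: the Steinberg character of the induced BN-pair of `P_J`, as a sum over the subsets of `J0`. -/
theorem reidx {G : Type*} [Group G] (P : Cfsg.BNPair G) (σ : ℕ → G) (J0 : Finset ℕ)
    (Q : Cfsg.BNPair ↥(P.parabolic (σ '' (J0 : Set ℕ))))
    (hQB : Q.B = P.B.subgroupOf (P.parabolic (σ '' (J0 : Set ℕ))))
    (hQS : Q.S = {x : ↥(P.parabolic (σ '' (J0 : Set ℕ))) | (x : G) ∈ σ '' (J0 : Set ℕ)}) :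
    ∃ (r' : ℕ) (σ' : ℕ → ↥(P.parabolic (σ '' (J0 : Set ℕ)))),
      Q.S = σ' '' ((Finset.range r' : Finset ℕ) : Set ℕ) ∧
      ∀ x : ↥(P.parabolic (σ '' (J0 : Set ℕ))), stChar Q r' σ' x =
        ∑ K0 ∈ J0.powerset, (-1 : ℂ) ^ K0.card *
          Cfsg.fixedPointCharacter
            ((P.parabolic (σ '' (K0 : Set ℕ))).subgroupOf (P.parabolic (σ '' (J0 : Set ℕ)))) x :=
  reidx_aux P σ J0 _ rfl Q hQB hQS

end Cfsg.Agent.Helper67.UCREIDX
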