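/-
CALL S2314 (helper40), piece CV5 (double by helper67): some conjugate of `U` inside `P_J`
meets `U` in `U_J`.
-/
import Mathlib
import Cfsg.Agent.Helper18.UCCV2
import Cfsg.Agent.Helper18.UCCV3
import Cfsg.Agent.Helper59.UCCV6
import Cfsg.Agent.Helper8.UCSYL
import Cfsg.Agent.S1027
import Cfsg.Agent.S1037
import Cfsg.Agent.S1048
import Cfsg.Agent.S1053

set_option autoImplicit false

namespace Cfsg.Agent.Helper67.UCCV5

open Cfsg.Lie

variable {F : Type*} [Field F] [Fintype F] {D : ChevalleyDatum}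

/-- CV5: some conjugate of `U` inside `P_J` meets `U` in `U_J`. -/
theorem exists_conj_inter (p : ℕ) [Fact p.Prime] [CharP F p]
    (hD : D ∈ [chevG2, chevB2, chevD4, chevF4, chevE6, chevE7, chevE8]) (J : Set ℕ) :
    ∃ c ∈ D.parabolicSubgroup F J, ∀ u ∈ D.posUnipotent F,
      c⁻¹ * u * c ∈ D.posUnipotent F → u ∈ D.unipotentRadical F J := by
  classical
  obtain ⟨Y, hYV, hYP, hYc⟩ := Cfsg.Agent.Helper18.UCCV3.exists_opposite (F := F) hD J
  have hcardU := Cfsg.Agent.S1027.result (F := F) D hD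
  have hU : D.posUnipotent F ≤ D.parabolicSubgroup F J := by
    unfold ChevalleyDatum.parabolicSubgroup ChevalleyDatum.borelSubgroup
    exact le_trans le_sup_left le_sup_left
  have hUJ : D.unipotentRadical F J ≤ D.posUnipotent F := by
    unfold ChevalleyDatum.unipotentRadical ChevalleyDatum.posUnipotent
    apply Subgroup.closure_mono
    rintro g ⟨r, t, hr, -, hg⟩
    exact ⟨r, t, hr, hg⟩
  have h48 := Cfsg.Agent.S1048.result (F := F) D hD J
  have hnorm : ∀ g ∈ D.parabolicSubgroup F J, ∀ u ∈ D.unipotentRadical F J,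
      g * u * g⁻¹ ∈ D.unipotentRadical F J := by
    intro g hg u hu
    exact (Subgroup.mem_normalizer_iff.mp (h48.1 hg) u).mp hu
  have hUV : D.posUnipotent F ⊓ D.negUnipotent F = ⊥ := by
    have h37 := (Cfsg.Agent.S1037.result (F := F) D hD).1
    rw [eq_bot_iff, ← h37]
    exact inf_le_inf_right _ (by unfold ChevalleyDatum.borelSubgroup; exact le_sup_left)
  obtain ⟨n, -, hn⟩ := Cfsg.Agent.S1053.result (F := F) D hD
  have hcardV : Nat.card (D.negUnipotent F) = Fintype.card F ^ (D.nroots / 2) := by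
    rw [← hn, ← hcardU]
    exact Nat.card_congr
      ((D.posUnipotent F).equivMapOfInjective _ (MulAut.conj n).injective).symm.toEquiv
  have hVp : IsPGroup p (D.negUnipotent F) := by
    obtain ⟨k, -, hq⟩ := FiniteField.card F p
    apply IsPGroup.of_card (n := (k : ℕ) * (D.nroots / 2))
    rw [hcardV, hq, pow_mul]
  have hcard : Nat.card (D.posUnipotent F) ≤
      Nat.card (D.unipotentRadical F J) * Nat.card Y := by
    rw [hcardU]
    exact le_trans (Cfsg.Agent.Helper18.UCCV2.card_unipotentRadical_ge (F := F) hD J)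
      (Nat.mul_le_mul_left _ hYc)
  exact Cfsg.Agent.Helper8.UCSYL.sylow_step p (D.posUnipotent F) (D.negUnipotent F)
    (D.parabolicSubgroup F J) (D.unipotentRadical F J) Y hU hUJ hnorm hYP hYV hUV hVp hcard
    (Cfsg.Agent.Helper59.UCCV6.sylow_in_parabolic p hD J)

end Cfsg.Agent.Helper67.UCCV5
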