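import Mathlib

set_option autoImplicit false

/-!
CALL S2086 (helper40), piece G4 (helper67): the torus trick for central extensions.
-/

namespace Cfsg.Agent.Helper67.SM

open scoped commutatorElement

section Grp

variable {Γ G : Type*} [Group Γ] [Group G] (σ : Γ →* G)

theorem tc_left (z : Γ) (hz : ∀ g : Γ, g * z = z * g) (a b : Γ) : ⁅a * z, b⁆ = ⁅a, b⁆ := by
  rw [commutatorElement_def, commutatorElement_def, mul_inv_rev]
  have e : a * z * b * (z⁻¹ * a⁻¹) * b⁻¹ = a * (b * z) * z⁻¹ * a⁻¹ * b⁻¹ := by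
    rw [hz b]; group
  rw [e]; group

theorem tc_right (z : Γ) (hz : ∀ g : Γ, g * z = z * g) (a b : Γ) : ⁅a, b * z⁆ = ⁅a, b⁆ := by
  rw [commutatorElement_def, commutatorElement_def, mul_inv_rev]
  have e : a * (b * z) * a⁻¹ * (z⁻¹ * b⁻¹) = a * b * (a⁻¹ * z) * z⁻¹ * b⁻¹ := by
    rw [hz a⁻¹]; group
  rw [e]; group

/-- The commutator of two lifts does not depend on the lifts. -/
theorem tc_congr (hc : σ.ker ≤ Subgroup.center Γ) {a a' b b' : Γ} (ha : σ a = σ a')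
    (hb : σ b = σ b') : ⁅a, b⁆ = ⁅a', b'⁆ := by
  have hz : a'⁻¹ * a ∈ Subgroup.center Γ := by
    apply hc
    rw [MonoidHom.mem_ker, map_mul, map_inv, ha, inv_mul_cancel]
  have hz' : b'⁻¹ * b ∈ Subgroup.center Γ := by
    apply hc
    rw [MonoidHom.mem_ker, map_mul, map_inv, hb, inv_mul_cancel]
  rw [Subgroup.mem_center_iff] at hz hz'
  have ea : a = a' * (a'⁻¹ * a) := by group
  have eb : b = b' * (b'⁻¹ * b) := by group
  rw [ea, eb, tc_left _ hz, tc_right _ hz']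

/-- The commutator of lifts of commuting elements is central. -/
theorem tc_central (hc : σ.ker ≤ Subgroup.center Γ) {a b : Γ}
    (h : σ a * σ b = σ b * σ a) : ⁅a, b⁆ ∈ Subgroup.center Γ := by
  apply hc
  rw [MonoidHom.mem_ker, map_commutatorElement, commutatorElement_def, h]
  group

/-- Multiplicativity on the left when the second commutator is central. -/
theorem tc_mul_left (hc : σ.ker ≤ Subgroup.center Γ) {a a' b : Γ}
    (h' : σ a' * σ b = σ b * σ a') : ⁅a * a', b⁆ = ⁅a, b⁆ * ⁅a', b⁆ := by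
  have hz := tc_central σ hc h'
  rw [Subgroup.mem_center_iff] at hz
  have e1 : ⁅a * a', b⁆ = a * ⁅a', b⁆ * a⁻¹ * ⁅a, b⁆ := by
    simp only [commutatorElement_def]; group
  rw [e1, hz a, mul_assoc ⁅a', b⁆ a, mul_inv_cancel, mul_one, ← hz ⁅a, b⁆]

/-- G4 (the torus trick): if `d` normalizes the one-parameter group `x`, acting on it by the
scalar `a ≠ 1`, and centralizes `y`, which commutes with `x`, then lifts of `x t` and `y`
commute. -/
theorem torus_comm {K : Type*} [Field K] (hσ : Function.Surjective σ)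
    (hc : σ.ker ≤ Subgroup.center Γ) (x : K → G) (hx : ∀ t t', x (t + t') = x t * x t') (y : G)
    (hxy : ∀ t, x t * y = y * x t) (d : G) (a : K) (ha : a ≠ 1)
    (hdx : ∀ t, d * x t * d⁻¹ = x (a * t)) (hdy : d * y * d⁻¹ = y) :
    ∀ (t : K) (A B : Γ), σ A = x t → σ B = y → A * B = B * A := by
  -- the lifts
  obtain ⟨Al, hAl⟩ : ∃ Al : K → Γ, ∀ t, σ (Al t) = x t :=
    ⟨fun t => Function.surjInv hσ (x t), fun t => Function.surjInv_eq hσ (x t)⟩
  obtain ⟨B₀, hB₀⟩ := hσ y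
  obtain ⟨D, hD⟩ := hσ d
  -- the function `F`
  have hFc : ∀ t, ⁅Al t, B₀⁆ ∈ Subgroup.center Γ := fun t =>
    tc_central σ hc (by rw [hAl, hB₀]; exact hxy t)
  have hFadd : ∀ t t', ⁅Al (t + t'), B₀⁆ = ⁅Al t, B₀⁆ * ⁅Al t', B₀⁆ := by
    intro t t'
    rw [← tc_mul_left σ hc (by rw [hAl, hB₀]; exact hxy t')]
    exact tc_congr σ hc (by rw [hAl, map_mul, hAl, hAl, hx]) rfl
  have hF0 : ⁅Al 0, B₀⁆ = 1 := by
    have h := hFadd 0 0
    rw [add_zero] at h
    exact (mul_eq_left.1 h.symm)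
  have hFneg : ∀ t, ⁅Al (-t), B₀⁆ = (⁅Al t, B₀⁆)⁻¹ := by
    intro t
    have h := hFadd t (-t)
    rw [add_neg_cancel, hF0] at h
    exact (inv_eq_of_mul_eq_one_right h.symm).symm
  have hFa : ∀ t, ⁅Al (a * t), B₀⁆ = ⁅Al t, B₀⁆ := by
    intro t
    have h1 : ⁅Al (a * t), B₀⁆ = ⁅D * Al t * D⁻¹, D * B₀ * D⁻¹⁆ := by
      apply tc_congr σ hc
      · rw [hAl, map_mul, map_mul, map_inv, hD, hAl, hdx]
      · rw [map_mul, map_mul, map_inv, hD, hB₀, hdy]
    have h2 : ⁅D * Al t * D⁻¹, D * B₀ * D⁻¹⁆ = D * ⁅Al t, B₀⁆ * D⁻¹ := by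
      simp only [commutatorElement_def]; group
    have hz := hFc t
    rw [Subgroup.mem_center_iff] at hz
    rw [h1, h2, hz D, mul_assoc, mul_inv_cancel, mul_one]
  have hF1 : ∀ t, ⁅Al t, B₀⁆ = 1 := by
    intro t
    have ha' : a - 1 ≠ 0 := sub_ne_zero.2 ha
    have e : t = a * ((a - 1)⁻¹ * t) + -((a - 1)⁻¹ * t) := by
      field_simp
      ring
    rw [e, hFadd, hFneg, hFa, mul_inv_cancel]
  intro t A B hA hB
  have h := tc_congr σ hc (a := A) (a' := Al t) (b := B) (b' := B₀) (by rw [hA, hAl])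
    (by rw [hB, hB₀])
  rw [hF1 t] at h
  exact commutatorElement_eq_one_iff_mul_comm.1 h

end Grp

end Cfsg.Agent.Helper67.SM
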