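import Cfsg.Agent.Helper64.UCDefs
import Cfsg.Agent.Helper67.SMG4

set_option autoImplicit false

/-!
CALL S2100 (helper64), piece C0 (helper67): the lifts of two commuting root subgroups commute.
-/

namespace Cfsg.Agent.Helper67.STUC0

open Cfsg Cfsg.Lie Cfsg.Agent.Helper36 Cfsg.Agent.Helper64.UC
open scoped commutatorElement

variable {K : Type*} [Field K] {Γ : Type*} [Group Γ] {E : Type*} [Group E]

/-- PIECE C0: the lifts of two commuting root subgroups commute (no additivity needed). -/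
theorem comm_zero {D : ChevalleyDatum} {x : ℕ → K → Γ} (G : GSys D x) (ψ : E →* Γ)
    (hψ : Function.Surjective ψ) (hc : ψ.ker ≤ Subgroup.center E) (y : ℕ → K → E)
    (hmap : ∀ r < D.nroots, ∀ t : K, ψ (y r t) = x r t)
    (hequiv : ∀ (h : Γ) (χ : ℕ → K), Diag D.nroots x h χ → ∀ e : E, ψ e = h →
      ∀ r < D.nroots, ∀ t : K, e * y r t * e⁻¹ = y r (χ r * t))
    {p q : ℕ} (hv : VP D p q) (h0 : D.commTerms p q = [])
    {h : Γ} {χ : ℕ → K} (hd : Diag D.nroots x h χ) (hχp : χ p = 1) (hχq : χ q ≠ 1)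
    (t u : K) : y q u * y p t = y p t * y q u := by
  obtain ⟨hp, hq, hqp, hqn⟩ := hv
  obtain ⟨e, he⟩ := hψ h
  have hc1 : χ q - 1 ≠ 0 := sub_ne_zero.2 hχq
  obtain ⟨v, hvdef⟩ : ∃ v : K, v = u / (χ q - 1) := ⟨_, rfl⟩
  obtain ⟨a, ha⟩ : ∃ a : E, a = y p t := ⟨_, rfl⟩
  obtain ⟨b, hb⟩ : ∃ b : E, b = y q v := ⟨_, rfl⟩
  have hae : e * a * e⁻¹ = a := by
    rw [ha, hequiv h χ hd e he p hp t, hχp, one_mul]
  have heb : e * b * e⁻¹ = y q (χ q * v) := by rw [hb, hequiv h χ hd e he q hq v]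
  have hcm : x q v * x p t = x p t * x q v := by
    have h1 := G.comm p hp q hq hqp hqn t v
    have hw : sW x (D.commWord K p q t v) = 1 := by
      unfold ChevalleyDatum.commWord
      rw [h0]; rfl
    rw [hw, mul_one] at h1
    exact h1
  have hab : ψ (a * b * a⁻¹) = ψ b := by
    rw [map_mul, map_mul, map_inv, ha, hb, hmap p hp, hmap q hq, ← hcm]; group
  have hw1 : a * ⁅e, b⁆ * a⁻¹ = ⁅e, b⁆ := by
    have e1 : a * ⁅e, b⁆ * a⁻¹ = ⁅a * e * a⁻¹, a * b * a⁻¹⁆ := by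
      simp only [commutatorElement_def]; group
    have e2 : a * e * a⁻¹ = e := by
      calc a * e * a⁻¹ = (e * a * e⁻¹) * e * a⁻¹ := by rw [hae]
        _ = e := by group
    rw [e1, e2]
    exact Cfsg.Agent.Helper67.SM.tc_congr ψ hc rfl hab
  obtain ⟨w, hwdef⟩ : ∃ w : E, w = ⁅e, b⁆ := ⟨_, rfl⟩
  rw [← hwdef] at hw1
  have hψw : ψ w = x q u := by
    rw [hwdef, commutatorElement_def]
    have h2 : ψ (e * b * e⁻¹ * b⁻¹) = x q (χ q * v) * (x q v)⁻¹ := by
      rw [map_mul, heb, hmap q hq, map_inv, hb, hmap q hq]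
    rw [h2]
    have h3 : χ q * v = u + v := by rw [hvdef]; field_simp; ring
    rw [h3, ← G.add q u v]; group
  obtain ⟨z, hzdef⟩ : ∃ z : E, z = w⁻¹ * y q u := ⟨_, rfl⟩
  have hz : z ∈ Subgroup.center E := by
    apply hc
    rw [MonoidHom.mem_ker, hzdef, map_mul, map_inv, hψw, hmap q hq, inv_mul_cancel]
  rw [Subgroup.mem_center_iff] at hz
  have hyq : y q u = w * z := by rw [hzdef]; group
  have hwa : a * w = w * a := by
    calc a * w = (a * w * a⁻¹) * a := by group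
      _ = w * a := by rw [hw1]
  rw [← ha, hyq]
  calc w * z * a = w * (z * a) := by rw [mul_assoc]
    _ = w * (a * z) := by rw [hz a]
    _ = (w * a) * z := by rw [mul_assoc]
    _ = (a * w) * z := by rw [hwa]
    _ = a * (w * z) := by rw [mul_assoc]

end Cfsg.Agent.Helper67.STUC0
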