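import Cfsg.Agent.Helper64.UCDefs
import Cfsg.Agent.Helper67.SMG4

set_option autoImplicit false

/-!
CALL S2100 (helper64), piece C1 (helper67): the lifts of the elements of one root subgroup
commute.
-/

namespace Cfsg.Agent.Helper67.STUC1

open Cfsg Cfsg.Lie Cfsg.Agent.Helper36 Cfsg.Agent.Helper64.UC
open scoped commutatorElement

variable {K : Type*} [Field K] {Γ : Type*} [Group Γ] {E : Type*} [Group E]

/-- Multiplicativity on the right when the second commutator is central. -/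
theorem tc_mul_right (ψ : E →* Γ) (hc : ψ.ker ≤ Subgroup.center E) {a b b' : E}
    (h' : ψ a * ψ b' = ψ b' * ψ a) : ⁅a, b * b'⁆ = ⁅a, b⁆ * ⁅a, b'⁆ := by
  have hz := Cfsg.Agent.Helper67.SM.tc_central ψ hc h'
  rw [Subgroup.mem_center_iff] at hz
  have e1 : ⁅a, b * b'⁆ = ⁅a, b⁆ * (b * ⁅a, b'⁆ * b⁻¹) := by
    simp only [commutatorElement_def]; group
  rw [e1, hz b, mul_assoc ⁅a, b'⁆ b, mul_inv_cancel, mul_one]

/-- PIECE C1: the lifts of the elements of one root subgroup commute, when the torus acts on it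
through all of `Kˣ`. -/
theorem comm_self {D : ChevalleyDatum} {x : ℕ → K → Γ} (G : GSys D x) (ψ : E →* Γ)
    (hψ : Function.Surjective ψ) (hc : ψ.ker ≤ Subgroup.center E) (y : ℕ → K → E)
    (hmap : ∀ r < D.nroots, ∀ t : K, ψ (y r t) = x r t)
    (hequiv : ∀ (h : Γ) (χ : ℕ → K), Diag D.nroots x h χ → ∀ e : E, ψ e = h →
      ∀ r < D.nroots, ∀ t : K, e * y r t * e⁻¹ = y r (χ r * t))
    {r : ℕ} (hr : r < D.nroots)
    (hfull : ∀ c : K, c ≠ 0 → ∃ (h : Γ) (χ : ℕ → K), Diag D.nroots x h χ ∧ χ r = c)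
    {c₀ : K} (h0 : c₀ ≠ 0) (h1 : c₀ ≠ 1) (h2 : c₀ ^ 2 - c₀ + 1 ≠ 0) (t u : K) :
    Commute (y r t) (y r u) := by
  -- the images commute
  have hxc : ∀ t u : K, ψ (y r t) * ψ (y r u) = ψ (y r u) * ψ (y r t) := by
    intro t u
    rw [hmap r hr, hmap r hr, G.add, G.add, add_comm]
  have hcen : ∀ t u : K, ⁅y r t, y r u⁆ ∈ Subgroup.center E := fun t u =>
    Cfsg.Agent.Helper67.SM.tc_central ψ hc (hxc t u)
  have hadd1 : ∀ t t' u : K, ⁅y r (t + t'), y r u⁆ = ⁅y r t, y r u⁆ * ⁅y r t', y r u⁆ := by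
    intro t t' u
    rw [← Cfsg.Agent.Helper67.SM.tc_mul_left ψ hc (hxc t' u)]
    exact Cfsg.Agent.Helper67.SM.tc_congr ψ hc
      (by rw [map_mul, hmap r hr, hmap r hr, hmap r hr, G.add]) rfl
  have hadd2 : ∀ t u u' : K, ⁅y r t, y r (u + u')⁆ = ⁅y r t, y r u⁆ * ⁅y r t, y r u'⁆ := by
    intro t u u'
    rw [← tc_mul_right ψ hc (hxc t u')]
    exact Cfsg.Agent.Helper67.SM.tc_congr ψ hc rfl
      (by rw [map_mul, hmap r hr, hmap r hr, hmap r hr, G.add])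
  have hsub1 : ∀ t t' u : K, ⁅y r (t - t'), y r u⁆ = ⁅y r t, y r u⁆ * (⁅y r t', y r u⁆)⁻¹ := by
    intro t t' u
    have h := hadd1 (t - t') t' u
    rw [sub_add_cancel] at h
    rw [h]; group
  have hsub2 : ∀ t u u' : K, ⁅y r t, y r (u - u')⁆ = ⁅y r t, y r u⁆ * (⁅y r t, y r u'⁆)⁻¹ := by
    intro t u u'
    have h := hadd2 t (u - u') u'
    rw [sub_add_cancel] at h
    rw [h]; group
  have hinv : ∀ c : K, c ≠ 0 → ∀ t u : K, ⁅y r (c * t), y r (c * u)⁆ = ⁅y r t, y r u⁆ := by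
    intro c hc0 t u
    obtain ⟨h, χ, hd, hχ⟩ := hfull c hc0
    obtain ⟨e, he⟩ := hψ h
    have e1 := hequiv h χ hd e he r hr t
    have e2 := hequiv h χ hd e he r hr u
    rw [hχ] at e1 e2
    rw [← e1, ← e2]
    have e3 : ⁅e * y r t * e⁻¹, e * y r u * e⁻¹⁆ = e * ⁅y r t, y r u⁆ * e⁻¹ := by
      simp only [commutatorElement_def]; group
    have hz := hcen t u
    rw [Subgroup.mem_center_iff] at hz
    rw [e3, hz e, mul_assoc, mul_inv_cancel, mul_one]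
  have hc1 : c₀ - 1 ≠ 0 := sub_ne_zero.2 h1
  -- the two evaluations of `F t ((c₀ - 1) u)`
  have hA1 : ∀ t u : K, ⁅y r t, y r ((c₀ - 1) * u)⁆
      = ⁅y r (t / c₀), y r u⁆ * (⁅y r t, y r u⁆)⁻¹ := by
    intro t u
    have e1 : (c₀ - 1) * u = c₀ * u - u := by ring
    rw [e1, hsub2]
    have e2 : ⁅y r t, y r (c₀ * u)⁆ = ⁅y r (t / c₀), y r u⁆ := by
      have e3 := hinv c₀ h0 (t / c₀) u
      have e4 : c₀ * (t / c₀) = t := by field_simp
      rw [e4] at e3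
      exact e3
    rw [e2]
  have hA2 : ∀ t u : K, ⁅y r t, y r ((c₀ - 1) * u)⁆ = ⁅y r (t / (c₀ - 1)), y r u⁆ := by
    intro t u
    have e3 := hinv (c₀ - 1) hc1 (t / (c₀ - 1)) u
    have e4 : (c₀ - 1) * (t / (c₀ - 1)) = t := by field_simp
    rw [e4] at e3
    exact e3
  obtain ⟨μ, hμ⟩ : ∃ μ : K, μ = 1 / c₀ - 1 - 1 / (c₀ - 1) := ⟨_, rfl⟩
  have hμ0 : μ ≠ 0 := by
    intro h
    apply h2
    have e : μ * (c₀ * (c₀ - 1)) = -(c₀ ^ 2 - c₀ + 1) := by
      rw [hμ]; field_simp; ring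
    rw [h, zero_mul] at e
    have := neg_eq_zero.1 e.symm
    exact this
  have hkey : ∀ t u : K, ⁅y r (μ * t), y r u⁆ = 1 := by
    intro t u
    have e : μ * t = (t / c₀ - t) - t / (c₀ - 1) := by rw [hμ]; ring
    rw [e, hsub1, hsub1, ← hA1, hA2, mul_inv_cancel]
  have hF : ⁅y r t, y r u⁆ = 1 := by
    have e := hkey (t / μ) u
    have e4 : μ * (t / μ) = t := by field_simp
    rw [e4] at e
    exact e
  exact commutatorElement_eq_one_iff_commute.1 hF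

end Cfsg.Agent.Helper67.STUC1
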