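import Mathlib
import Cfsg.Agent.Helper15.B42Defs
import Cfsg.Agent.Helper77.D1Final

universe u
set_option autoImplicit false
open Cfsg Cfsg.Agent.Helper77 Cfsg.Agent.Helper15
open scoped ComplexConjugate

namespace Cfsg.Agent.Helper67

variable {G : Type u} [Group G] [Finite G]

set_option linter.unusedSectionVars false

/-- The averaging operator of a cyclic group of order `p` in a representation. -/
theorem b42nofix_S {n : ℕ} (ρ : Representation ℂ G (Fin n → ℂ)) (p : ℕ) (hp : p ≠ 0) (x : G)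
    (hxp : x ^ p = 1)
    (htr : ∑ b ∈ Finset.range p, LinearMap.trace ℂ (Fin n → ℂ) (ρ (x ^ b)) = 0) :
    ∑ b ∈ Finset.range p, ρ (x ^ b) = 0 := by
  set S : Module.End ℂ (Fin n → ℂ) := ∑ b ∈ Finset.range p, ρ (x ^ b) with hS
  have h1 : ρ x * S = S := by
    rw [hS, Finset.mul_sum]
    have e1 : ∀ b ∈ Finset.range p, ρ x * ρ (x ^ b) = ρ (x ^ (b + 1)) := by
      intro b _
      rw [← map_mul, pow_succ']
    rw [Finset.sum_congr rfl e1]
    have e2 := Finset.sum_range_succ (fun b => ρ (x ^ b)) p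
    have e3 := Finset.sum_range_succ' (fun b => ρ (x ^ b)) p
    rw [e2] at e3
    simp only [hxp, pow_zero] at e3
    exact (add_right_cancel e3).symm
  have h2 : ∀ a : ℕ, ρ (x ^ a) * S = S := by
    intro a
    induction a with
    | zero => rw [pow_zero, map_one, one_mul]
    | succ a ih => rw [pow_succ, map_mul, mul_assoc, h1, ih]
  have h3 : S * S = (p : ℂ) • S := by
    conv_lhs => rw [hS, Finset.sum_mul]
    rw [Finset.sum_congr rfl (fun a _ => h2 a), Finset.sum_const, Finset.card_range,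
      ← Nat.cast_smul_eq_nsmul ℂ]
  have hp0 : (p : ℂ) ≠ 0 := Nat.cast_ne_zero.2 hp
  have hidem : IsIdempotentElem ((p : ℂ)⁻¹ • S) := by
    show _ * _ = _
    rw [smul_mul_smul_comm, h3, smul_smul, mul_assoc, inv_mul_cancel₀ hp0, mul_one]
  have htr0 : LinearMap.trace ℂ (Fin n → ℂ) ((p : ℂ)⁻¹ • S) = 0 := by
    rw [map_smul, hS, map_sum, htr, smul_zero]
  have hE := (LinearMap.IsIdempotentElem.trace_eq_zero_iff hidem).1 htr0
  have : S = (p : ℂ) • ((p : ℂ)⁻¹ • S) := by
    rw [smul_smul, mul_inv_cancel₀ hp0, one_smul]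
  rw [this, hE, smul_zero]

/-- NOFIX -/
theorem b42_nofix (p : ℕ) [Fact p.Prime] (x : G) (hx : orderOf x = p) (ζ : G → ℂ)
    (hζ : Cfsg.IsCharacter G ζ) (h0 : b42Fix p x ζ = 0) (g : G) :
    ∑ b ∈ Finset.range p, ζ (x ^ b * g) = 0 := by
  have hp : p.Prime := Fact.out
  obtain ⟨n, ρ, rfl⟩ := hζ
  have hp0 : (p : ℂ) ≠ 0 := Nat.cast_ne_zero.2 hp.ne_zero
  have hxp : x ^ p = 1 := by rw [← hx]; exact pow_orderOf_eq_one x
  have htr : ∑ b ∈ Finset.range p, LinearMap.trace ℂ (Fin n → ℂ) (ρ (x ^ b)) = 0 := by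
    unfold b42Fix at h0
    rcases mul_eq_zero.1 h0 with h | h
    · exact absurd (inv_eq_zero.1 h) hp0
    · exact h
  have hS := b42nofix_S ρ p hp.ne_zero x hxp htr
  have e1 : ∀ b ∈ Finset.range p, ρ.character (x ^ b * g)
      = LinearMap.trace ℂ (Fin n → ℂ) (ρ (x ^ b) * ρ g) := by
    intro b _
    unfold Representation.character
    rw [map_mul]
  rw [Finset.sum_congr rfl e1, ← map_sum, ← Finset.sum_mul, hS, zero_mul, map_zero]
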