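import Cfsg.Statements.S1383
import Cfsg.Agent.S1448

/-!
CALL BG83 piece CASEB1 (double by helper67): the structure of a non-abelian `p`-group `P` of
rank at most 2 with `[P, K] = P` for a `p'`-group `K` of odd order, from S1448.
-/

set_option autoImplicit false

namespace Cfsg.Agent.Helper67

open Cfsg Subgroup
open scoped commutatorElement

universe u

variable {G : Type u} [Group G] [Finite G]

/-- CASEB1. (S1448 with `R = P`, `A = K`.) -/
theorem bg83_case_B_struct (p : ℕ) [Fact p.Prime] (hp2 : p ≠ 2) (P K : Subgroup G)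
    (hP : IsPGroup p P) (hr : PRankLE p 2 ↥P) (hKP : K ≤ normalizer (P : Set G))
    (hodd : Odd (Nat.card K)) (hcop : (Nat.card K).Coprime p) (hPK : ⁅P, K⁆ = P)
    (hnab : ⁅P, P⁆ ≠ ⊥) :
    Nat.card ↥⁅P, P⁆ = p ∧ IsCyclic ↥(P ⊓ centralizer (P : Set G)) ∧
      Nat.card ↥P = p ^ 2 * Nat.card ↥(P ⊓ centralizer (P : Set G)) := by
  classical
  have hpp : p.Prime := Fact.out
  have hP1 : P ≠ ⊥ := by
    rintro rfl
    apply hnab
    rw [Subgroup.commutator_eq_bot_iff_le_centralizer]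
    exact bot_le
  obtain ⟨_, hcase⟩ := Cfsg.Agent.S1448.result p hp2 P K hP hP1 hr hKP hcop hodd hPK
  rcases hcase with hab | ⟨R₁, R₂, hsup, hcomm, hR1nab, hR1card, hexp, hR2cyc, hΩ⟩
  · exfalso
    apply hnab
    rw [Subgroup.commutator_eq_bot_iff_le_centralizer]
    intro x hx
    rw [mem_centralizer_iff]
    intro y hy
    have := (hab.is_comm).comm ⟨y, hy⟩ ⟨x, hx⟩
    exact congrArg Subtype.val this
  have hR1P : R₁ ≤ P := hsup ▸ le_sup_left
  have hR2P : R₂ ≤ P := hsup ▸ le_sup_right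
  have hR2ab : ∀ a ∈ R₂, ∀ b ∈ R₂, a * b = b * a := by
    intro a ha b hb
    haveI := hR2cyc
    have := (IsCyclic.commGroup (α := ↥R₂)).mul_comm ⟨a, ha⟩ ⟨b, hb⟩
    exact congrArg Subtype.val this
  -- R₂ is central in P
  have hR2Z : R₂ ≤ P ⊓ centralizer (P : Set G) := by
    intro z hz
    refine ⟨hR2P hz, ?_⟩
    have h1 : R₁ ≤ centralizer ({z} : Set G) := by
      intro a ha
      rw [mem_centralizer_iff]
      intro y hy
      rw [Set.mem_singleton_iff.mp hy]
      exact (hcomm a ha z hz).symm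
    have h2 : R₂ ≤ centralizer ({z} : Set G) := by
      intro b hb
      rw [mem_centralizer_iff]
      intro y hy
      rw [Set.mem_singleton_iff.mp hy]
      exact hR2ab z hz b hb
    have h3 : P ≤ centralizer ({z} : Set G) := hsup ▸ sup_le h1 h2
    show z ∈ centralizer (P : Set G)
    rw [mem_centralizer_iff]
    intro y hy
    have h4 := h3 hy
    rw [mem_centralizer_iff] at h4
    exact (h4 z (Set.mem_singleton z)).symm
  -- the product map
  let ψ : ↥R₁ × ↥R₂ →* G := MonoidHom.noncommCoprod R₁.subtype R₂.subtype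
    (fun a b => hcomm a a.2 b b.2)
  have hψrange : ψ.range = P :=
    (MonoidHom.noncommCoprod_range _ _ _).trans
      (by rw [Subgroup.range_subtype, Subgroup.range_subtype, hsup])
  have hdec : ∀ g ∈ P, ∃ a ∈ R₁, ∃ b ∈ R₂, g = a * b := by
    intro g hg
    rw [← hψrange] at hg
    obtain ⟨⟨a, b⟩, rfl⟩ := hg
    exact ⟨a, a.2, b, b.2, rfl⟩
  -- D = ⁅R₁, R₁⁆
  have hD_le_R1 : ⁅R₁, R₁⁆ ≤ R₁ := by
    rw [Subgroup.commutator_le]
    intro a ha b hb
    rw [commutatorElement_def]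
    exact R₁.mul_mem (R₁.mul_mem (R₁.mul_mem ha hb) (R₁.inv_mem ha)) (R₁.inv_mem hb)
  have hD_le_R2 : ⁅R₁, R₁⁆ ≤ R₂ := by
    rw [← hΩ, closure_le]
    intro x hx
    exact hx.1
  have hD_ne : ⁅R₁, R₁⁆ ≠ ⊥ := by
    intro h
    apply hR1nab
    rw [Subgroup.commutator_eq_bot_iff_le_centralizer] at h
    refine ⟨⟨fun a b => ?_⟩⟩
    apply Subtype.ext
    have := mem_centralizer_iff.mp (h b.2) a.1 a.2
    exact this
  have hDelem : ∀ x ∈ ⁅R₁, R₁⁆, x ∈ R₂ ∧ x ^ p = 1 := by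
    intro x hx
    rw [← hΩ] at hx
    induction hx using Subgroup.closure_induction with
    | mem y hy => exact hy
    | one => exact ⟨R₂.one_mem, one_pow p⟩
    | mul a b _ _ iha ihb =>
      refine ⟨R₂.mul_mem iha.1 ihb.1, ?_⟩
      have hc : Commute a b := hR2ab a iha.1 b ihb.1
      rw [hc.mul_pow, iha.2, ihb.2, one_mul]
    | inv a _ iha => exact ⟨R₂.inv_mem iha.1, by rw [inv_pow, iha.2, inv_one]⟩
  have hDcard_le : Nat.card ↥⁅R₁, R₁⁆ ≤ p := by
    haveI := hR2cyc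
    letI := Fintype.ofFinite ↥R₂
    have h1 := IsCyclic.card_pow_eq_one_le (α := ↥R₂) hpp.pos
    have h2 : Nat.card ↥⁅R₁, R₁⁆ ≤ Nat.card {a : ↥R₂ // a ^ p = 1} := by
      apply Nat.card_le_card_of_injective (fun x : ↥⁅R₁, R₁⁆ =>
        (⟨⟨x.1, (hDelem x.1 x.2).1⟩, Subtype.ext (by
          show (x.1 : G) ^ p = 1
          exact (hDelem x.1 x.2).2)⟩ : {a : ↥R₂ // a ^ p = 1}))
      intro x y hxy
      apply Subtype.ext
      exact congrArg (fun t : {a : ↥R₂ // a ^ p = 1} => ((t.1 : ↥R₂) : G)) hxy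
    have h3 : Nat.card {a : ↥R₂ // a ^ p = 1}
        = (Finset.univ.filter (fun a : ↥R₂ => a ^ p = 1)).card := by
      rw [Nat.card_eq_fintype_card, Fintype.card_subtype]
    rw [h3] at h2
    exact h2.trans h1
  have hDcard : Nat.card ↥⁅R₁, R₁⁆ = p := by
    obtain ⟨k, hk⟩ := IsPGroup.iff_card.mp (hP.to_le (hD_le_R1.trans hR1P))
    rcases Nat.eq_zero_or_pos k with h0 | h0
    · exfalso
      apply hD_ne
      rw [h0, pow_zero] at hk
      exact Subgroup.card_eq_one.mp hk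
    · have h3 : p ^ 1 ≤ p ^ k := Nat.pow_le_pow_right hpp.pos h0
      rw [pow_one] at h3
      omega
  -- the centre of R₁ has order at most p
  have hZ1card : Nat.card ↥(R₁ ⊓ centralizer (R₁ : Set G)) ≤ p := by
    have hinj : Nat.card ↥(R₁ ⊓ centralizer (R₁ : Set G)) ≤ Nat.card (Subgroup.center ↥R₁) := by
      apply Nat.card_le_card_of_injective (fun x : ↥(R₁ ⊓ centralizer (R₁ : Set G)) =>
        (⟨⟨x.1, x.2.1⟩, by
          rw [Subgroup.mem_center_iff]
          intro g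
          apply Subtype.ext
          exact (mem_centralizer_iff.mp x.2.2) g.1 g.2⟩ : Subgroup.center ↥R₁))
      intro x y hxy
      apply Subtype.ext
      exact congrArg (fun t : Subgroup.center ↥R₁ => ((t.1 : ↥R₁) : G)) hxy
    by_contra hgt
    push Not at hgt
    have hcen : p < Nat.card (Subgroup.center ↥R₁) := lt_of_lt_of_le hgt hinj
    obtain ⟨k, hk⟩ := IsPGroup.iff_card.mp
      ((hP.to_le hR1P).to_subgroup (Subgroup.center ↥R₁))
    have hidx : (Subgroup.center ↥R₁).index * Nat.card (Subgroup.center ↥R₁) = p ^ 3 := by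
      rw [Subgroup.index_mul_card, hR1card]
    have hk2 : 2 ≤ k := by
      by_contra hlt
      have hk1 : k ≤ 1 := by omega
      have : p ^ k ≤ p ^ 1 := Nat.pow_le_pow_right hpp.pos hk1
      rw [pow_one] at this
      omega
    have hidvd : (Subgroup.center ↥R₁).index ∣ p ^ 3 := Dvd.intro _ hidx
    obtain ⟨j, hj3, hj⟩ := (Nat.dvd_prime_pow hpp).mp hidvd
    have hjk : j + k = 3 := by
      rw [hj, hk, ← pow_add] at hidx
      exact Nat.pow_right_injective hpp.two_le hidx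
    have hj1 : j = 0 ∨ j = 1 := by omega
    apply hR1nab
    haveI : IsCyclic (↥R₁ ⧸ Subgroup.center ↥R₁) := by
      rcases hj1 with h0 | h1
      · rw [h0, pow_zero] at hj
        have hc1 : Nat.card (↥R₁ ⧸ Subgroup.center ↥R₁) = 1 := hj
        haveI : Subsingleton (↥R₁ ⧸ Subgroup.center ↥R₁) :=
          (Nat.card_eq_one_iff_unique.mp hc1).1
        exact isCyclic_of_subsingleton
      · rw [h1, pow_one] at hj
        exact isCyclic_of_prime_card (p := p) hj
    exact isMulCommutative_of_isCyclic_quotient_center_self ↥R₁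
  -- T = R₁ ⊓ R₂ = Z(R₁)
  have hDT : ⁅R₁, R₁⁆ ≤ R₁ ⊓ R₂ := le_inf hD_le_R1 hD_le_R2
  have hTZ : R₁ ⊓ R₂ ≤ R₁ ⊓ centralizer (R₁ : Set G) := by
    intro x hx
    refine ⟨hx.1, ?_⟩
    show x ∈ centralizer (R₁ : Set G)
    rw [mem_centralizer_iff]
    intro y hy
    exact hcomm y hy x hx.2
  have hTcard : Nat.card ↥(R₁ ⊓ R₂) = p := by
    have h1 := Subgroup.card_le_of_le hDT
    have h2 := Subgroup.card_le_of_le hTZ
    omega
  have hZT : R₁ ⊓ centralizer (R₁ : Set G) = R₁ ⊓ R₂ :=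
    (Subgroup.eq_of_le_of_card_ge hTZ (by rw [hTcard]; exact hZ1card)).symm
  -- Z(P) = R₂
  have hZeq : P ⊓ centralizer (P : Set G) = R₂ := by
    apply le_antisymm _ hR2Z
    intro z hz
    obtain ⟨a, ha, b, hb, hzab⟩ := hdec z hz.1
    have hz2 := mem_centralizer_iff.mp hz.2
    have haZ : a ∈ R₁ ⊓ centralizer (R₁ : Set G) := by
      refine ⟨ha, ?_⟩
      show a ∈ centralizer (R₁ : Set G)
      rw [mem_centralizer_iff]
      intro y hy
      have h1 : y * z = z * y := hz2 y (hR1P hy)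
      rw [hzab] at h1
      have h2 : y * b = b * y := hcomm y hy b hb
      have h3 : y * a * b = a * y * b := by
        calc y * a * b = y * (a * b) := mul_assoc _ _ _
          _ = a * b * y := h1
          _ = a * (b * y) := mul_assoc _ _ _
          _ = a * (y * b) := by rw [h2]
          _ = a * y * b := (mul_assoc _ _ _).symm
      exact mul_right_cancel h3
    rw [hZT] at haZ
    rw [hzab]
    exact R₂.mul_mem haZ.2 hb
  -- the derived subgroup
  have hder : ⁅P, P⁆ = ⁅R₁, R₁⁆ := by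
    apply le_antisymm
    · rw [Subgroup.commutator_le]
      intro g₁ hg₁ g₂ hg₂
      obtain ⟨a₁, ha₁, b₁, hb₁, rfl⟩ := hdec g₁ hg₁
      obtain ⟨a₂, ha₂, b₂, hb₂, rfl⟩ := hdec g₂ hg₂
      have hbc : ∀ b ∈ R₂, ∀ y ∈ P, b * y * b⁻¹ = y := by
        intro b hb y hy
        have h := mem_centralizer_iff.mp (hR2Z hb).2 y hy
        rw [← h, mul_inv_cancel_right]
      have e1 : ⁅a₁ * b₁, a₂ * b₂⁆ = ⁅a₁, a₂⁆ := by
        have h1 : b₁ * (a₂ * b₂) * b₁⁻¹ = a₂ * b₂ :=
          hbc b₁ hb₁ _ (P.mul_mem (hR1P ha₂) (hR2P hb₂))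
        have h2 : b₂ * a₁⁻¹ * b₂⁻¹ = a₁⁻¹ := hbc b₂ hb₂ _ (P.inv_mem (hR1P ha₁))
        calc ⁅a₁ * b₁, a₂ * b₂⁆ = a₁ * (b₁ * (a₂ * b₂) * b₁⁻¹) * a₁⁻¹ * (a₂ * b₂)⁻¹ := by
              rw [commutatorElement_def]; group
          _ = a₁ * (a₂ * b₂) * a₁⁻¹ * (a₂ * b₂)⁻¹ := by rw [h1]
          _ = a₁ * a₂ * (b₂ * a₁⁻¹ * b₂⁻¹) * a₂⁻¹ := by group
          _ = a₁ * a₂ * a₁⁻¹ * a₂⁻¹ := by rw [h2]
          _ = ⁅a₁, a₂⁆ := (commutatorElement_def _ _).symm
      rw [e1]
      exact Subgroup.commutator_mem_commutator ha₁ ha₂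
    · exact Subgroup.commutator_mono hR1P hR1P
  -- the order of P
  have hker : Nat.card ψ.ker = p := by
    rw [← hTcard]
    apply Nat.card_congr
    exact
      { toFun := fun x => ⟨(x.1.1 : G), x.1.1.2, by
            have hx : (x.1.1 : G) * (x.1.2 : G) = 1 := MonoidHom.mem_ker.mp x.2
            have h1 : (x.1.1 : G) = (x.1.2 : G)⁻¹ := eq_inv_of_mul_eq_one_left hx
            rw [h1]
            exact R₂.inv_mem x.1.2.2⟩
        invFun := fun y => ⟨(⟨y.1, y.2.1⟩, ⟨y.1⁻¹, R₂.inv_mem y.2.2⟩), by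
            rw [MonoidHom.mem_ker]
            show (y.1 : G) * (y.1 : G)⁻¹ = 1
            exact mul_inv_cancel _⟩
        left_inv := by
          intro x
          have hx : (x.1.1 : G) * (x.1.2 : G) = 1 := MonoidHom.mem_ker.mp x.2
          apply Subtype.ext
          apply Prod.ext
          · rfl
          · apply Subtype.ext
            show (x.1.1 : G)⁻¹ = x.1.2
            exact inv_eq_of_mul_eq_one_right hx
        right_inv := fun y => rfl }
  have hPcard : Nat.card ↥P = p ^ 2 * Nat.card ↥R₂ := by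
    have h1 : Nat.card (↥R₁ × ↥R₂) = Nat.card ((↥R₁ × ↥R₂) ⧸ ψ.ker) * Nat.card ψ.ker :=
      Subgroup.card_eq_card_quotient_mul_card_subgroup ψ.ker
    have h2 : Nat.card ((↥R₁ × ↥R₂) ⧸ ψ.ker) = Nat.card ↥P := by
      rw [Nat.card_congr (QuotientGroup.quotientKerEquivRange ψ).toEquiv, hψrange]
    rw [h2, hker, Nat.card_prod, hR1card] at h1
    have h3 : p * (p ^ 2 * Nat.card ↥R₂) = p * Nat.card ↥P := by
      calc p * (p ^ 2 * Nat.card ↥R₂) = p ^ 3 * Nat.card ↥R₂ := by ring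
        _ = Nat.card ↥P * p := h1
        _ = p * Nat.card ↥P := mul_comm _ _
    exact (Nat.eq_of_mul_eq_mul_left hpp.pos h3).symm
  refine ⟨by rw [hder]; exact hDcard, ?_, ?_⟩
  · rw [hZeq]; exact hR2cyc
  · rw [hZeq]; exact hPcard

end Cfsg.Agent.Helper67
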