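import Mathlib
import Cfsg.Agent.Helper98.C2Defs

set_option autoImplicit false

/-!
Piece B2 of CALL S5634 (helper98): overgroups of the monomial group in `GL_2`.
-/

namespace Cfsg.Agent.Helper67.C2B2

open Matrix Cfsg.Agent.Helper98.C2
open scoped MatrixGroups

variable {K : Type*} [Field K]

theorem mono_two (M : Matrix (Fin 2) (Fin 2) K) (h : IsMono M) :
    (M 0 1 = 0 ∧ M 1 0 = 0) ∨ (M 0 0 = 0 ∧ M 1 1 = 0) := by
  obtain ⟨σ, hσ⟩ := h
  by_cases h0 : σ 0 = 0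
  · left
    have h1 : σ 1 = 1 := Fin.eq_one_of_ne_zero _ (fun h => by
      have := σ.injective (h.trans h0.symm)
      exact absurd this (by decide))
    exact ⟨hσ 0 1 (by rw [h1]; decide), hσ 1 0 (by rw [h0]; decide)⟩
  · right
    have h0' : σ 0 = 1 := Fin.eq_one_of_ne_zero _ h0
    have h1 : σ 1 = 0 := by
      by_contra h
      have h1' := Fin.eq_one_of_ne_zero _ h
      have := σ.injective (h1'.trans h0'.symm)
      exact absurd this (by decide)
    exact ⟨hσ 0 0 (by rw [h0']; decide), hσ 1 1 (by rw [h1]; decide)⟩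

theorem isMono_diag (x y : K) : IsMono (!![x, 0; 0, y] : Matrix (Fin 2) (Fin 2) K) := by
  refine ⟨1, ?_⟩
  intro i j hij
  fin_cases i <;> fin_cases j <;> simp at hij ⊢

theorem isMono_anti (x y : K) : IsMono (!![0, x; y, 0] : Matrix (Fin 2) (Fin 2) K) := by
  refine ⟨Equiv.swap 0 1, ?_⟩
  intro i j hij
  fin_cases i <;> fin_cases j <;> simp at hij ⊢

theorem mono_mem (X : Subgroup (GL (Fin 2) K)) (hX : MonLE X) (A : Matrix (Fin 2) (Fin 2) K)
    (hA : IsMono A) (hdet : A.det ≠ 0) : ∃ k ∈ X, k.1 = A :=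
  ⟨Matrix.GeneralLinearGroup.mkOfDetNeZero A hdet, hX _ hA, rfl⟩

theorem tv01 (c : K) : Matrix.transvection (0 : Fin 2) 1 c = !![1, c; 0, 1] := by
  ext i j
  fin_cases i <;> fin_cases j <;> simp [Matrix.transvection, Matrix.single]

theorem tv10 (c : K) : Matrix.transvection (1 : Fin 2) 0 c = !![1, 0; c, 1] := by
  ext i j
  fin_cases i <;> fin_cases j <;> simp [Matrix.transvection, Matrix.single]

theorem gl_eta (g : GL (Fin 2) K) :
    g.1 = !![g.1 0 0, g.1 0 1; g.1 1 0, g.1 1 1] ∧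
      g.1 0 0 * g.1 1 1 - g.1 0 1 * g.1 1 0 ≠ 0 := by
  refine ⟨Matrix.eta_fin_two g.1, ?_⟩
  have h := (Matrix.isUnits_det_units g).ne_zero
  rw [Matrix.det_fin_two] at h
  exact h

/-- A non-monomial element with a zero entry gives a transvection. -/
theorem tv_of_zero (X : Subgroup (GL (Fin 2) K)) (hX : MonLE X) (g : GL (Fin 2) K) (hg : g ∈ X)
    (hn : ¬ IsMono g.1) (hz : g.1 0 0 = 0 ∨ g.1 0 1 = 0 ∨ g.1 1 0 = 0 ∨ g.1 1 1 = 0) :
    HasTv X := by
  obtain ⟨hgm, hdet⟩ := gl_eta g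
  obtain ⟨a, ha⟩ : ∃ a, a = g.1 0 0 := ⟨_, rfl⟩
  obtain ⟨b, hb⟩ : ∃ b, b = g.1 0 1 := ⟨_, rfl⟩
  obtain ⟨c, hc⟩ : ∃ c, c = g.1 1 0 := ⟨_, rfl⟩
  obtain ⟨d, hd⟩ : ∃ d, d = g.1 1 1 := ⟨_, rfl⟩
  rw [← ha, ← hb, ← hc, ← hd] at hgm hdet hz
  have hnm1 : ¬ (b = 0 ∧ c = 0) := by
    rintro ⟨h1, h2⟩
    apply hn
    rw [hgm, h1, h2]
    exact isMono_diag a d
  have hnm2 : ¬ (a = 0 ∧ d = 0) := by
    rintro ⟨h1, h2⟩
    apply hn
    rw [hgm, h1, h2]
    exact isMono_anti b c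
  by_cases had : a = 0 ∨ d = 0
  · -- anti-diagonal normalisation
    have hb0 : b ≠ 0 := by
      rintro rfl
      rcases had with h | h <;> simp [h] at hdet
    have hc0 : c ≠ 0 := by
      rintro rfl
      rcases had with h | h <;> simp [h] at hdet
    obtain ⟨w, hwX, hw⟩ := mono_mem X hX (!![0, c⁻¹; b⁻¹, 0]) (isMono_anti _ _)
      (by rw [Matrix.det_fin_two_of]; simp [hb0, hc0])
    have hprod : (g * w).1 = !![1, a * c⁻¹; d * b⁻¹, 1] := by
      rw [Units.val_mul, hgm, hw, Matrix.mul_fin_two]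
      simp [hb0, hc0]
    rcases had with h | h
    · have hd0 : d ≠ 0 := fun h' => hnm2 ⟨h, h'⟩
      refine ⟨g * w, X.mul_mem hg hwX, 1, 0, by decide, d * b⁻¹,
        mul_ne_zero hd0 (inv_ne_zero hb0), ?_⟩
      rw [hprod, tv10, h, zero_mul]
    · have ha0 : a ≠ 0 := fun h' => hnm2 ⟨h', h⟩
      refine ⟨g * w, X.mul_mem hg hwX, 0, 1, by decide, a * c⁻¹,
        mul_ne_zero ha0 (inv_ne_zero hc0), ?_⟩
      rw [hprod, tv01, h, zero_mul]
  · push Not at had
    obtain ⟨ha0, hd0⟩ := had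
    have hbc : b = 0 ∨ c = 0 := by
      rcases hz with h | h | h | h
      · exact absurd h ha0
      · exact Or.inl h
      · exact Or.inr h
      · exact absurd h hd0
    obtain ⟨w, hwX, hw⟩ := mono_mem X hX (!![a⁻¹, 0; 0, d⁻¹]) (isMono_diag _ _)
      (by rw [Matrix.det_fin_two_of]; simp [ha0, hd0])
    have hprod : (g * w).1 = !![1, b * d⁻¹; c * a⁻¹, 1] := by
      rw [Units.val_mul, hgm, hw, Matrix.mul_fin_two]
      simp [ha0, hd0]
    rcases hbc with h | h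
    · have hc0 : c ≠ 0 := fun h' => hnm1 ⟨h, h'⟩
      refine ⟨g * w, X.mul_mem hg hwX, 1, 0, by decide, c * a⁻¹,
        mul_ne_zero hc0 (inv_ne_zero ha0), ?_⟩
      rw [hprod, tv10, h, zero_mul]
    · have hb0 : b ≠ 0 := fun h' => hnm1 ⟨h', h⟩
      refine ⟨g * w, X.mul_mem hg hwX, 0, 1, by decide, b * d⁻¹,
        mul_ne_zero hb0 (inv_ne_zero hd0), ?_⟩
      rw [hprod, tv01, h, zero_mul]

/-- Normalisation of a dense element. -/
theorem normalise (X : Subgroup (GL (Fin 2) K)) (hX : MonLE X) (g : GL (Fin 2) K) (hg : g ∈ X)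
    (h00 : g.1 0 0 ≠ 0) (h01 : g.1 0 1 ≠ 0) (h10 : g.1 1 0 ≠ 0) :
    ∃ k ∈ X, ∃ t : K, k.1 = !![1, 1; 1, t] ∧ t ≠ 1 ∧
      t * (g.1 0 1 * g.1 1 0) = g.1 0 0 * g.1 1 1 := by
  obtain ⟨hgm, hdet⟩ := gl_eta g
  obtain ⟨a, ha⟩ : ∃ a, a = g.1 0 0 := ⟨_, rfl⟩
  obtain ⟨b, hb⟩ : ∃ b, b = g.1 0 1 := ⟨_, rfl⟩
  obtain ⟨c, hc⟩ : ∃ c, c = g.1 1 0 := ⟨_, rfl⟩
  obtain ⟨d, hd⟩ : ∃ d, d = g.1 1 1 := ⟨_, rfl⟩
  rw [← ha, ← hb, ← hc, ← hd] at hgm hdet
  rw [← ha] at h00
  rw [← hb] at h01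
  rw [← hc] at h10
  rw [← ha, ← hb, ← hc, ← hd]
  obtain ⟨w1, hw1X, hw1⟩ := mono_mem X hX (!![a⁻¹, 0; 0, c⁻¹]) (isMono_diag _ _)
    (by rw [Matrix.det_fin_two_of]; simp [h00, h10])
  obtain ⟨w2, hw2X, hw2⟩ := mono_mem X hX (!![1, 0; 0, a * b⁻¹]) (isMono_diag _ _)
    (by rw [Matrix.det_fin_two_of]; simp [h00, h01])
  refine ⟨w1 * g * w2, X.mul_mem (X.mul_mem hw1X hg) hw2X, a * d * (b * c)⁻¹, ?_, ?_, ?_⟩
  · rw [Units.val_mul, Units.val_mul, hgm, hw1, hw2, Matrix.mul_fin_two, Matrix.mul_fin_two]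
    have e1 : a⁻¹ * a = 1 := inv_mul_cancel₀ h00
    have e2 : c⁻¹ * c = 1 := inv_mul_cancel₀ h10
    have e3 : a⁻¹ * b * (a * b⁻¹) = 1 := by field_simp
    have e4 : c⁻¹ * d * (a * b⁻¹) = a * d * (b * c)⁻¹ := by field_simp
    ext i j
    fin_cases i <;> fin_cases j <;> simp [e1, e2, e3, e4]
  · intro h
    apply hdet
    have h2 : a * d = b * c := by
      field_simp at h
      exact h
    rw [h2, sub_self]
  · field_simp

/-- From `[[1, 1], [1, t]]` with `t ≠ ±1` one gets a transvection. -/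
theorem tv_of_normal (X : Subgroup (GL (Fin 2) K)) (hX : MonLE X) (k : GL (Fin 2) K) (hk : k ∈ X)
    (t : K) (hkm : k.1 = !![1, 1; 1, t]) (ht1 : t ≠ 1) (ht2 : t ≠ -1) : HasTv X := by
  obtain ⟨w, hwX, hw⟩ := mono_mem X hX (!![1, 0; 0, -1]) (isMono_diag _ _)
    (by rw [Matrix.det_fin_two_of]; simp)
  have hprod : (k * w * k).1 = !![0, 1 - t; 1 - t, 1 - t * t] := by
    rw [Units.val_mul, Units.val_mul, hkm, hw, Matrix.mul_fin_two, Matrix.mul_fin_two]
    ext i j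
    fin_cases i <;> fin_cases j <;> (try simp) <;> (try ring)
  have hne : (1 : K) - t ≠ 0 := sub_ne_zero.mpr (Ne.symm ht1)
  have hne2 : (1 : K) - t * t ≠ 0 := by
    intro h
    have h3 : (1 - t) * (1 + t) = 0 := by rw [← h]; ring
    rcases mul_eq_zero.mp h3 with h4 | h4
    · exact hne h4
    · exact ht2 (by linear_combination h4)
  apply tv_of_zero X hX (k * w * k) (X.mul_mem (X.mul_mem hk hwX) hk)
  · intro hm
    rcases mono_two _ hm with ⟨h1, -⟩ | ⟨-, h1⟩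
    · rw [hprod] at h1
      simp at h1
      exact hne h1
    · rw [hprod] at h1
      simp at h1
      exact hne2 h1
  · left
    rw [hprod]
    simp

/-- PIECE B2 (1) -/
theorem b2_five [Fintype K] (hq : 5 ≤ Fintype.card K)
    (X : Subgroup (GL (Fin 2) K)) (hX : MonLE X)
    (g0 : GL (Fin 2) K) (hg0 : g0 ∈ X) (hn : ¬ IsMono g0.1) :
    HasTv X ∨ ∃ g ∈ X, g.1 = !![1, 1; 1, -1] := by
  by_cases hz : g0.1 0 0 = 0 ∨ g0.1 0 1 = 0 ∨ g0.1 1 0 = 0 ∨ g0.1 1 1 = 0
  · exact Or.inl (tv_of_zero X hX g0 hg0 hn hz)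
  · push Not at hz
    obtain ⟨k, hkX, t, hkm, ht1, -⟩ := normalise X hX g0 hg0 hz.1 hz.2.1 hz.2.2.1
    by_cases ht2 : t = -1
    · right
      exact ⟨k, hkX, by rw [hkm, ht2]⟩
    · exact Or.inl (tv_of_normal X hX k hkX t hkm ht1 ht2)

/-- PIECE B2 (2) -/
theorem b2_seven [Fintype K] (hq : 7 ≤ Fintype.card K)
    (X : Subgroup (GL (Fin 2) K)) (hX : MonLE X)
    (g0 : GL (Fin 2) K) (hg0 : g0 ∈ X) (hn : ¬ IsMono g0.1) : HasTv X := by
  classical
  rcases b2_five (by omega) X hX g0 hg0 hn with h | ⟨g, hgX, hgm⟩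
  · exact h
  · -- characteristic not two
    have h2 : (2 : K) ≠ 0 := by
      have hdet := (gl_eta g).2
      rw [hgm] at hdet
      simp at hdet
      intro h
      apply hdet
      linear_combination (-1 : K) * h
    -- choose the parameter
    obtain ⟨i, hi⟩ : ∃ i : K, ∀ x : K, x * x = -1 → x = i ∨ x = -i := by
      by_cases hex : ∃ i : K, i * i = -1
      · obtain ⟨i, hi⟩ := hex
        refine ⟨i, fun x hx => ?_⟩
        have h3 : (x - i) * (x + i) = 0 := by linear_combination hx - hi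
        rcases mul_eq_zero.mp h3 with h4 | h4
        · exact Or.inl (sub_eq_zero.mp h4)
        · exact Or.inr (by linear_combination h4)
      · push Not at hex
        exact ⟨0, fun x hx => absurd hx (hex x)⟩
    obtain ⟨lam, hlam⟩ : ∃ lam : K, lam ∉ ({0, 1, -1, i, -i} : Finset K) := by
      by_contra hcon
      push Not at hcon
      have hsub : (Finset.univ : Finset K) ⊆ ({0, 1, -1, i, -i} : Finset K) := fun x _ => hcon x
      have hle := Finset.card_le_card hsub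
      have h5 : ({0, 1, -1, i, -i} : Finset K).card ≤ 5 := Finset.card_le_five
      rw [Finset.card_univ] at hle
      omega
    simp only [Finset.mem_insert, Finset.mem_singleton, not_or] at hlam
    obtain ⟨hl0, hl1, hlm1, hli, hlmi⟩ := hlam
    have hlsq : lam * lam ≠ -1 := by
      intro h
      rcases hi lam h with h' | h'
      · exact hli h'
      · exact hlmi h'
    obtain ⟨w, hwX, hw⟩ := mono_mem X hX (!![1, 0; 0, lam]) (isMono_diag _ _)
      (by rw [Matrix.det_fin_two_of]; simp [hl0])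
    have hprod : (g * w * g).1 = !![1 + lam, 1 - lam; 1 - lam, 1 + lam] := by
      rw [Units.val_mul, Units.val_mul, hgm, hw, Matrix.mul_fin_two, Matrix.mul_fin_two]
      ext i j
      fin_cases i <;> fin_cases j <;> (try simp) <;> (try ring)
    have hkX : g * w * g ∈ X := X.mul_mem (X.mul_mem hgX hwX) hgX
    have e00 : (g * w * g).1 0 0 = 1 + lam := by rw [hprod]; simp
    have e01 : (g * w * g).1 0 1 = 1 - lam := by rw [hprod]; simp
    have e10 : (g * w * g).1 1 0 = 1 - lam := by rw [hprod]; simp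
    have e11 : (g * w * g).1 1 1 = 1 + lam := by rw [hprod]; simp
    have hp : (1 : K) + lam ≠ 0 := fun h => hlm1 (by linear_combination h)
    have hm : (1 : K) - lam ≠ 0 := fun h => hl1 (by linear_combination (-1 : K) * h)
    obtain ⟨k, hk, t, hkm, ht1, hteq⟩ := normalise X hX (g * w * g) hkX
      (by rw [e00]; exact hp) (by rw [e01]; exact hm) (by rw [e10]; exact hm)
    rw [e00, e01, e10, e11] at hteq
    apply tv_of_normal X hX k hk t hkm ht1
    intro ht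
    rw [ht] at hteq
    apply hlsq
    have h4 : (2 : K) * (lam * lam + 1) = 0 := by linear_combination (-1 : K) * hteq
    rcases mul_eq_zero.mp h4 with h5 | h5
    · exact absurd h5 h2
    · linear_combination h5

end Cfsg.Agent.Helper67.C2B2
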