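import Mathlib

set_option autoImplicit false

namespace Cfsg.Agent.Helper67

theorem exists_cubic_frobenius (K : Type*) [Field K] [Fintype K] :
    ∃ (L : Type) (_ : Field L) (_ : Fintype L) (ι : K →+* L) (σ : L →+* L),
      Fintype.card L = Fintype.card K ^ 3 ∧
      (∀ x : L, σ x = x ^ Fintype.card K) ∧
      (∀ x : L, σ x = x → ∃ y : K, ι y = x) ∧
      (∀ y : K, σ (ι y) = ι y) ∧
      (∀ x : L, σ (σ (σ x)) = x) ∧
      (∃ θ : L, σ θ ≠ θ ∧ σ (σ θ) ≠ θ ∧ σ (σ θ) ≠ σ θ) ∧
      (∃ ζ : Lˣ, orderOf ζ = Fintype.card K ^ 2 + Fintype.card K + 1) := by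
  classical
  have hcp : CharP K (ringChar K) := ringChar.charP K
  have hp : Fact (ringChar K).Prime := ⟨CharP.char_is_prime K (ringChar K)⟩
  have hne : NeZero 3 := ⟨by norm_num⟩
  let L : Type := FiniteField.Extension K (ringChar K) 3
  let _ : Fintype L := Fintype.ofFinite L
  let fr : L ≃ₐ[K] L := FiniteField.Extension.frob K (ringChar K) 3
  have hfr : ∀ x : L, fr x = x ^ Fintype.card K := by
    intro x
    have := FiniteField.Extension.frob_apply (k := K) (p := ringChar K) (n := 3) (x := x)
    rw [Nat.card_eq_fintype_card] at this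
    exact this
  have hcard : Fintype.card L = Fintype.card K ^ 3 := by
    rw [Fintype.card_eq_nat_card, FiniteField.natCard_extension, Nat.card_eq_fintype_card]
  have hq2 : 2 ≤ Fintype.card K := Fintype.one_lt_card
  have hfix : ∀ x : L, fr x = x → ∃ y : K, algebraMap K L y = x := by
    intro x hx
    have hmem : x ∈ Set.range (algebraMap K L) := by
      rw [IsGalois.mem_range_algebraMap_iff_fixed]
      intro g
      obtain ⟨i, -, rfl⟩ := FiniteField.Extension.exists_frob_pow_eq K (ringChar K) 3 g
      induction i with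
      | zero => simp
      | succ i ih =>
        rw [pow_succ, AlgEquiv.mul_apply]
        change (FiniteField.Extension.frob K (ringChar K) 3 ^ i) (fr x) = x
        rw [hx]; exact ih
    exact hmem
  have hcube : ∀ x : L, fr (fr (fr x)) = x := by
    intro x
    rw [hfr, hfr, hfr, ← pow_mul, ← pow_mul]
    have h3 : Fintype.card K * (Fintype.card K * Fintype.card K) = Fintype.card L := by
      rw [hcard]; ring
    rw [h3]
    exact FiniteField.pow_card x
  refine ⟨L, inferInstance, inferInstance, algebraMap K L, (fr : L →+* L), hcard, hfr, hfix,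
    fun y => fr.commutes y, hcube, ?_, ?_⟩
  · -- an element outside the image of K
    have hns : ¬ Function.Surjective (algebraMap K L) := by
      intro hs
      have h1 := Fintype.card_le_of_surjective _ hs
      rw [hcard] at h1
      have : Fintype.card K ^ 1 < Fintype.card K ^ 3 :=
        Nat.pow_lt_pow_right (by omega) (by norm_num)
      rw [pow_one] at this
      omega
    have : ∃ θ : L, ∀ y : K, algebraMap K L y ≠ θ := by
      by_contra hcon
      apply hns
      intro θ
      by_contra h2
      exact hcon ⟨θ, fun y hy => h2 ⟨y, hy⟩⟩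
    obtain ⟨θ, hθ⟩ := this
    have h1 : fr θ ≠ θ := by
      intro h
      obtain ⟨y, hy⟩ := hfix θ h
      exact hθ y hy
    refine ⟨θ, h1, ?_, ?_⟩
    · intro h
      apply h1
      have h3 := hcube θ
      change fr (fr θ) = θ at h
      rw [h] at h3
      exact h3
    · intro h
      exact h1 (fr.injective h)
  · -- element of order q^2+q+1 in the cyclic unit group
    obtain ⟨g, hg⟩ := IsCyclic.exists_generator (α := Lˣ)
    have hog : orderOf g = Fintype.card K ^ 3 - 1 := by
      rw [orderOf_eq_card_of_forall_mem_zpowers hg, Nat.card_eq_fintype_card, Fintype.card_units,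
        hcard]
    have hfac : Fintype.card K ^ 3 - 1
        = (Fintype.card K - 1) * (Fintype.card K ^ 2 + Fintype.card K + 1) := by
      obtain ⟨m, hm⟩ : ∃ m, Fintype.card K = m + 1 := ⟨Fintype.card K - 1, by omega⟩
      rw [hm]
      have : (m + 1) ^ 3 = m * ((m + 1) ^ 2 + (m + 1) + 1) + 1 := by ring
      rw [this]
      simp
    refine ⟨g ^ (Fintype.card K - 1), ?_⟩
    rw [orderOf_pow_of_dvd (by omega) (by rw [hog, hfac]; exact dvd_mul_right _ _), hog, hfac]
    exact Nat.mul_div_cancel_left _ (by omega)

end Cfsg.Agent.Helper67
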