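import Mathlib

/-!
# CALL S4429 piece ARFA: pattern A of the principal 11-block gives the ten degrees
-/

set_option autoImplicit false

universe u

namespace Cfsg.Agent.Helper67

/-- the degrees outside the block: multiples of `11` dividing `7920` with square at most `5082` -/
theorem d7920_deg_cases (n : ℕ) (h11 : 11 ∣ n) (hdvd : n ∣ 7920) (hle : n ^ 2 ≤ 7381) :
    n = 11 ∨ n = 22 ∨ n = 33 ∨ n = 44 ∨ n = 55 ∨ n = 66 := by
  obtain ⟨k, rfl⟩ := h11
  have hk0 : k ≠ 0 := by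
    rintro rfl
    simp at hdvd
  have hk : k ≤ 7 := by
    by_contra hk
    have h8 : 8 ≤ k := by omega
    have : (11 * 8) ^ 2 ≤ (11 * k) ^ 2 := Nat.pow_le_pow_left (Nat.mul_le_mul_left 11 h8) 2
    omega
  interval_cases k <;> omega

/-- common bookkeeping for the two patterns: the complement of the list -/
theorem d7920_compl {I : Type*} [Fintype I] [DecidableEq I] (d : I → ℕ)
    (hdvd : ∀ χ, d χ ∣ 7920) (hsq : ∑ χ, d χ ^ 2 = 7920)
    (h5 : (Finset.univ.filter (fun χ => ¬ 5 ∣ d χ)).card = 5)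
    (l : List I) (hl : l.Nodup) (hout : ∀ χ, χ ∉ l → 11 ∣ d χ)
    (pat : List ℕ) (hpat : l.map d = pat) (S : ℕ) (hS : (pat.map (fun n => n ^ 2)).sum = S)
    (hS' : 539 ≤ S)
    (h3 : (pat.map (fun n => if ¬ 5 ∣ n then 1 else 0)).sum = 3) :
    ∃ (u v : I) (k : ℕ), u ≠ v ∧ u ∉ l ∧ v ∉ l ∧
      (d u = 11 ∨ d u = 22 ∨ d u = 33 ∨ d u = 44 ∨ d u = 66) ∧
      (d v = 11 ∨ d v = 22 ∨ d v = 33 ∨ d v = 44 ∨ d v = 66) ∧
      d u ^ 2 + d v ^ 2 + 3025 * k + S = 7920 ∧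
      (0 < k → ∃ w, w ∉ l ∧ d w = 55) := by
  classical
  have hsumS : ∑ χ ∈ l.toFinset, d χ ^ 2 = S := by
    rw [List.sum_toFinset _ hl]
    have h1 : l.map (fun χ => d χ ^ 2) = (l.map d).map (fun n => n ^ 2) := by
      rw [List.map_map]; rfl
    rw [h1, hpat, hS]
  have hcardS : (l.toFinset.filter (fun χ => ¬ 5 ∣ d χ)).card = 3 := by
    rw [Finset.card_filter, List.sum_toFinset _ hl]
    have h1 : l.map (fun χ => if ¬ 5 ∣ d χ then 1 else 0)
        = (l.map d).map (fun n => if ¬ 5 ∣ n then 1 else 0) := by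
      rw [List.map_map]; rfl
    rw [h1, hpat, h3]
  have hsumR : ∑ χ ∈ l.toFinsetᶜ, d χ ^ 2 + S = 7920 := by
    have h1 := Finset.sum_add_sum_compl l.toFinset (fun χ => d χ ^ 2)
    rw [hsumS, hsq] at h1
    omega
  have hcardR : (l.toFinsetᶜ.filter (fun χ => ¬ 5 ∣ d χ)).card = 2 := by
    have h1 := Finset.sum_add_sum_compl l.toFinset (fun χ => if ¬ 5 ∣ d χ then 1 else 0)
    rw [← Finset.card_filter, ← Finset.card_filter, ← Finset.card_filter, hcardS, h5] at h1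
    omega
  have hnotmem : ∀ χ, χ ∈ l.toFinsetᶜ → χ ∉ l := by
    intro χ hχ
    rw [Finset.mem_compl, List.mem_toFinset] at hχ
    exact hχ
  have hdeg : ∀ χ, χ ∈ l.toFinsetᶜ →
      d χ = 11 ∨ d χ = 22 ∨ d χ = 33 ∨ d χ = 44 ∨ d χ = 55 ∨ d χ = 66 := by
    intro χ hχ
    apply d7920_deg_cases _ (hout χ (hnotmem χ hχ)) (hdvd χ)
    have h1 : d χ ^ 2 ≤ ∑ χ ∈ l.toFinsetᶜ, d χ ^ 2 :=
      Finset.single_le_sum (f := fun χ => d χ ^ 2) (fun _ _ => Nat.zero_le _) hχ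
    omega
  obtain ⟨u, v, huv, hR5⟩ := Finset.card_eq_two.mp hcardR
  have hu : u ∈ l.toFinsetᶜ.filter (fun χ => ¬ 5 ∣ d χ) := by
    rw [hR5]; exact Finset.mem_insert_self u _
  have hv : v ∈ l.toFinsetᶜ.filter (fun χ => ¬ 5 ∣ d χ) := by
    rw [hR5]; exact Finset.mem_insert_of_mem (Finset.mem_singleton_self v)
  rw [Finset.mem_filter] at hu hv
  have hsplit := Finset.sum_filter_add_sum_filter_not l.toFinsetᶜ (fun χ => 5 ∣ d χ)
    (fun χ => d χ ^ 2)
  rw [hR5, Finset.sum_pair huv] at hsplit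
  have h55 : ∀ χ ∈ l.toFinsetᶜ.filter (fun χ => 5 ∣ d χ), d χ ^ 2 = 3025 := by
    intro χ hχ
    rw [Finset.mem_filter] at hχ
    rcases hdeg χ hχ.1 with h | h | h | h | h | h
    · rw [h] at hχ; omega
    · rw [h] at hχ; omega
    · rw [h] at hχ; omega
    · rw [h] at hχ; omega
    · rw [h]; norm_num
    · rw [h] at hχ; omega
  rw [Finset.sum_congr rfl h55, Finset.sum_const, smul_eq_mul] at hsplit
  refine ⟨u, v, (l.toFinsetᶜ.filter (fun χ => 5 ∣ d χ)).card, huv, hnotmem u hu.1,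
    hnotmem v hv.1, ?_, ?_, ?_, ?_⟩
  · rcases hdeg u hu.1 with h | h | h | h | h | h
    · exact Or.inl h
    · exact Or.inr (Or.inl h)
    · exact Or.inr (Or.inr (Or.inl h))
    · exact Or.inr (Or.inr (Or.inr (Or.inl h)))
    · exfalso; apply hu.2; rw [h]; decide
    · exact Or.inr (Or.inr (Or.inr (Or.inr h)))
  · rcases hdeg v hv.1 with h | h | h | h | h | h
    · exact Or.inl h
    · exact Or.inr (Or.inl h)
    · exact Or.inr (Or.inr (Or.inl h))
    · exact Or.inr (Or.inr (Or.inr (Or.inl h)))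
    · exfalso; apply hv.2; rw [h]; decide
    · exact Or.inr (Or.inr (Or.inr (Or.inr h)))
  · omega
  · intro hk
    obtain ⟨w, hw⟩ := Finset.card_pos.mp hk
    have hw' := hw
    rw [Finset.mem_filter] at hw'
    refine ⟨w, hnotmem w hw'.1, ?_⟩
    have h1 := h55 w hw
    have h2 : d w ^ 2 = 55 ^ 2 := by rw [h1]; norm_num
    exact Nat.pow_left_injective (by norm_num : (2 : ℕ) ≠ 0) h2

-- PIECE ARFA: pattern A gives the ten degrees
theorem o7920_final_A {I : Type*} [Fintype I] [DecidableEq I] (d : I → ℕ)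
    (hdvd : ∀ χ, d χ ∣ 7920) (hsq : ∑ χ, d χ ^ 2 = 7920)
    (h5 : (Finset.univ.filter (fun χ => ¬ 5 ∣ d χ)).card = 5)
    (l : List I) (hl : l.Nodup) (hout : ∀ χ, χ ∉ l → 11 ∣ d χ)
    (hpat : l.map d = [1, 45, 10, 10, 10, 16, 16]) :
    ∃ l' : List I, l'.Nodup ∧ l'.map d = [11, 44, 55, 1, 45, 10, 10, 10, 16, 16] := by
  have key : ∀ u v w : I, u ∉ l → v ∉ l → w ∉ l → d u = 11 → d v = 44 → d w = 55 →
      ∃ l' : List I, l'.Nodup ∧ l'.map d = [11, 44, 55, 1, 45, 10, 10, 10, 16, 16] := by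
    intro u v w hu hv hw hdu hdv hdw
    refine ⟨u :: v :: w :: l, ?_, ?_⟩
    · have huv : u ≠ v := by rintro rfl; omega
      have huw : u ≠ w := by rintro rfl; omega
      have hvw : v ≠ w := by rintro rfl; omega
      simp [List.nodup_cons, hl, hu, hv, hw, huv, huw, hvw]
    · simp [List.map_cons, hdu, hdv, hdw, hpat]
  obtain ⟨u, v, k, huv, hu, hv, hdu, hdv, hsum, hw⟩ :=
    d7920_compl d hdvd hsq h5 l hl hout _ hpat 2838 (by decide) (by norm_num) (by decide)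
  rcases hdu with h | h | h | h | h <;> rcases hdv with h' | h' | h' | h' | h' <;>
    rw [h, h'] at hsum <;> first
    | omega
    | (obtain ⟨w, hw1, hw2⟩ := hw (by omega)
       first
        | exact key u v w hu hv hw1 h h' hw2
        | exact key v u w hv hu hw1 h' h hw2)

end Cfsg.Agent.Helper67
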