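import Mathlib
import Cfsg.Agent.Helper79.FrobSchur

/-!
# Trace calculus in the complex group algebra

For `a b : MonoidAlgebra ℂ G` the operator `x ↦ a * x * b` has trace
`faTr a b = ∑ x g, a g * b (x⁻¹ g⁻¹ x)`.  For an idempotent `f` the function
`faPhi f g = ∑ y, f (y⁻¹ g⁻¹ y)` is the character of the left ideal `ℂG f`.
-/

namespace Cfsg.Agent.Helper67

open Cfsg Cfsg.Agent

section FrobAlg

variable {G : Type*} [Group G] [Fintype G]

theorem fa_coeff_mul (x y : MonoidAlgebra ℂ G) (g : G) :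
    (x * y).coeff g = ∑ h, x.coeff h * y.coeff (h⁻¹ * g) := by
  rw [MonoidAlgebra.coeff_mul_apply_left, Finsupp.sum_fintype]
  simp

/-- The trace of `x ↦ a * x * b`, as an explicit sum. -/
noncomputable def faTr (a b : MonoidAlgebra ℂ G) : ℂ :=
  ∑ x : G, ∑ g : G, a.coeff g * b.coeff (x⁻¹ * (g⁻¹ * x))

/-- The operator `x ↦ a * x * b`. -/
noncomputable def faLam (a b : MonoidAlgebra ℂ G) :
    MonoidAlgebra ℂ G →ₗ[ℂ] MonoidAlgebra ℂ G :=
  LinearMap.mulLeft ℂ a ∘ₗ LinearMap.mulRight ℂ b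

theorem faLam_apply (a b x : MonoidAlgebra ℂ G) : faLam a b x = a * (x * b) := rfl

theorem fa_trace_lam (a b : MonoidAlgebra ℂ G) :
    LinearMap.trace ℂ (MonoidAlgebra ℂ G) (faLam a b) = faTr a b := by
  classical
  rw [LinearMap.trace_eq_matrix_trace ℂ (MonoidAlgebra.basis G ℂ), Matrix.trace]
  unfold faTr
  refine Finset.sum_congr rfl fun x _ => ?_
  rw [Matrix.diag_apply, LinearMap.toMatrix_apply, MonoidAlgebra.basis_apply, faLam_apply]
  show (a * (MonoidAlgebra.single x 1 * b)).coeff x = _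
  rw [fa_coeff_mul]
  refine Finset.sum_congr rfl fun g _ => ?_
  rw [MonoidAlgebra.coeff_single_mul_apply, one_mul]

/-- The class function attached to an element of the group algebra. -/
noncomputable def faPhi (f : MonoidAlgebra ℂ G) (g : G) : ℂ :=
  ∑ y : G, f.coeff (y⁻¹ * (g⁻¹ * y))

theorem fa_phi_eq_tr (f : MonoidAlgebra ℂ G) (g : G) :
    faPhi f g = faTr (MonoidAlgebra.single g 1) f := by
  classical
  unfold faPhi faTr
  refine Finset.sum_congr rfl fun x _ => ?_
  rw [Finset.sum_eq_single g]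
  · simp
  · intro h _ hne
    simp [hne.symm]
  · intro h; exact absurd (Finset.mem_univ g) h

theorem fa_sum_phi (f : MonoidAlgebra ℂ G) :
    ∑ g, faPhi f g = (Fintype.card G : ℂ) * ∑ h, f.coeff h := by
  unfold faPhi
  rw [Finset.sum_comm]
  have h1 : ∀ y : G, ∑ g : G, f.coeff (y⁻¹ * (g⁻¹ * y)) = ∑ h, f.coeff h := by
    intro y
    exact Fintype.sum_equiv
      ((Equiv.inv G).trans ((Equiv.mulRight y).trans (Equiv.mulLeft y⁻¹))) _ _
      (fun g => by simp)
  simp [h1]

theorem fa_sum_phi_sq (f : MonoidAlgebra ℂ G) :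
    ∑ g, faPhi f g * faPhi f g⁻¹ = (Fintype.card G : ℂ) * faTr f f := by
  unfold faPhi faTr
  simp only [inv_inv]
  calc ∑ g, (∑ y, f.coeff (y⁻¹ * (g⁻¹ * y))) * (∑ z, f.coeff (z⁻¹ * (g * z)))
      = ∑ y, ∑ g, ∑ z, f.coeff (y⁻¹ * (g⁻¹ * y)) * f.coeff (z⁻¹ * (g * z)) := by
        simp only [Finset.sum_mul_sum]
        rw [Finset.sum_comm]
    _ = ∑ y : G, ∑ a : G, ∑ x : G, f.coeff a * f.coeff (x⁻¹ * (a⁻¹ * x)) := by
        refine Finset.sum_congr rfl fun y _ => ?_
        rw [← Equiv.sum_comp ((Equiv.inv G).trans ((Equiv.mulLeft y).trans (Equiv.mulRight y⁻¹)))]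
        refine Finset.sum_congr rfl fun a _ => ?_
        rw [← Equiv.sum_comp (Equiv.mulLeft y)]
        refine Finset.sum_congr rfl fun x _ => ?_
        congr 2
        · simp [mul_assoc]
        · simp [mul_assoc]
    _ = (Fintype.card G : ℂ) * ∑ x : G, ∑ g : G, f.coeff g * f.coeff (x⁻¹ * (g⁻¹ * x)) := by
        rw [Finset.sum_const, Finset.card_univ, nsmul_eq_mul]
        congr 1
        exact Finset.sum_comm

theorem fa_lam_idem {a b : MonoidAlgebra ℂ G} (ha : a * a = a) (hb : b * b = b) :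
    IsIdempotentElem (faLam a b) := by
  apply LinearMap.ext
  intro x
  show faLam a b (faLam a b x) = faLam a b x
  simp only [faLam_apply]
  calc a * (a * (x * b) * b) = (a * a) * (x * (b * b)) := by simp only [mul_assoc]
    _ = a * (x * b) := by rw [ha, hb]

theorem fa_tr_idem {a b : MonoidAlgebra ℂ G} (ha : a * a = a) (hb : b * b = b) :
    faTr a b = (Module.finrank ℂ (LinearMap.range (faLam a b)) : ℂ) := by
  rw [← fa_trace_lam]
  exact ((LinearMap.isProj_range_iff_isIdempotentElem _).mpr (fa_lam_idem ha hb)).trace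

theorem fa_finrank_le {f eQ eR : MonoidAlgebra ℂ G} (hf : f * f = f) (hQf : eQ * f = f)
    (hinj : ∀ x : MonoidAlgebra ℂ G, x * f = x → x * eR = 0 → x = 0) :
    Module.finrank ℂ (LinearMap.range (faLam f f)) ≤
      Module.finrank ℂ (LinearMap.range (faLam eQ eR)) := by
  have hmap : ∀ x ∈ LinearMap.range (faLam f f),
      (LinearMap.mulRight ℂ eR) x ∈ LinearMap.range (faLam eQ eR) := by
    rintro _ ⟨y, rfl⟩
    refine ⟨f * (y * f), ?_⟩
    simp only [faLam_apply, LinearMap.mulRight_apply]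
    rw [← mul_assoc eQ, ← mul_assoc eQ, hQf]
  apply LinearMap.finrank_le_finrank_of_injective
    (f := (LinearMap.mulRight ℂ eR).restrict hmap)
  rw [injective_iff_map_eq_zero]
  rintro ⟨x, y, rfl⟩ hx
  have hx' : faLam f f y * eR = 0 := by
    have := congrArg Subtype.val hx
    simpa using this
  have h0 : faLam f f y = 0 :=
    hinj _ (by simp only [faLam_apply, mul_assoc, hf]) hx'
  exact Subtype.ext h0

end FrobAlg

end Cfsg.Agent.Helper67
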