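import Mathlib
import Cfsg.Agent.Helper81.LocalRing

/-!
# Integral spectral idempotents

`fi_exists_poly`: if `t` is an element of a complex algebra that is integral over `ℤ`, and `N` is
a natural number prime to `p`, then there is a polynomial `q = X * q₁` with coefficients in the
local ring at a `p`-modular ideal such that `q(t)` is idempotent and `q(N) = 1`.
-/

namespace Cfsg.Agent.Helper67

open Cfsg Cfsg.Agent

section FrobIdem

variable {M : Ideal Cfsg.AlgInt}

theorem fi_isCoprime_prod_right {R : Type*} [CommRing R] {ι : Type*} (a : R) (f : ι → R)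
    (T : Multiset ι) (h : ∀ θ ∈ T, IsCoprime a (f θ)) : IsCoprime a (T.map f).prod := by
  induction T using Multiset.induction_on with
  | empty => simpa using isCoprime_one_right
  | cons θ T ih =>
    rw [Multiset.map_cons, Multiset.prod_cons]
    exact IsCoprime.mul_right (h θ (Multiset.mem_cons_self θ T))
      (ih fun θ' hθ' => h θ' (Multiset.mem_cons_of_mem hθ'))

theorem fi_isCoprime_prod_left {R : Type*} [CommRing R] {ι : Type*} (a : R) (f : ι → R)
    (T : Multiset ι) (h : ∀ θ ∈ T, IsCoprime (f θ) a) : IsCoprime (T.map f).prod a :=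
  (fi_isCoprime_prod_right a f T fun θ hθ => (h θ hθ).symm).symm

theorem fi_isCoprime_lin [hP : M.IsPrime] (a b : Helper81.localSubring M)
    (ha : Cfsg.MemLocalIdeal M (a : ℂ)) (hb : ¬ Cfsg.MemLocalIdeal M (b : ℂ)) :
    IsCoprime (Polynomial.X - Polynomial.C a) (Polynomial.X - Polynomial.C b) := by
  apply Polynomial.isCoprime_X_sub_C_of_isUnit_sub
  have hab : ¬ Cfsg.MemLocalIdeal M ((a - b : Helper81.localSubring M) : ℂ) := by
    intro h; apply hb
    have h1 : (b : ℂ) = (a : ℂ) - ((a - b : Helper81.localSubring M) : ℂ) := by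
      push_cast; ring
    rw [h1]; exact Helper81.memLocalIdeal_sub ha h
  have hne : ((a - b : Helper81.localSubring M) : ℂ) ≠ 0 := by
    intro h0; apply hab; rw [h0]; exact Helper81.memLocalIdeal_zero hP.ne_top
  have hinv := Helper81.memLocalRing_inv (a - b).2 hab
  refine isUnit_iff_exists_inv.mpr ⟨⟨_, hinv⟩, Subtype.ext ?_⟩
  simpa using mul_inv_cancel₀ hne

theorem fi_exists_poly {p : ℕ} [hP : M.IsPrime] (hM : Cfsg.IsPModular p M)
    {𝔄 : Type*} [Ring 𝔄] [Algebra ℂ 𝔄] [Algebra (Helper81.localSubring M) 𝔄]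
    [IsScalarTower (Helper81.localSubring M) ℂ 𝔄]
    (t : 𝔄) (ht : IsIntegral ℤ t) (N : ℕ) (hN : ¬ p ∣ N) :
    ∃ q₁ : Polynomial (Helper81.localSubring M),
      Polynomial.aeval t (Polynomial.X * q₁) * Polynomial.aeval t (Polynomial.X * q₁) =
        Polynomial.aeval t (Polynomial.X * q₁) ∧
      (Polynomial.X * q₁).eval (N : Helper81.localSubring M) = 1 := by
  classical
  obtain ⟨P, hPm, hPt⟩ := ht
  set Pc : Polynomial ℂ := P.map (algebraMap ℤ ℂ) with hPc
  have hPcm : Pc.Monic := hPm.map _
  have hPc0 : Polynomial.aeval t Pc = 0 := by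
    rw [hPc, Polynomial.aeval_map_algebraMap]; exact hPt
  have hsplit : Pc = (Pc.roots.map (fun θ => Polynomial.X - Polynomial.C θ)).prod :=
    (IsAlgClosed.splits Pc).eq_prod_roots_of_monic hPcm
  have hint : ∀ θ ∈ Pc.roots, IsIntegral ℤ θ := by
    intro θ hθ
    refine ⟨P, hPm, ?_⟩
    have h1 := (Polynomial.mem_roots hPcm.ne_zero).mp hθ
    rw [Polynomial.eval₂_eq_eval_map]; exact h1
  have hSO : ∀ θ ∈ Pc.roots, θ ∈ Helper81.localSubring M := fun θ hθ =>
    Helper81.memLocalRing_of_isIntegral hP.ne_top (hint θ hθ)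
  let φ : ℂ → Helper81.localSubring M :=
    fun θ => if h : θ ∈ Helper81.localSubring M then ⟨θ, h⟩ else 0
  have hφ : ∀ θ, θ ∈ Helper81.localSubring M → (φ θ : ℂ) = θ := by
    intro θ h; simp [φ, h]
  set S0 := Pc.roots.filter (fun θ => Cfsg.MemLocalIdeal M θ) with hS0
  set S1 := Pc.roots.filter (fun θ => ¬ Cfsg.MemLocalIdeal M θ) with hS1
  have hS01 : S0 + S1 = Pc.roots := Multiset.filter_add_not _ _
  let lin : ℂ → Polynomial (Helper81.localSubring M) :=
    fun θ => Polynomial.X - Polynomial.C (φ θ)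
  set A1 : Polynomial (Helper81.localSubring M) := (S0.map lin).prod with hA1
  set B1 : Polynomial (Helper81.localSubring M) := (S1.map lin).prod with hB1
  have hmapAB : (A1 * B1).map (algebraMap (Helper81.localSubring M) ℂ) = Pc := by
    refine Eq.trans ?_ hsplit.symm
    rw [hA1, hB1, ← Multiset.prod_add, ← Multiset.map_add, hS01, Polynomial.map_multiset_prod,
      Multiset.map_map]
    congr 1
    apply Multiset.map_congr rfl
    intro θ hθ
    have h1 : (algebraMap (Helper81.localSubring M) ℂ) (φ θ) = θ := hφ θ (hSO θ hθ)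
    simp [lin, h1]
  have h0 : Polynomial.aeval t (A1 * B1) = 0 := by
    rw [← Polynomial.aeval_map_algebraMap ℂ t (A1 * B1), hmapAB]; exact hPc0
  -- coprimality
  have hmem0 : ∀ θ ∈ S0, Cfsg.MemLocalIdeal M ((φ θ : Helper81.localSubring M) : ℂ) := by
    intro θ hθ
    rw [hS0, Multiset.mem_filter] at hθ
    rw [hφ θ (hSO θ hθ.1)]; exact hθ.2
  have hmem1 : ∀ θ ∈ S1, ¬ Cfsg.MemLocalIdeal M ((φ θ : Helper81.localSubring M) : ℂ) := by
    intro θ hθ
    rw [hS1, Multiset.mem_filter] at hθ
    rw [hφ θ (hSO θ hθ.1)]; exact hθ.2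
  have hz : Cfsg.MemLocalIdeal M (((0 : Helper81.localSubring M)) : ℂ) := by
    rw [Subring.coe_zero]; exact Helper81.memLocalIdeal_zero (M := M) hP.ne_top
  have hNn : ¬ Cfsg.MemLocalIdeal M (((N : Helper81.localSubring M)) : ℂ) := by
    rw [Subring.coe_natCast]; exact Helper81.not_memLocalIdeal_natCast hM hN
  have c1 : IsCoprime (Polynomial.X : Polynomial (Helper81.localSubring M))
      (Polynomial.X - Polynomial.C (N : Helper81.localSubring M)) := by
    have h := fi_isCoprime_lin (M := M) 0 (N : Helper81.localSubring M) hz hNn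
    rwa [Polynomial.C_0, sub_zero] at h
  have c2 : IsCoprime (Polynomial.X : Polynomial (Helper81.localSubring M)) B1 := by
    have h := fi_isCoprime_prod_right
      (Polynomial.X - Polynomial.C (0 : Helper81.localSubring M)) lin S1
      fun θ hθ => fi_isCoprime_lin _ _ hz (hmem1 θ hθ)
    rwa [Polynomial.C_0, sub_zero] at h
  have c3 : IsCoprime A1 (Polynomial.X - Polynomial.C (N : Helper81.localSubring M)) :=
    fi_isCoprime_prod_left _ lin S0 fun θ hθ => fi_isCoprime_lin _ _ (hmem0 θ hθ) hNn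
  have c4 : IsCoprime A1 B1 :=
    fi_isCoprime_prod_left _ lin S0 fun θ hθ =>
      fi_isCoprime_prod_right _ lin S1 fun θ' hθ' =>
        fi_isCoprime_lin _ _ (hmem0 θ hθ) (hmem1 θ' hθ')
  have hcop : IsCoprime (Polynomial.X * A1)
      ((Polynomial.X - Polynomial.C (N : Helper81.localSubring M)) * B1) :=
    IsCoprime.mul_left (IsCoprime.mul_right c1 c2) (IsCoprime.mul_right c3 c4)
  obtain ⟨u, v, huv⟩ := hcop
  refine ⟨u * A1, ?_, ?_⟩
  · have hpoly : (Polynomial.X * (u * A1)) * (Polynomial.X * (u * A1)) =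
        Polynomial.X * (u * A1) -
          (u * v * Polynomial.X * (Polynomial.X - Polynomial.C (N : Helper81.localSubring M))) *
            (A1 * B1) := by
      linear_combination (Polynomial.X * (u * A1)) * huv
    rw [← map_mul, hpoly, map_sub, map_mul _ _ (A1 * B1), h0, mul_zero, sub_zero]
  · have h1 := congrArg (Polynomial.eval (N : Helper81.localSubring M)) huv
    simp only [Polynomial.eval_add, Polynomial.eval_mul, Polynomial.eval_X, Polynomial.eval_sub,
      Polynomial.eval_C, sub_self, zero_mul, mul_zero, add_zero, Polynomial.eval_one] at h1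
    simp only [Polynomial.eval_mul, Polynomial.eval_X]
    linear_combination h1

end FrobIdem

end Cfsg.Agent.Helper67
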