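import Mathlib
import Cfsg.Agent.Helper81.LocalRing

/-!
# A vanishing lemma for traces of integral idempotents

`fv_trace_eq_zero`: let `E` be an idempotent complex matrix whose entries lie in the local ring
at a `p`-modular ideal, and let `P` commute with `E`.  If there is a diagonal matrix `D` of
`p`-th roots of unity with `D P = ζ P D` for a `p`-th root of unity `ζ ≠ 1`, then
`trace (P E) = 0`.  (This is the matrix form of: the character of a projective lattice
vanishes on `p`-singular elements.)
-/

namespace Cfsg.Agent.Helper67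

open Cfsg Cfsg.Agent

section FrobVan

variable {M : Ideal Cfsg.AlgInt}

/-- The local ideal, as an ideal of the local subring. -/
def fvLocIdeal (M : Ideal Cfsg.AlgInt) [hP : M.IsPrime] : Ideal (Helper81.localSubring M) where
  carrier := {z | Cfsg.MemLocalIdeal M (z : ℂ)}
  add_mem' := fun {a b} ha hb => by
    show Cfsg.MemLocalIdeal M ((a + b : Helper81.localSubring M) : ℂ)
    rw [Subring.coe_add]
    exact Helper81.memLocalIdeal_add ha hb
  zero_mem' := Helper81.memLocalIdeal_zero hP.ne_top
  smul_mem' := fun c x hx => by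
    show Cfsg.MemLocalIdeal M ((c * x : Helper81.localSubring M) : ℂ)
    rw [Subring.coe_mul]
    exact Helper81.memLocalIdeal_mul_left c.2 hx

theorem fv_mem_locIdeal [hP : M.IsPrime] (z : Helper81.localSubring M) :
    z ∈ fvLocIdeal M ↔ Cfsg.MemLocalIdeal M (z : ℂ) := Iff.rfl

/-- A `p`-th root of unity is congruent to `1` modulo the local ideal. -/
theorem fv_root {p : ℕ} (hM : Cfsg.IsPModular p M) {v : ℂ} (hv : v ^ p = 1) :
    Cfsg.MemLocalIdeal M (v - 1) := by
  have hp := hM.1
  have hP : M.IsPrime := Helper81.isPrime_of_isPModular hM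
  have hint : IsIntegral ℤ v := by
    apply IsIntegral.of_pow hp.pos
    rw [hv]; exact isIntegral_one
  set w : Cfsg.AlgInt := ⟨v, hint⟩ with hw
  obtain ⟨r, hr⟩ := exists_add_pow_prime_eq hp (w - 1) 1
  have hw1 : w ^ p = 1 := Subtype.ext (by simpa [hw] using hv)
  rw [sub_add_cancel, hw1, one_pow] at hr
  have h1 : (w - 1) ^ p = -((p : Cfsg.AlgInt) * ((w - 1) * r)) := by linear_combination -hr
  have h2 : (w - 1) ^ p ∈ M := by
    rw [h1]; exact M.neg_mem (M.mul_mem_right _ hM.2.2)
  have h3 : w - 1 ∈ M := hP.mem_of_pow_mem p h2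
  have h4 := Helper81.memLocalIdeal_of_mem hP.ne_top h3
  simpa [hw] using h4

/-- A matrix congruent to the identity modulo the local ideal has nonzero determinant. -/
theorem fv_det_ne_zero [hP : M.IsPrime] {n : Type*} [Fintype n] [DecidableEq n]
    (N : Matrix n n ℂ) (hN : ∀ x y, Cfsg.MemLocalIdeal M (N x y)) : (1 + N).det ≠ 0 := by
  classical
  set NO : Matrix n n (Helper81.localSubring M) :=
    Matrix.of fun x y => ⟨N x y, Helper81.memLocalRing_of_memLocalIdeal (hN x y)⟩ with hNO
  have h1 : (1 + N) = ((Helper81.localSubring M).subtype).mapMatrix (1 + NO) := by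
    ext x y
    by_cases hxy : x = y
    · subst hxy; simp [hNO]
    · simp [hNO, hxy]
  have h2 : (Ideal.Quotient.mk (fvLocIdeal M)).mapMatrix (1 + NO) = 1 := by
    ext x y
    have hz : Ideal.Quotient.mk (fvLocIdeal M) (NO x y) = 0 := by
      rw [Ideal.Quotient.eq_zero_iff_mem]
      exact hN x y
    by_cases hxy : x = y
    · subst hxy; simp [hz]
    · simp [hxy, hz]
  intro h0
  have h3 : (1 + NO).det = 0 := by
    have h := RingHom.map_det ((Helper81.localSubring M).subtype) (1 + NO)
    rw [← h1, h0] at h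
    exact Subtype.ext (by simpa using h)
  have h4 := RingHom.map_det (Ideal.Quotient.mk (fvLocIdeal M)) (1 + NO)
  rw [h2, h3, map_zero, Matrix.det_one] at h4
  have h5 : (1 : Helper81.localSubring M) ∈ fvLocIdeal M := by
    rw [← Ideal.Quotient.eq_zero_iff_mem, map_one]
    exact h4.symm
  exact Helper81.not_memLocalIdeal_one (M := M) (by simpa using (fv_mem_locIdeal _).mp h5)

/-- **Vanishing lemma.**  An idempotent matrix `E` with entries in the local ring, commuting with
`P`, where `D P = ζ P D` for a diagonal matrix `D` of `p`-th roots of unity and a `p`-th root of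
unity `ζ ≠ 1`, has `trace (P E) = 0`. -/
theorem fv_trace_eq_zero {p : ℕ} (hM : Cfsg.IsPModular p M) {n : Type*} [Fintype n]
    [DecidableEq n] (E P : Matrix n n ℂ) (d : n → ℂ) (ζ : ℂ)
    (hE : E * E = E) (hPE : P * E = E * P)
    (hd : ∀ x y, d x * P x y = ζ * (P x y * d y))
    (hζ : ζ ≠ 1) (hζp : ζ ^ p = 1) (hdp : ∀ x, d x ^ p = 1)
    (hEO : ∀ x y, Cfsg.MemLocalRing M (E x y)) :
    (P * E).trace = 0 := by
  classical
  have hP : M.IsPrime := Helper81.isPrime_of_isPModular hM
  have hp := hM.1
  have hζ0 : ζ ≠ 0 := by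
    intro h; rw [h, zero_pow hp.ne_zero] at hζp; exact zero_ne_one hζp
  have hd0 : ∀ x, d x ≠ 0 := fun x h => by
    have := hdp x; rw [h, zero_pow hp.ne_zero] at this; exact zero_ne_one this
  set D : Matrix n n ℂ := Matrix.diagonal d with hD
  set Di : Matrix n n ℂ := Matrix.diagonal (fun x => (d x)⁻¹) with hDi
  have hDDi : D * Di = 1 := by
    rw [hD, hDi, Matrix.diagonal_mul_diagonal, ← Matrix.diagonal_one]
    congr 1; ext x; exact mul_inv_cancel₀ (hd0 x)
  have hDiD : Di * D = 1 := by
    rw [hD, hDi, Matrix.diagonal_mul_diagonal, ← Matrix.diagonal_one]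
    congr 1; ext x; exact inv_mul_cancel₀ (hd0 x)
  have hDP : D * P = ζ • (P * D) := by
    ext x y
    simp only [hD, Matrix.diagonal_mul, Matrix.smul_apply, Matrix.mul_diagonal, smul_eq_mul]
    exact hd x y
  have hPD : P * D = ζ⁻¹ • (D * P) := by
    rw [hDP, smul_smul, inv_mul_cancel₀ hζ0, one_smul]
  have hPDi : P * Di = ζ • (Di * P) := by
    have h1 : Di * (D * P) * Di = Di * (ζ • (P * D)) * Di := by rw [hDP]
    rw [← Matrix.mul_assoc, hDiD, Matrix.one_mul] at h1
    rw [h1, Matrix.mul_smul, Matrix.smul_mul, ← Matrix.mul_assoc, Matrix.mul_assoc (Di * P),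
      hDDi, Matrix.mul_one]
  set E' : Matrix n n ℂ := D * E * Di with hE'
  have hE'idem : E' * E' = E' := by
    calc D * E * Di * (D * E * Di) = D * E * (Di * D) * E * Di := by
          simp only [Matrix.mul_assoc]
      _ = D * (E * E) * Di := by rw [hDiD]; simp only [Matrix.mul_one, Matrix.mul_assoc]
      _ = D * E * Di := by rw [hE]
  have hPE' : P * E' = E' * P := by
    calc P * E' = (P * D) * E * Di := by rw [hE']; simp only [Matrix.mul_assoc]
      _ = ζ⁻¹ • (D * (P * E) * Di) := by
          rw [hPD]; simp only [Matrix.smul_mul, Matrix.mul_assoc]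
      _ = ζ⁻¹ • (D * E * (P * Di)) := by rw [hPE]; simp only [Matrix.mul_assoc]
      _ = D * E * Di * P := by
          rw [hPDi]
          simp only [Matrix.mul_smul, smul_smul, inv_mul_cancel₀ hζ0, one_smul, Matrix.mul_assoc]
      _ = E' * P := by rw [hE']
  have htr : (P * E').trace = ζ⁻¹ * (P * E).trace := by
    calc (P * E').trace = ((P * D * E) * Di).trace := by rw [hE']; simp only [Matrix.mul_assoc]
      _ = (Di * (P * D * E)).trace := Matrix.trace_mul_comm _ _
      _ = (ζ⁻¹ • (P * E)).trace := by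
          rw [hPD]; congr 1
          simp only [Matrix.smul_mul, Matrix.mul_smul, ← Matrix.mul_assoc, hDiD, Matrix.one_mul]
      _ = ζ⁻¹ * (P * E).trace := by rw [Matrix.trace_smul, smul_eq_mul]
  set Δ : Matrix n n ℂ := E' - E with hΔ
  set V : Matrix n n ℂ := 1 + Δ * (E + E - 1) with hV
  have hΔm : ∀ x y, Cfsg.MemLocalIdeal M (Δ x y) := by
    intro x y
    have h1 : Δ x y = E x y * (d x * (d y)⁻¹ - 1) := by
      simp only [hΔ, hE', hD, hDi, Matrix.sub_apply, Matrix.mul_diagonal, Matrix.diagonal_mul]
      ring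
    rw [h1]
    exact Helper81.memLocalIdeal_mul_left (hEO x y)
      (fv_root hM (by rw [mul_pow, inv_pow, hdp, hdp]; simp))
  have hVm : ∀ x y, Cfsg.MemLocalIdeal M ((Δ * (E + E - 1)) x y) := by
    intro x y
    rw [Matrix.mul_apply]
    apply Helper81.memLocalIdeal_sum
    intro z _
    apply Helper81.memLocalIdeal_mul_right (hΔm x z)
    simp only [Matrix.sub_apply, Matrix.add_apply, Matrix.one_apply]
    apply Helper81.memLocalRing_sub (Helper81.memLocalRing_add (hEO z y) (hEO z y))
    split_ifs
    · simpa using Helper81.memLocalRing_natCast (M := M) hP.ne_top 1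
    · simpa using Helper81.memLocalRing_natCast (M := M) hP.ne_top 0
  have hdet : V.det ≠ 0 := fv_det_ne_zero _ hVm
  have hEV : E' * V = V * E := by
    have e1 : E' * V = E' * E := by
      calc E' * V = E' + (E' * E' - E' * E) * (E + E - 1) := by rw [hV, hΔ]; noncomm_ring
        _ = E' + (E' - E' * E) * (E + E - 1) := by rw [hE'idem]
        _ = E' * E + (E' * E - E' * (E * E)) + (E' * E - E' * (E * E)) := by noncomm_ring
        _ = E' * E := by rw [hE]; simp
    have e2 : V * E = E' * E := by
      calc V * E = E + (E' - E) * ((E * E) + (E * E) - E) := by rw [hV, hΔ]; noncomm_ring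
        _ = E + (E' - E) * E := by rw [hE]; simp
        _ = E' * E + (E - E * E) := by noncomm_ring
        _ = E' * E := by rw [hE]; simp
    rw [e1, e2]
  have hPV : P * V = V * P := by
    have c1 : Commute P E := hPE
    have c2 : Commute P E' := hPE'
    have c3 : Commute P V := by
      rw [hV, hΔ]
      exact (Commute.one_right P).add_right
        ((c2.sub_right c1).mul_right (((c1.add_right c1)).sub_right (Commute.one_right P)))
    exact c3
  have hVu : IsUnit V.det := isUnit_iff_ne_zero.mpr hdet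
  have hVinv1 : V * V⁻¹ = 1 := Matrix.mul_nonsing_inv V hVu
  have hVinv2 : V⁻¹ * V = 1 := Matrix.nonsing_inv_mul V hVu
  have hE'eq : E' = V * E * V⁻¹ := by
    calc E' = E' * (V * V⁻¹) := by rw [hVinv1, Matrix.mul_one]
      _ = (E' * V) * V⁻¹ := (Matrix.mul_assoc E' V V⁻¹).symm
      _ = V * E * V⁻¹ := by rw [hEV]
  have htr2 : (P * E').trace = (P * E).trace := by
    rw [hE'eq]
    calc (P * (V * E * V⁻¹)).trace = ((P * V) * E * V⁻¹).trace := by
          simp only [Matrix.mul_assoc]
      _ = ((V * P) * E * V⁻¹).trace := by rw [hPV]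
      _ = (V * (P * E * V⁻¹)).trace := by simp only [Matrix.mul_assoc]
      _ = ((P * E * V⁻¹) * V).trace := Matrix.trace_mul_comm _ _
      _ = (P * E).trace := by rw [Matrix.mul_assoc, hVinv2, Matrix.mul_one]
  have hfin : (1 - ζ⁻¹) * (P * E).trace = 0 := by
    rw [sub_mul, one_mul, ← htr, htr2, sub_self]
  rcases mul_eq_zero.mp hfin with h | h
  · exfalso; apply hζ
    have h1 : ζ⁻¹ = 1 := by linear_combination -h
    exact inv_eq_one.mp h1
  · exact h

end FrobVan

end Cfsg.Agent.Helper67
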