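import Mathlib
import Cfsg.Agent.Helper67.FrobAlg
import Cfsg.Agent.Helper67.FrobVan
import Cfsg.Agent.Helper67.FrobIdem

/-!
# Subgroup sums, the character of `ℂG f`, and integrality in the group algebra
-/

namespace Cfsg.Agent.Helper67

open Cfsg Cfsg.Agent

section FrobSub

variable {G : Type*} [Group G] [Fintype G]

open Classical in
/-- The sum of the elements of a subgroup, in the group algebra over `k`. -/
noncomputable def faSumK (k : Type*) [Semiring k] (H : Subgroup G) : MonoidAlgebra k G :=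
  ∑ g : G, if g ∈ H then MonoidAlgebra.single g 1 else 0

open Classical in
theorem fa_sumK_coeff (k : Type*) [Semiring k] (H : Subgroup G) (x : G) :
    (faSumK k H).coeff x = if x ∈ H then 1 else 0 := by
  unfold faSumK
  rw [MonoidAlgebra.coeff_sum, Finsupp.finsetSum_apply, Finset.sum_eq_single x]
  · split_ifs <;> simp
  · intro g _ hne
    split_ifs <;> simp [Finsupp.single_apply, hne]
  · intro h; exact absurd (Finset.mem_univ x) h

open Classical in
theorem fa_sum_mul_self (H : Subgroup G) :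
    faSumK ℂ H * faSumK ℂ H = (Nat.card H : ℂ) • faSumK ℂ H := by
  apply MonoidAlgebra.ext
  ext g
  rw [fa_coeff_mul, MonoidAlgebra.coeff_smul, Finsupp.smul_apply, fa_sumK_coeff, smul_eq_mul]
  simp only [fa_sumK_coeff]
  by_cases hg : g ∈ H
  · have h1 : ∀ h : G, (if h ∈ H then (1 : ℂ) else 0) * (if h⁻¹ * g ∈ H then 1 else 0) =
        if h ∈ H then 1 else 0 := by
      intro h
      by_cases hh : h ∈ H
      · simp [hh, H.mul_mem (H.inv_mem hh) hg]
      · simp [hh]
    simp only [h1, hg, if_true, mul_one]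
    rw [Finset.sum_boole, Nat.card_eq_fintype_card, Fintype.card_subtype]
  · have h1 : ∀ h : G, (if h ∈ H then (1 : ℂ) else 0) * (if h⁻¹ * g ∈ H then 1 else 0) = 0 := by
      intro h
      by_cases hh : h ∈ H
      · have h2 : h⁻¹ * g ∉ H := fun h2 => hg (by simpa using H.mul_mem hh h2)
        simp [h2]
      · simp [hh]
    simp [h1, hg]

theorem fa_mem_coprime {Q R : Subgroup G} (hcop : (Nat.card Q).Coprime (Nat.card R)) {g x : G}
    (hgQ : g ∈ Q) (hR : x⁻¹ * (g⁻¹ * x) ∈ R) : g = 1 := by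
  have h1 : orderOf g ∣ Nat.card Q := Subgroup.orderOf_dvd_natCard Q hgQ
  have h2 : orderOf (x⁻¹ * (g⁻¹ * x)) ∣ Nat.card R := Subgroup.orderOf_dvd_natCard R hR
  have h3 : orderOf (x⁻¹ * (g⁻¹ * x)) = orderOf g := by
    have h4 : x⁻¹ * (g⁻¹ * x) = MulAut.conj x⁻¹ g⁻¹ := by simp [MulAut.conj_apply, mul_assoc]
    rw [h4, MulEquiv.orderOf_eq, orderOf_inv]
  rw [h3] at h2
  have h5 : orderOf g ∣ 1 := by
    have := Nat.dvd_gcd h1 h2
    rwa [hcop.gcd_eq_one] at this
  exact orderOf_eq_one_iff.mp (Nat.dvd_one.mp h5)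

open Classical in
theorem fa_tr_avg (Q R : Subgroup G) (hcop : (Nat.card Q).Coprime (Nat.card R)) :
    faTr ((Nat.card Q : ℂ)⁻¹ • faSumK ℂ Q) ((Nat.card R : ℂ)⁻¹ • faSumK ℂ R) =
      (Fintype.card G : ℂ) * ((Nat.card Q : ℂ)⁻¹ * (Nat.card R : ℂ)⁻¹) := by
  unfold faTr
  have key : ∀ x : G, ∑ g : G, ((Nat.card Q : ℂ)⁻¹ • faSumK ℂ Q).coeff g *
      ((Nat.card R : ℂ)⁻¹ • faSumK ℂ R).coeff (x⁻¹ * (g⁻¹ * x)) =
      (Nat.card Q : ℂ)⁻¹ * (Nat.card R : ℂ)⁻¹ := by
    intro x
    rw [Finset.sum_eq_single 1]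
    · simp [MonoidAlgebra.coeff_smul, fa_sumK_coeff, Q.one_mem, R.one_mem]
    · intro g _ hg1
      simp only [MonoidAlgebra.coeff_smul, Finsupp.smul_apply, fa_sumK_coeff, smul_eq_mul]
      by_cases hgQ : g ∈ Q
      · have h2 : x⁻¹ * (g⁻¹ * x) ∉ R := fun hR => hg1 (fa_mem_coprime hcop hgQ hR)
        simp [h2]
      · simp [hgQ]
    · intro h; exact absurd (Finset.mem_univ _) h
  rw [Finset.sum_congr rfl fun x _ => key x, Finset.sum_const, Finset.card_univ, nsmul_eq_mul]

/-- For an idempotent `f`, the function `faPhi f` is the character of the left ideal `ℂG f`. -/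
theorem fa_phi_isCharacter {f : MonoidAlgebra ℂ G} (hf : f * f = f) :
    IsCharacter G (faPhi f) := by
  classical
  let W : Submodule ℂ (MonoidAlgebra ℂ G) := LinearMap.range (LinearMap.mulRight ℂ f)
  have hW : ∀ (g : G) (x : MonoidAlgebra ℂ G), x ∈ W → MonoidAlgebra.single g 1 * x ∈ W := by
    rintro g _ ⟨y, rfl⟩
    exact ⟨MonoidAlgebra.single g 1 * y, by simp [mul_assoc]⟩
  have hWf : ∀ x ∈ W, x * f = x := by
    rintro _ ⟨y, rfl⟩
    simp [mul_assoc, hf]
  let ρ : Representation ℂ G W :=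
    { toFun := fun g => (LinearMap.mulLeft ℂ (MonoidAlgebra.single g (1 : ℂ))).restrict (hW g)
      map_one' := by
        apply LinearMap.ext; intro x; apply Subtype.ext
        show (MonoidAlgebra.single (1 : G) (1 : ℂ) * (x : MonoidAlgebra ℂ G) : MonoidAlgebra ℂ G) =
          (x : MonoidAlgebra ℂ G)
        rw [← MonoidAlgebra.one_def, one_mul]
      map_mul' := fun g h => by
        apply LinearMap.ext; intro x; apply Subtype.ext
        show (MonoidAlgebra.single (g * h) (1 : ℂ) * (x : MonoidAlgebra ℂ G) : MonoidAlgebra ℂ G) =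
          MonoidAlgebra.single g (1 : ℂ) * (MonoidAlgebra.single h (1 : ℂ) * (x : MonoidAlgebra ℂ G))
        rw [← mul_assoc, MonoidAlgebra.single_mul_single, one_mul] }
  have hρ : ρ.character = faPhi f := by
    funext g
    rw [fa_phi_eq_tr, ← fa_trace_lam]
    have hall : ∀ x, faLam (MonoidAlgebra.single g 1) f x ∈ W := fun x =>
      ⟨MonoidAlgebra.single g 1 * x, by simp [faLam_apply, mul_assoc]⟩
    rw [← LinearMap.trace_restrict_eq_of_forall_mem W _ hall]
    show LinearMap.trace ℂ W (ρ g) = _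
    congr 1
    apply LinearMap.ext; intro x; apply Subtype.ext
    show (MonoidAlgebra.single g (1 : ℂ) * (x : MonoidAlgebra ℂ G) : MonoidAlgebra ℂ G) =
      MonoidAlgebra.single g (1 : ℂ) * ((x : MonoidAlgebra ℂ G) * f)
    rw [hWf x x.2]
  rw [← hρ]
  exact Helper79.isCharacter_of_rep ρ

/-- The matrix of right multiplication by `f`. -/
noncomputable def faE (f : MonoidAlgebra ℂ G) : Matrix G G ℂ :=
  Matrix.of fun x y => f.coeff (y⁻¹ * x)

/-- The permutation matrix of left multiplication by `g`. -/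
def faP [DecidableEq G] (g : G) : Matrix G G ℂ :=
  Matrix.of fun x y => if x = g * y then 1 else 0

theorem fa_E_mul (f h : MonoidAlgebra ℂ G) : faE f * faE h = faE (h * f) := by
  ext x y
  simp only [faE, Matrix.mul_apply, Matrix.of_apply]
  rw [fa_coeff_mul, ← Equiv.sum_comp (Equiv.mulLeft y)]
  refine Finset.sum_congr rfl fun z _ => ?_
  rw [Equiv.coe_mulLeft, mul_inv_rev, inv_mul_cancel_left, mul_assoc, mul_comm]

theorem fa_P_E [DecidableEq G] (f : MonoidAlgebra ℂ G) (g : G) :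
    faP g * faE f = faE f * faP g := by
  ext x y
  simp only [faE, faP, Matrix.mul_apply, Matrix.of_apply]
  rw [Finset.sum_eq_single (g⁻¹ * x), Finset.sum_eq_single (g * y)]
  · simp [mul_assoc]
  · intro z _ hz; simp [hz]
  · intro h; exact absurd (Finset.mem_univ _) h
  · intro z _ hz
    have : x ≠ g * z := fun h => hz (by rw [h]; simp)
    simp [this]
  · intro h; exact absurd (Finset.mem_univ _) h

theorem fa_trace_P_E [DecidableEq G] (f : MonoidAlgebra ℂ G) (g : G) :
    (faP g * faE f).trace = faPhi f g := by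
  unfold faPhi
  simp only [Matrix.trace, Matrix.diag_apply, faE, faP, Matrix.mul_apply, Matrix.of_apply]
  rw [← Equiv.sum_comp (Equiv.mulLeft g)]
  refine Finset.sum_congr rfl fun y _ => ?_
  rw [Finset.sum_eq_single y]
  · simp [mul_assoc]
  · intro z _ hz
    have : g * y ≠ g * z := fun h => hz (mul_left_cancel h).symm
    simp [this]
  · intro h; exact absurd (Finset.mem_univ _) h

/-- A function on `G` that is multiplied by `ζ` under left translation by `g`. -/
theorem fa_exists_d (g : G) (ζ : ℂ) (hζ : ζ ^ orderOf g = 1) (p : ℕ) (hζp : ζ ^ p = 1) :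
    ∃ d : G → ℂ, (∀ y, d (g * y) = ζ * d y) ∧ (∀ y, d y ^ p = 1) := by
  classical
  have hζ0 : ζ ≠ 0 := by
    intro h
    rw [h, zero_pow (orderOf_pos g).ne'] at hζ
    exact zero_ne_one hζ
  set H : Subgroup G := Subgroup.zpowers g with hH
  let c : G → G := fun y => Quotient.out (QuotientGroup.mk y⁻¹ : G ⧸ H)
  have hc : ∀ y, y * c y ∈ H := by
    intro y
    have h1 : (QuotientGroup.mk y⁻¹ : G ⧸ H) = QuotientGroup.mk (c y) :=
      (Quotient.out_eq (QuotientGroup.mk y⁻¹ : G ⧸ H)).symm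
    have h2 := QuotientGroup.eq.mp h1
    simpa using h2
  have hcg : ∀ y, c (g * y) = c y := by
    intro y
    have h1 : (QuotientGroup.mk (g * y)⁻¹ : G ⧸ H) = QuotientGroup.mk y⁻¹ := by
      rw [QuotientGroup.eq]
      have : ((g * y)⁻¹)⁻¹ * y⁻¹ = g := by group
      rw [this]
      exact Subgroup.mem_zpowers g
    show Quotient.out (QuotientGroup.mk (g * y)⁻¹ : G ⧸ H) = Quotient.out _
    rw [h1]
  have hk : ∀ y, ∃ k : ℤ, g ^ k = y * c y := fun y => Subgroup.mem_zpowers_iff.mp (hc y)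
  choose k hk using hk
  have hpow : ∀ n : ℤ, g ^ n = 1 → ζ ^ n = 1 := by
    intro n hn
    obtain ⟨j, hj⟩ := (orderOf_dvd_iff_zpow_eq_one.mpr hn)
    rw [hj, zpow_mul, zpow_natCast, hζ, one_zpow]
  refine ⟨fun y => ζ ^ (k y), ?_, ?_⟩
  · intro y
    have h1 : g ^ (k (g * y) - k y - 1) = 1 := by
      rw [zpow_sub, zpow_sub, hk, hk, hcg, zpow_one]
      group
    have h2 := hpow _ h1
    rw [zpow_sub₀ hζ0, zpow_sub₀ hζ0, zpow_one] at h2
    field_simp at h2
    show ζ ^ k (g * y) = ζ * ζ ^ k y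
    rw [h2]; ring
  · intro y
    show (ζ ^ k y) ^ p = 1
    rw [← zpow_natCast, ← zpow_mul, mul_comm, zpow_mul, zpow_natCast, hζp, one_zpow]

end FrobSub

end Cfsg.Agent.Helper67
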