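import Mathlib
import Cfsg.Agent.Helper67.FrobSub

/-!
# A Frobenius-type theorem on `p`-regular elements

`frob_main`: let `Q`, `R` be subgroups of coprime orders, both prime to `p`, of a finite group
`G`, and suppose `G` has exactly `|Q| * |R|` elements of order prime to `p`.  Then these elements
form a normal subgroup.

Proof: let `t₀ = Q̂ R̂ Q̂` in `ℂG`.  A spectral idempotent `f` of `t₀` with coefficients in the
local ring at a `p`-modular ideal is constructed (`fi_exists_poly`); its character `Φ` (the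
character of `ℂG f`) vanishes on `p`-singular elements (`fv_trace_eq_zero`), contains the
trivial character once, and has norm at most the number `|G| / (|Q| |R|)` of `(Q, R)` double
cosets.  Cauchy–Schwarz then forces `Φ` to be constant on the `p`-regular elements, which
therefore form the kernel of `Φ`.
-/

namespace Cfsg.Agent.Helper67

open Cfsg Cfsg.Agent

section FrobMain

/-- A quotient of natural numbers that is an algebraic integer is an integer. -/
theorem fm_nat_dvd_of_isIntegral_div {a b : ℕ} (hb : b ≠ 0)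
    (h : IsIntegral ℤ ((a : ℂ) / (b : ℂ))) : b ∣ a := by
  have h1 : ((a : ℂ) / (b : ℂ)) = algebraMap ℚ ℂ ((a : ℚ) / (b : ℚ)) := by
    simp
  rw [h1, isIntegral_algebraMap_iff (algebraMap ℚ ℂ).injective] at h
  obtain ⟨y, hy⟩ := IsIntegrallyClosed.isIntegral_iff.mp h
  have hb' : (b : ℚ) ≠ 0 := by exact_mod_cast hb
  have h2 : (a : ℚ) = (b : ℚ) * (y : ℚ) := by
    have : (y : ℚ) = (a : ℚ) / (b : ℚ) := by simpa using hy
    rw [this]; field_simp
  have h3 : (a : ℤ) = (b : ℤ) * y := by exact_mod_cast h2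
  have h4 : (b : ℤ) ∣ (a : ℤ) := ⟨y, h3⟩
  exact Int.natCast_dvd_natCast.mp h4

/-- Every prime lies in a maximal ideal of the ring of algebraic integers. -/
theorem fm_exists_isPModular (p : ℕ) (hp : p.Prime) :
    ∃ M : Ideal Cfsg.AlgInt, Cfsg.IsPModular p M := by
  have hne : Ideal.span {(p : Cfsg.AlgInt)} ≠ ⊤ := by
    rw [Ne, Ideal.span_singleton_eq_top]
    intro hu
    obtain ⟨b, hb⟩ := hu.exists_right_inv
    have hb' : (p : ℂ) * (b : ℂ) = 1 := by
      have := congrArg (fun z : Cfsg.AlgInt => (z : ℂ)) hb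
      simpa using this
    have hp0 : (p : ℂ) ≠ 0 := by exact_mod_cast hp.ne_zero
    have h1 : IsIntegral ℤ (((1 : ℕ) : ℂ) / (p : ℂ)) := by
      have : ((1 : ℕ) : ℂ) / (p : ℂ) = (b : ℂ) := by
        rw [Nat.cast_one, eq_comm, eq_div_iff hp0, mul_comm]; exact hb'
      rw [this]; exact b.2
    have := fm_nat_dvd_of_isIntegral_div hp.ne_zero h1
    exact hp.one_lt.ne' (Nat.dvd_one.mp this)
  obtain ⟨M, hM, hle⟩ := Ideal.exists_le_maximal _ hne
  exact ⟨M, hp, hM, hle (Ideal.subset_span rfl)⟩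

variable {G : Type*} [Group G] [Fintype G]

/-- The elements of the group algebra with coefficients in the local ring. -/
def faInt (M : Ideal Cfsg.AlgInt) [hP : M.IsPrime] :
    Subalgebra (Helper81.localSubring M) (MonoidAlgebra ℂ G) where
  carrier := {x | ∀ g, x.coeff g ∈ Helper81.localSubring M}
  mul_mem' := fun {a b} ha hb g => by
    rw [fa_coeff_mul]
    exact Subring.sum_mem _ fun h _ => Subring.mul_mem _ (ha h) (hb _)
  add_mem' := fun {a b} ha hb g => by
    rw [MonoidAlgebra.coeff_add, Finsupp.add_apply]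
    exact Subring.add_mem _ (ha g) (hb g)
  algebraMap_mem' := fun r g => by
    classical
    rw [MonoidAlgebra.coe_algebraMap, Function.comp_apply, MonoidAlgebra.coeff_single,
      Finsupp.single_apply]
    split_ifs
    · exact r.2
    · exact Subring.zero_mem _

theorem fm_isIntegral_sum (Q R : Subgroup G) :
    IsIntegral ℤ (faSumK ℂ Q * faSumK ℂ R * faSumK ℂ Q) := by
  classical
  let ι : MonoidAlgebra ℤ G →ₐ[ℤ] MonoidAlgebra ℂ G :=
    MonoidAlgebra.lift ℤ (MonoidAlgebra ℂ G) G (MonoidAlgebra.of ℂ G)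
  have hι : ∀ H : Subgroup G, ι (faSumK ℤ H) = faSumK ℂ H := by
    intro H
    unfold faSumK
    rw [map_sum]
    refine Finset.sum_congr rfl fun g _ => ?_
    split_ifs
    · rw [MonoidAlgebra.lift_single, one_smul, MonoidAlgebra.of_apply]
    · rw [map_zero]
  have h1 : IsIntegral ℤ (faSumK ℤ Q * faSumK ℤ R * faSumK ℤ Q) := IsIntegral.of_finite ℤ _
  have h2 := IsIntegral.map ι h1
  rwa [map_mul, map_mul, hι, hι] at h2

/-- The augmentation. -/
noncomputable def faAug : MonoidAlgebra ℂ G →ₐ[ℂ] ℂ := MonoidAlgebra.lift ℂ ℂ G 1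

theorem fa_aug_apply (x : MonoidAlgebra ℂ G) : faAug x = ∑ h, x.coeff h := by
  unfold faAug
  rw [MonoidAlgebra.lift_apply, Finsupp.sum_fintype]
  · simp
  · intro i; simp

open Classical in
theorem fa_aug_sum (H : Subgroup G) : faAug (faSumK ℂ H) = (Nat.card H : ℂ) := by
  rw [fa_aug_apply]
  simp only [fa_sumK_coeff]
  rw [Finset.sum_boole, Nat.card_eq_fintype_card, Fintype.card_subtype]

omit [Fintype G] in
/-- **Main theorem.**  If `Q`, `R` are subgroups of coprime orders prime to `p` and `G` has exactly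
`|Q| * |R|` elements of order prime to `p`, then these elements form a normal subgroup. -/
theorem frob_main [Finite G] (p : ℕ) (hp : p.Prime) (Q R : Subgroup G) (m : ℕ)
    (hcop : (Nat.card Q).Coprime (Nat.card R)) (hpQ : ¬ p ∣ Nat.card Q) (hpR : ¬ p ∣ Nat.card R)
    (hG : Nat.card G = m * (Nat.card Q * Nat.card R))
    (hcount : Nat.card {g : G // ¬ p ∣ orderOf g} = Nat.card Q * Nat.card R) :
    ∃ N : Subgroup G, N.Normal ∧ Nat.card N = Nat.card Q * Nat.card R := by
  classical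
  haveI : Fintype G := Fintype.ofFinite G
  obtain ⟨M, hM⟩ := fm_exists_isPModular p hp
  have hP : M.IsPrime := Helper81.isPrime_of_isPModular hM
  set nQ := Nat.card Q with hnQ
  set nR := Nat.card R with hnR
  have hnQ0 : (nQ : ℂ) ≠ 0 := by
    have : nQ ≠ 0 := Nat.card_pos.ne'
    exact_mod_cast this
  have hnR0 : (nR : ℂ) ≠ 0 := by
    have : nR ≠ 0 := Nat.card_pos.ne'
    exact_mod_cast this
  set SQ : MonoidAlgebra ℂ G := faSumK ℂ Q with hSQ
  set SR : MonoidAlgebra ℂ G := faSumK ℂ R with hSR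
  set t₀ : MonoidAlgebra ℂ G := SQ * SR * SQ with ht₀
  set N₀ : ℕ := nQ * nR * nQ with hN₀
  have hN₀p : ¬ p ∣ N₀ := by
    intro h
    rcases (hp.dvd_mul.mp h) with h | h
    · rcases (hp.dvd_mul.mp h) with h | h
      · exact hpQ h
      · exact hpR h
    · exact hpQ h
  have hint : IsIntegral ℤ t₀ := fm_isIntegral_sum Q R
  obtain ⟨q₁, hidem, heval⟩ := fi_exists_poly hM t₀ hint N₀ hN₀p
  set f : MonoidAlgebra ℂ G := Polynomial.aeval t₀ (Polynomial.X * q₁) with hf
  set w : MonoidAlgebra ℂ G := Polynomial.aeval t₀ q₁ with hw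
  have hfw : f = t₀ * w := by rw [hf, map_mul, Polynomial.aeval_X]
  have hfw' : f = w * t₀ := by rw [hf, mul_comm Polynomial.X q₁, map_mul, Polynomial.aeval_X]
  have hff : f * f = f := hidem
  -- integrality of the coefficients
  have hSint : ∀ H : Subgroup G, faSumK ℂ H ∈ faInt (G := G) M := fun H g => by
    rw [fa_sumK_coeff]
    split_ifs
    · exact Subring.one_mem _
    · exact Subring.zero_mem _
  have ht₀int : t₀ ∈ faInt (G := G) M :=
    Subalgebra.mul_mem _ (Subalgebra.mul_mem _ (hSint Q) (hSint R)) (hSint Q)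
  have hfint : f ∈ faInt (G := G) M := by
    have h1 := Polynomial.aeval_subalgebra_coe (Polynomial.X * q₁) (faInt (G := G) M)
      ⟨t₀, ht₀int⟩
    rw [hf, ← h1]
    exact Subtype.property _
  -- augmentation
  have haugt : faAug t₀ = ((N₀ : Helper81.localSubring M) : ℂ) := by
    rw [ht₀, map_mul, map_mul, hSQ, hSR, fa_aug_sum, fa_aug_sum, hN₀]
    push_cast; ring
  have haug : ∑ h : G, f.coeff h = 1 := by
    rw [← fa_aug_apply]
    have h1 := Polynomial.aeval_algHom_apply
      ((faAug (G := G)).restrictScalars (Helper81.localSubring M)) t₀ (Polynomial.X * q₁)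
    have h2 : ((faAug (G := G)).restrictScalars (Helper81.localSubring M)) t₀ =
        algebraMap (Helper81.localSubring M) ℂ (N₀ : Helper81.localSubring M) := haugt
    rw [h2, Polynomial.aeval_algebraMap_apply, Polynomial.coe_aeval_eq_eval, heval] at h1
    rw [hf]
    exact h1.symm.trans (map_one _)
  -- the averaging idempotents
  set eQ : MonoidAlgebra ℂ G := (nQ : ℂ)⁻¹ • SQ with heQ
  set eR : MonoidAlgebra ℂ G := (nR : ℂ)⁻¹ • SR with heR
  have hSQ2 : SQ * SQ = (nQ : ℂ) • SQ := fa_sum_mul_self Q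
  have hSR2 : SR * SR = (nR : ℂ) • SR := fa_sum_mul_self R
  have heQS : eQ * SQ = SQ := by
    rw [heQ, smul_mul_assoc, hSQ2, smul_smul, inv_mul_cancel₀ hnQ0, one_smul]
  have hSeQ : SQ * eQ = SQ := by
    rw [heQ, mul_smul_comm, hSQ2, smul_smul, inv_mul_cancel₀ hnQ0, one_smul]
  have heQ2 : eQ * eQ = eQ := by
    conv_lhs => rw [heQ, mul_smul_comm, heQS]
  have heR2 : eR * eR = eR := by
    have heRS : eR * SR = SR := by
      rw [heR, smul_mul_assoc, hSR2, smul_smul, inv_mul_cancel₀ hnR0, one_smul]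
    conv_lhs => rw [heR, mul_smul_comm, heRS]
  have heQt : eQ * t₀ = t₀ := by rw [ht₀, ← mul_assoc, ← mul_assoc, heQS]
  have hteQ : t₀ * eQ = t₀ := by rw [ht₀, mul_assoc, hSeQ]
  have heQf : eQ * f = f := by rw [hfw, ← mul_assoc, heQt]
  have hfeQ : f * eQ = f := by rw [hfw', mul_assoc, hteQ]
  have hinj : ∀ x : MonoidAlgebra ℂ G, x * f = x → x * eR = 0 → x = 0 := by
    intro x hxf hxR
    have hxQ : x * eQ = x := by
      calc x * eQ = x * f * eQ := by rw [hxf]
        _ = x * (f * eQ) := mul_assoc _ _ _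
        _ = x := by rw [hfeQ, hxf]
    have hxSQ : x * SQ = (nQ : ℂ) • x := by
      have h1 : SQ = (nQ : ℂ) • eQ := by rw [heQ, smul_smul, mul_inv_cancel₀ hnQ0, one_smul]
      conv_lhs => rw [h1, mul_smul_comm, hxQ]
    have hxSR : x * SR = 0 := by
      have h1 : SR = (nR : ℂ) • eR := by rw [heR, smul_smul, mul_inv_cancel₀ hnR0, one_smul]
      rw [h1, mul_smul_comm, hxR, smul_zero]
    have hxt : x * t₀ = 0 := by
      rw [ht₀, ← mul_assoc, ← mul_assoc, hxSQ, smul_mul_assoc, hxSR, smul_zero, zero_mul]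
    calc x = x * f := hxf.symm
      _ = x * t₀ * w := by rw [hfw]; exact (mul_assoc x t₀ w).symm
      _ = 0 := by rw [hxt, zero_mul]
  -- dimension count
  have hcard : (Fintype.card G : ℂ) = (m : ℂ) * ((nQ : ℂ) * (nR : ℂ)) := by
    have h1 := hG
    rw [Nat.card_eq_fintype_card] at h1
    exact_mod_cast h1
  have htrQR : faTr eQ eR = (m : ℂ) := by
    rw [heQ, heR, hSQ, hSR, fa_tr_avg Q R hcop, hcard, ← hnQ, ← hnR]
    field_simp
  have hd1 := fa_tr_idem heQ2 heR2
  have hd2 := fa_tr_idem hff hff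
  have hle := fa_finrank_le hff heQf hinj
  have hmQR : Module.finrank ℂ (LinearMap.range (faLam eQ eR)) = m := by
    have h1 : ((Module.finrank ℂ (LinearMap.range (faLam eQ eR)) : ℕ) : ℂ) = (m : ℂ) := by
      rw [← hd1, htrQR]
    exact_mod_cast h1
  rw [hmQR] at hle
  set d' : ℕ := Module.finrank ℂ (LinearMap.range (faLam f f)) with hd'
  -- the character
  set Φ : G → ℂ := faPhi f with hΦ
  have hchar : IsCharacter G Φ := fa_phi_isCharacter hff
  have hvan : ∀ g : G, p ∣ orderOf g → Φ g = 0 := by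
    intro g hg
    set ζ : ℂ := Complex.exp (2 * Real.pi * Complex.I / p) with hζdef
    have hprim : IsPrimitiveRoot ζ p := Complex.isPrimitiveRoot_exp p hp.ne_zero
    have hζp : ζ ^ p = 1 := hprim.pow_eq_one
    have hζ1 : ζ ≠ 1 := hprim.ne_one hp.one_lt
    have hζg : ζ ^ orderOf g = 1 := by
      obtain ⟨k, hk⟩ := hg
      rw [hk, pow_mul, hζp, one_pow]
    obtain ⟨d, hdg, hdp⟩ := fa_exists_d g ζ hζg p hζp
    rw [hΦ, ← fa_trace_P_E f g]
    apply fv_trace_eq_zero hM (faE f) (faP g) d ζ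
    · rw [fa_E_mul, hff]
    · exact fa_P_E f g
    · intro x y
      simp only [faP, Matrix.of_apply]
      by_cases hxy : x = g * y
      · rw [hxy, hdg]; simp
      · simp [hxy]
    · exact hζ1
    · exact hζp
    · exact hdp
    · intro x y; exact hfint _
  have hsum1 : ∑ g, Φ g = (Fintype.card G : ℂ) := by rw [hΦ, fa_sum_phi, haug, mul_one]
  have hsum2 : ∑ g, Φ g * Φ g⁻¹ = (Fintype.card G : ℂ) * (d' : ℂ) := by
    rw [hΦ, fa_sum_phi_sq, hd2]
  have hconj : ∀ g, Φ g⁻¹ = (starRingEnd ℂ) (Φ g) := Helper79.isCharacter_inv_eq_conj hchar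
  -- Cauchy–Schwarz
  set χ : G → ℂ := fun g => if p ∣ orderOf g then 0 else (m : ℂ) with hχ
  have hL : ∑ g : G, (if p ∣ orderOf g then (0 : ℂ) else 1) = (nQ : ℂ) * (nR : ℂ) := by
    have h1 : ∑ g : G, (if p ∣ orderOf g then (0 : ℂ) else 1) =
        ∑ g : G, (if ¬ p ∣ orderOf g then (1 : ℂ) else 0) := by
      refine Finset.sum_congr rfl fun g _ => ?_
      split_ifs <;> rfl
    rw [h1, Finset.sum_boole]
    have h2 : (Finset.univ.filter (fun g : G => ¬ p ∣ orderOf g)).card = nQ * nR := by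
      rw [← hcount, Nat.card_eq_fintype_card, Fintype.card_subtype]
    rw [h2]; push_cast; ring
  have hkey : ∀ g, (Φ g - χ g) * (starRingEnd ℂ) (Φ g - χ g) =
      Φ g * Φ g⁻¹ - (m : ℂ) * Φ g - (m : ℂ) * Φ g⁻¹ +
        (m : ℂ) ^ 2 * (if p ∣ orderOf g then 0 else 1) := by
    intro g
    by_cases hg : p ∣ orderOf g
    · have h1 := hvan g hg
      have h2 : Φ g⁻¹ = 0 := by rw [hconj, h1, map_zero]
      simp [hχ, hg, h1, h2]
    · simp only [hχ, hg, if_false, map_sub, Complex.conj_natCast, ← hconj]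
      ring
  have hinv : ∑ g, Φ g⁻¹ = (Fintype.card G : ℂ) := by
    rw [← hsum1]; exact Equiv.sum_comp (Equiv.inv G) Φ
  have hT : ∑ g, (Φ g - χ g) * (starRingEnd ℂ) (Φ g - χ g) =
      (Fintype.card G : ℂ) * ((d' : ℂ) - m) := by
    simp only [hkey]
    rw [Finset.sum_add_distrib, Finset.sum_sub_distrib, Finset.sum_sub_distrib,
      ← Finset.mul_sum, ← Finset.mul_sum, ← Finset.mul_sum, hsum2, hsum1, hL, hinv, hcard]
    ring
  have hT' : ∑ g, Complex.normSq (Φ g - χ g) = (Fintype.card G : ℝ) * ((d' : ℝ) - m) := by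
    have h1 : ((∑ g, Complex.normSq (Φ g - χ g) : ℝ) : ℂ) =
        (((Fintype.card G : ℝ) * ((d' : ℝ) - m) : ℝ) : ℂ) := by
      push_cast
      rw [← hT]
      refine Finset.sum_congr rfl fun g _ => ?_
      rw [Complex.mul_conj]
    exact_mod_cast h1
  have hle0 : ∑ g, Complex.normSq (Φ g - χ g) ≤ 0 := by
    rw [hT']
    apply mul_nonpos_of_nonneg_of_nonpos (Nat.cast_nonneg _)
    have h1 : (d' : ℝ) ≤ m := by exact_mod_cast hle
    linarith
  have hnn : ∀ g ∈ (Finset.univ : Finset G), 0 ≤ Complex.normSq (Φ g - χ g) :=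
    fun g _ => Complex.normSq_nonneg _
  have hsum0 : ∑ g, Complex.normSq (Φ g - χ g) = 0 := le_antisymm hle0 (Finset.sum_nonneg hnn)
  have hΦχ : ∀ g, Φ g = χ g := fun g =>
    sub_eq_zero.mp (Complex.normSq_eq_zero.mp
      ((Finset.sum_eq_zero_iff_of_nonneg hnn).mp hsum0 g (Finset.mem_univ g)))
  have hm0 : (m : ℂ) ≠ 0 := by
    intro h
    have h1 : m = 0 := by exact_mod_cast h
    rw [h1, zero_mul] at hG
    exact (Nat.card_pos (α := G)).ne' hG
  have hp1 : ¬ p ∣ orderOf (1 : G) := by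
    rw [orderOf_one]; exact fun h => hp.one_lt.ne' (Nat.dvd_one.mp h)
  have hΦ1 : Φ 1 = (m : ℂ) := by
    rw [hΦχ]
    show (if p ∣ orderOf (1 : G) then (0 : ℂ) else (m : ℂ)) = m
    rw [if_neg hp1]
  refine ⟨Helper79.charKer hchar, Helper79.charKer_normal hchar, ?_⟩
  rw [Helper79.card_charKer, ← hcount]
  apply Nat.card_congr
  apply Equiv.subtypeEquivRight
  intro g
  rw [hΦ1, hΦχ]
  by_cases hg : p ∣ orderOf g
  · simp [hχ, hg, hm0.symm]
  · simp [hχ, hg]

end FrobMain

end Cfsg.Agent.Helper67
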