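import Mathlib

/-!
# Frobenius' eigenvalue-arc argument for finite unitary groups

Abstract setting: a finite group `G` acting on a finite dimensional complex inner product
space by maps preserving the inner product.  Elements all of whose eigenvalues have real
part `> √3/2` commute pairwise.
-/

namespace Cfsg.Agent.Helper67

open Module.End

section Alg

variable {V : Type*} [AddCommGroup V] [Module ℂ V] [FiniteDimensional ℂ V]
variable {G : Type*} [Group G] [Finite G]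

theorem jarc_isSemisimple (ρ : G →* (V →ₗ[ℂ] V)) (g : G) : Module.End.IsSemisimple (ρ g) := by
  have hm : 0 < orderOf g := orderOf_pos g
  have hsq : Squarefree (Polynomial.X ^ orderOf g - Polynomial.C (1:ℂ)) :=
    (Polynomial.separable_X_pow_sub_C (1:ℂ) (by exact_mod_cast hm.ne') one_ne_zero).squarefree
  apply Module.End.isSemisimple_of_squarefree_aeval_eq_zero hsq
  rw [map_sub, map_pow, Polynomial.aeval_X, Polynomial.aeval_C, ← map_pow, pow_orderOf_eq_one,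
    map_one, map_one, sub_self]

theorem jarc_eigenvalue_pow (ρ : G →* (V →ₗ[ℂ] V)) (g : G) (μ : ℂ)
    (hμ : HasEigenvalue (ρ g) μ) : μ ^ orderOf g = 1 := by
  obtain ⟨v, hv⟩ := hμ.exists_hasEigenvector
  have h1 := hv.pow_apply (orderOf g)
  rw [← map_pow, pow_orderOf_eq_one, map_one] at h1
  have h2 : (μ ^ orderOf g - 1) • v = 0 := by
    rw [sub_smul, one_smul, ← h1]; simp
  rcases smul_eq_zero.mp h2 with h | h
  · exact sub_eq_zero.mp h
  · exact absurd h hv.2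

theorem jarc_eigenvalue_norm (ρ : G →* (V →ₗ[ℂ] V)) (g : G) (μ : ℂ)
    (hμ : HasEigenvalue (ρ g) μ) : ‖μ‖ = 1 :=
  Complex.norm_eq_one_of_pow_eq_one (jarc_eigenvalue_pow ρ g μ hμ) (orderOf_pos g).ne'

theorem jarc_apply_inv_apply (ρ : G →* (V →ₗ[ℂ] V)) (g : G) (v : V) :
    ρ g⁻¹ (ρ g v) = v := by
  rw [← Module.End.mul_apply, ← map_mul]; simp

theorem jarc_apply_apply_inv (ρ : G →* (V →ₗ[ℂ] V)) (g : G) (v : V) :
    ρ g (ρ g⁻¹ v) = v := by
  rw [← Module.End.mul_apply, ← map_mul]; simp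

theorem jarc_eigen_conj (ρ : G →* (V →ₗ[ℂ] V)) (g h : G) (μ : ℂ)
    (hμ : HasEigenvalue (ρ (h * g * h⁻¹)) μ) : HasEigenvalue (ρ g) μ := by
  obtain ⟨v, hv⟩ := hμ.exists_hasEigenvector
  have hv1 := hv.apply_eq_smul
  have hne : ρ h⁻¹ v ≠ 0 := by
    intro h0
    have := jarc_apply_apply_inv ρ h v
    rw [h0, map_zero] at this
    exact hv.2 this.symm
  refine hasEigenvalue_of_hasEigenvector (x := ρ h⁻¹ v) ⟨mem_eigenspace_iff.mpr ?_, hne⟩
  have : ρ g (ρ h⁻¹ v) = ρ h⁻¹ (ρ (h * g * h⁻¹) v) := by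
    rw [← Module.End.mul_apply, ← Module.End.mul_apply, ← map_mul, ← map_mul]
    congr 2; group
  rw [this, hv1, map_smul]

/-- A common eigenvector for two commuting endomorphisms, inside a given eigenspace. -/
theorem jarc_common_eigenvector (S Y : V →ₗ[ℂ] V) (hc : Commute S Y) (μ : ℂ)
    (hμ : HasEigenvalue S μ) :
    ∃ (c : ℂ) (w : V), w ≠ 0 ∧ S w = μ • w ∧ Y w = c • w := by
  have hmaps : Set.MapsTo Y (eigenspace S μ) (eigenspace S μ) := by
    intro w hw
    have hw' : S w = μ • w := mem_eigenspace_iff.mp hw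
    refine mem_eigenspace_iff.mpr ?_
    have : S (Y w) = Y (S w) := by
      rw [← Module.End.mul_apply, ← Module.End.mul_apply, hc.eq]
    rw [this, hw', map_smul]
  have hnt : Nontrivial (eigenspace S μ) := (Submodule.nontrivial_iff_ne_bot).mpr hμ
  obtain ⟨c, hc'⟩ := Module.End.exists_eigenvalue (Y.restrict hmaps)
  obtain ⟨w, hw⟩ := hc'.exists_hasEigenvector
  refine ⟨c, (w : V), ?_, mem_eigenspace_iff.mp w.2, ?_⟩
  · intro h0
    exact hw.2 (Subtype.ext h0)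
  · have := congrArg Subtype.val hw.apply_eq_smul
    exact this

/-- Arc index of a complex number: which of the twelve half-open arcs of length `π/6`
its argument lies in. -/
noncomputable def jarcCls (z : ℂ) : ℤ := ⌈Complex.arg z * 6 / Real.pi⌉

theorem jarcCls_mem (z : ℂ) : jarcCls z ∈ Finset.Icc (-5 : ℤ) 6 := by
  have h1 := Complex.neg_pi_lt_arg z
  have h2 := Complex.arg_le_pi z
  have hpi := Real.pi_pos
  rw [Finset.mem_Icc]
  constructor
  · have : ((-6 : ℤ) : ℝ) < Complex.arg z * 6 / Real.pi := by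
      rw [lt_div_iff₀ hpi]; push_cast; nlinarith
    have := Int.lt_ceil.mpr this
    unfold jarcCls; omega
  · unfold jarcCls
    rw [Int.ceil_le, div_le_iff₀ hpi]; push_cast; nlinarith

theorem jarc_re_of_cls_eq (z w : ℂ) (hz : ‖z‖ = 1) (hw : ‖w‖ = 1)
    (h : jarcCls z = jarcCls w) : Real.sqrt 3 / 2 < (z⁻¹ * w).re := by
  have hpi := Real.pi_pos
  have hab : |Complex.arg w - Complex.arg z| < Real.pi / 6 := by
    have h1 := Int.ceil_lt_add_one (Complex.arg z * 6 / Real.pi)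
    have h2 := Int.le_ceil (Complex.arg z * 6 / Real.pi)
    have h3 := Int.ceil_lt_add_one (Complex.arg w * 6 / Real.pi)
    have h4 := Int.le_ceil (Complex.arg w * 6 / Real.pi)
    unfold jarcCls at h
    rw [h] at h1 h2
    have h5 : |Complex.arg w * 6 / Real.pi - Complex.arg z * 6 / Real.pi| < 1 := by
      rw [abs_lt]; constructor <;> linarith
    have h6 : Complex.arg w * 6 / Real.pi - Complex.arg z * 6 / Real.pi
        = (Complex.arg w - Complex.arg z) * (6 / Real.pi) := by ring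
    rw [h6, abs_mul, abs_of_pos (by positivity : (0:ℝ) < 6 / Real.pi),
      ← lt_div_iff₀ (by positivity)] at h5
    have h7 : (1 : ℝ) / (6 / Real.pi) = Real.pi / 6 := by field_simp
    rw [h7] at h5
    exact h5
  have ez : Complex.exp (Complex.arg z * Complex.I) = z := by
    have := Complex.norm_mul_exp_arg_mul_I z
    rw [hz] at this; simpa using this
  have ew : Complex.exp (Complex.arg w * Complex.I) = w := by
    have := Complex.norm_mul_exp_arg_mul_I w
    rw [hw] at this; simpa using this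
  have hzw : z⁻¹ * w
      = Complex.exp (((Complex.arg w - Complex.arg z : ℝ) : ℂ) * Complex.I) := by
    conv_lhs => rw [← ez, ← ew]
    rw [← Complex.exp_neg, ← Complex.exp_add]
    congr 1; push_cast; ring
  rw [hzw, Complex.exp_ofReal_mul_I_re, ← Real.cos_abs, ← Real.cos_pi_div_six]
  exact Real.cos_lt_cos_of_nonneg_of_le_pi (abs_nonneg _) (by linarith) hab

/-- Pigeonhole: an abelian subgroup meets any subgroup containing all elements whose
eigenvalues have real part `> √3/2` in a subgroup of index at most `12 ^ dim V`. -/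
theorem jarc_index_bound (ρ : G →* (V →ₗ[ℂ] V)) (A H : Subgroup G)
    (hH : ∀ x ∈ H, ∀ y ∈ H, x * y = y * x)
    (hA : ∀ g : G, (∀ μ : ℂ, HasEigenvalue (ρ g) μ → Real.sqrt 3 / 2 < μ.re) → g ∈ A) :
    (A.subgroupOf H).index ≤ 12 ^ Module.finrank ℂ V := by
  classical
  let f : H → Module.End ℂ V := fun h => ρ h
  have hcomm : ∀ i j : H, Commute (f i) (f j) := by
    intro i j
    show ρ i * ρ j = ρ j * ρ i
    rw [← map_mul, ← map_mul, hH i i.2 j j.2]
  let W : (H → ℂ) → Submodule ℂ V := fun χ => ⨅ h, (f h).maxGenEigenspace (χ h)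
  have htop : ⨆ χ, W χ = ⊤ :=
    iSup_iInf_maxGenEigenspace_eq_top_of_iSup_maxGenEigenspace_eq_top_of_commute f
      (fun i j _ => hcomm i j) (fun i => iSup_maxGenEigenspace_eq_top (f i))
  have hind : iSupIndep W :=
    independent_iInf_maxGenEigenspace_of_forall_mapsTo f
      (fun i j φ => mapsTo_maxGenEigenspace_of_comm (hcomm j i) φ)
  let _ : Fintype {χ // W χ ≠ ⊥} := hind.fintypeNeBotOfFiniteDimensional
  have hcard : Fintype.card {χ // W χ ≠ ⊥} ≤ Module.finrank ℂ V :=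
    hind.subtype_ne_bot_le_finrank
  have hW : ∀ χ (v : V), v ∈ W χ → ∀ h : H, ρ h v = χ h • v := by
    intro χ v hv h
    have h1 : v ∈ (f h).maxGenEigenspace (χ h) := (Submodule.mem_iInf _).mp hv h
    rw [(jarc_isSemisimple ρ (h : G)).isFinitelySemisimple.maxGenEigenspace_eq_eigenspace] at h1
    exact mem_eigenspace_iff.mp h1
  have hWnorm : ∀ χ, W χ ≠ ⊥ → ∀ h : H, ‖χ h‖ = 1 := by
    intro χ hχ h
    obtain ⟨v, hv, hv0⟩ := (Submodule.ne_bot_iff _).mp hχ
    exact jarc_eigenvalue_norm ρ (h : G) (χ h)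
      (hasEigenvalue_of_hasEigenvector ⟨mem_eigenspace_iff.mpr (hW χ v hv h), hv0⟩)
  let cls : H → ({χ // W χ ≠ ⊥} → Finset.Icc (-5 : ℤ) 6) :=
    fun h χ => ⟨jarcCls (χ.1 h), jarcCls_mem _⟩
  have key : ∀ h k : H, cls h = cls k → (h : G)⁻¹ * k ∈ A := by
    intro h k hhk
    apply hA
    intro μ hμ
    have hex : ∃ χ : {χ // W χ ≠ ⊥}, μ = (χ.1 h)⁻¹ * χ.1 k := by
      by_contra hcon
      push Not at hcon
      have hrange : (⊤ : Submodule ℂ V) ≤ LinearMap.range (ρ ((h:G)⁻¹ * k) - μ • (1 : V →ₗ[ℂ] V)) := by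
        rw [← htop]
        refine iSup_le fun χ => ?_
        by_cases hχ : W χ = ⊥
        · rw [hχ]; exact bot_le
        · intro v hv
          have h1 := hW χ v hv h
          have h2 := hW χ v hv k
          have hn := hWnorm χ hχ h
          have hc0 : χ h ≠ 0 := by intro h0; rw [h0] at hn; simp at hn
          have h3 : ρ (h:G)⁻¹ v = (χ h)⁻¹ • v := by
            have := jarc_apply_inv_apply ρ (h:G) v
            rw [h1, map_smul] at this
            calc ρ (h:G)⁻¹ v = (χ h)⁻¹ • (χ h • ρ (h:G)⁻¹ v) := by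
                  rw [smul_smul, inv_mul_cancel₀ hc0, one_smul]
              _ = (χ h)⁻¹ • v := by rw [this]
          have h4 : ρ ((h:G)⁻¹ * k) v = ((χ h)⁻¹ * χ k) • v := by
            rw [map_mul, Module.End.mul_apply, h2, map_smul, h3, smul_smul, mul_comm]
          have hne : (χ h)⁻¹ * χ k - μ ≠ 0 := sub_ne_zero.mpr (Ne.symm (hcon ⟨χ, hχ⟩))
          refine ⟨((χ h)⁻¹ * χ k - μ)⁻¹ • v, ?_⟩
          simp only [LinearMap.sub_apply, LinearMap.smul_apply, Module.End.one_apply, map_smul,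
            h4]
          rw [← sub_smul, smul_smul, inv_mul_cancel₀ hne, one_smul]
      have hsurj : Function.Surjective (ρ ((h:G)⁻¹ * k) - μ • (1 : V →ₗ[ℂ] V)) :=
        LinearMap.range_eq_top.mp (top_le_iff.mp hrange)
      have hinj := (LinearMap.injective_iff_surjective).mpr hsurj
      obtain ⟨v, hv⟩ := hμ.exists_hasEigenvector
      have hz : (ρ ((h:G)⁻¹ * k) - μ • (1 : V →ₗ[ℂ] V)) v = 0 := by
        rw [LinearMap.sub_apply, hv.apply_eq_smul]; simp
      exact hv.2 (hinj (by rw [hz, map_zero]))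
    obtain ⟨χ, rfl⟩ := hex
    apply jarc_re_of_cls_eq _ _ (hWnorm χ.1 χ.2 h) (hWnorm χ.1 χ.2 k)
    have := congrFun hhk χ
    exact congrArg Subtype.val this
  have hinj : Function.Injective (fun q : H ⧸ A.subgroupOf H => cls q.out) := by
    intro q q' hqq
    have := key q.out q'.out hqq
    rw [← QuotientGroup.out_eq' q, ← QuotientGroup.out_eq' q']
    exact QuotientGroup.eq.mpr (by simpa [Subgroup.mem_subgroupOf] using this)
  calc (A.subgroupOf H).index = Nat.card (H ⧸ A.subgroupOf H) := rfl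
    _ ≤ Nat.card ({χ // W χ ≠ ⊥} → Finset.Icc (-5 : ℤ) 6) :=
        Nat.card_le_card_of_injective _ hinj
    _ = 12 ^ Fintype.card {χ // W χ ≠ ⊥} := by
        rw [Nat.card_eq_fintype_card, Fintype.card_fun]; simp
    _ ≤ 12 ^ Module.finrank ℂ V := Nat.pow_le_pow_right (by norm_num) hcard

end Alg

section Inner

variable {V : Type*} [NormedAddCommGroup V] [InnerProductSpace ℂ V] [FiniteDimensional ℂ V]
variable {G : Type*} [Group G] [Finite G] (ρ : G →* (V →ₗ[ℂ] V))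

theorem jarc_norm_map (hinv : ∀ g v w, inner ℂ (ρ g v) (ρ g w) = inner ℂ v w) (g : G) (v : V) :
    ‖ρ g v‖ = ‖v‖ := by
  have := hinv g v v
  rw [inner_self_eq_norm_sq_to_K, inner_self_eq_norm_sq_to_K] at this
  have h2 : ‖ρ g v‖ ^ 2 = ‖v‖ ^ 2 := by exact_mod_cast this
  exact (sq_eq_sq₀ (norm_nonneg _) (norm_nonneg _)).mp h2

/-- Rayleigh quotient bound: if all eigenvalues have real part `> √3/2`, then the
numerical range is bounded below by some `m > √3/2`. -/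
theorem jarc_rayleigh (hinv : ∀ g v w, inner ℂ (ρ g v) (ρ g w) = inner ℂ v w) (y : G)
    (hy : ∀ μ : ℂ, HasEigenvalue (ρ y) μ → Real.sqrt 3 / 2 < μ.re) :
    ∃ m : ℝ, Real.sqrt 3 / 2 < m ∧ ∀ v : V, m * ‖v‖ ^ 2 ≤ (inner ℂ (ρ y v) v).re := by
  have hs3 : Real.sqrt 3 < 2 := by
    rw [Real.sqrt_lt' (by norm_num)]; norm_num
  rcases subsingleton_or_nontrivial V with hV | hV
  · refine ⟨1, by linarith, fun v => ?_⟩
    have : v = 0 := Subsingleton.elim _ _
    subst this; simp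
  · set S : V →ₗ[ℂ] V := (1/2 : ℂ) • (ρ y + ρ y⁻¹) with hS
    have hadj : ∀ v w, inner ℂ (ρ y v) w = inner ℂ v (ρ y⁻¹ w) := by
      intro v w
      have := hinv y⁻¹ (ρ y v) w
      rw [← this, jarc_apply_inv_apply]
    have hadj' : ∀ v w, inner ℂ (ρ y⁻¹ v) w = inner ℂ v (ρ y w) := by
      intro v w
      have := hinv y (ρ y⁻¹ v) w
      rw [← this, jarc_apply_apply_inv]
    have hSre : ∀ v, (inner ℂ (S v) v).re = (inner ℂ (ρ y v) v).re := by
      intro v
      have h1 : inner ℂ (ρ y⁻¹ v) v = (starRingEnd ℂ) (inner ℂ (ρ y v) v) := by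
        rw [hadj', inner_conj_symm]
      simp only [hS, LinearMap.smul_apply, LinearMap.add_apply, inner_smul_left, inner_add_left,
        h1]
      generalize inner ℂ (ρ y v) v = z
      have hhalf : (starRingEnd ℂ) (1/2 : ℂ) = 1/2 := by
        rw [show (1/2 : ℂ) = ((1/2 : ℝ) : ℂ) by push_cast; ring, Complex.conj_ofReal]
      rw [hhalf, Complex.add_conj]
      simp
    have hsym : S.IsSymmetric := by
      intro v w
      simp only [hS, LinearMap.smul_apply, LinearMap.add_apply, inner_smul_left,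
        inner_smul_right, inner_add_left, inner_add_right, hadj, hadj']
      have hhalf : (starRingEnd ℂ) (1/2 : ℂ) = 1/2 := by
        rw [show (1/2 : ℂ) = ((1/2 : ℝ) : ℂ) by push_cast; ring, Complex.conj_ofReal]
      rw [hhalf]
      ring
    have hev := hsym.hasEigenvalue_iInf_of_finiteDimensional
    set m := (⨅ x : { x : V // x ≠ 0 }, RCLike.re (inner ℂ (S x) x) / ‖(x : V)‖ ^ 2 : ℝ) with hm
    have hcYY : Commute (ρ y⁻¹) (ρ y) := ((Commute.refl y).inv_left).map ρ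
    have hcomm : Commute S (ρ y) := ((Commute.refl (ρ y)).add_left hcYY).smul_left _
    obtain ⟨c, w, hw0, hSw, hYw⟩ := jarc_common_eigenvector S (ρ y) hcomm _ hev
    have hnc : ‖c‖ = 1 := by
      have := jarc_norm_map ρ hinv y w
      rw [hYw, norm_smul] at this
      have hw0' : ‖w‖ ≠ 0 := norm_ne_zero_iff.mpr hw0
      field_simp at this
      exact this
    have hc0 : c ≠ 0 := by
      intro h0; rw [h0] at hnc; simp at hnc
    have hYinvw : ρ y⁻¹ w = c⁻¹ • w := by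
      have := jarc_apply_inv_apply ρ y w
      rw [hYw, map_smul] at this
      calc ρ y⁻¹ w = c⁻¹ • (c • ρ y⁻¹ w) := by rw [smul_smul, inv_mul_cancel₀ hc0, one_smul]
        _ = c⁻¹ • w := by rw [this]
    have hSw' : S w = ((c.re : ℝ) : ℂ) • w := by
      simp only [hS, LinearMap.smul_apply, LinearMap.add_apply, hYw, hYinvw]
      rw [← add_smul, smul_smul, Complex.inv_eq_conj hnc, Complex.add_conj]
      congr 1
      push_cast; ring
    have hmc : m = c.re := by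
      have h2 : ((m : ℝ) : ℂ) • w = ((c.re : ℝ) : ℂ) • w := hSw.symm.trans hSw'
      have h3 := smul_left_injective ℂ hw0 h2
      exact_mod_cast h3
    have hcev : HasEigenvalue (ρ y) c :=
      hasEigenvalue_of_hasEigenvector ⟨mem_eigenspace_iff.mpr hYw, hw0⟩
    refine ⟨m, by rw [hmc]; exact hy c hcev, fun v => ?_⟩
    rcases eq_or_ne v 0 with rfl | hv
    · simp
    · have hbdd : BddBelow (Set.range fun x : { x : V // x ≠ 0 } =>
          RCLike.re (inner ℂ (S x) x) / ‖(x : V)‖ ^ 2) := by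
        refine ⟨-1, ?_⟩
        rintro _ ⟨x, rfl⟩
        have hx0 : 0 < ‖(x : V)‖ := norm_pos_iff.mpr x.2
        have h1 : ‖inner ℂ (ρ y (x : V)) (x : V)‖ ≤ ‖ρ y (x : V)‖ * ‖(x : V)‖ :=
          norm_inner_le_norm _ _
        rw [jarc_norm_map ρ hinv] at h1
        have h2 : -‖inner ℂ (ρ y (x : V)) (x : V)‖ ≤ (inner ℂ (ρ y (x : V)) (x : V)).re := by
          have := Complex.abs_re_le_norm (inner ℂ (ρ y (x : V)) (x : V))
          have := neg_abs_le ((inner ℂ (ρ y (x : V)) (x : V)).re)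
          linarith
        show -1 ≤ RCLike.re (inner ℂ (S x) x) / ‖(x : V)‖ ^ 2
        rw [le_div_iff₀ (by positivity)]
        have h3 : RCLike.re (inner ℂ (S x) x) = (inner ℂ (ρ y (x : V)) (x : V)).re := hSre x
        rw [h3]
        nlinarith
      have h1 : m ≤ RCLike.re (inner ℂ (S v) v) / ‖v‖ ^ 2 := ciInf_le hbdd ⟨v, hv⟩
      have hv0 : 0 < ‖v‖ := norm_pos_iff.mpr hv
      rw [le_div_iff₀ (by positivity)] at h1
      have h3 : RCLike.re (inner ℂ (S v) v) = (inner ℂ (ρ y v) v).re := hSre v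
      rw [h3] at h1
      exact h1

/-- Operator norm of `ρ g - 1`. -/
noncomputable def jarcN (g : G) : ℝ := ‖LinearMap.toContinuousLinearMap (ρ g - 1)‖

theorem jarcN_nonneg (g : G) : 0 ≤ jarcN ρ g := norm_nonneg _

theorem jarcN_le_apply (g : G) (v : V) : ‖ρ g v - v‖ ≤ jarcN ρ g * ‖v‖ := by
  have := (LinearMap.toContinuousLinearMap (ρ g - 1)).le_opNorm v
  simpa [jarcN] using this

theorem jarcN_le_of_bound (g : G) {M : ℝ} (hM : 0 ≤ M) (h : ∀ v, ‖ρ g v - v‖ ≤ M * ‖v‖) :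
    jarcN ρ g ≤ M := by
  apply ContinuousLinearMap.opNorm_le_bound _ hM
  intro v
  simpa using h v

theorem jarcN_eq_zero (g : G) (h : jarcN ρ g = 0) : ρ g = 1 := by
  ext v
  have := jarcN_le_apply ρ g v
  rw [h, zero_mul] at this
  have h0 : ‖ρ g v - v‖ = 0 := le_antisymm this (norm_nonneg _)
  have := norm_eq_zero.mp h0
  simpa using sub_eq_zero.mp this

/-- If the numerical range of `ρ y` is bounded below by `m > √3/2` then `ρ y - √3/2` has
operator norm `< 1/2`. -/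
theorem jarc_center_bound (hinv : ∀ g v w, inner ℂ (ρ g v) (ρ g w) = inner ℂ v w) (y : G)
    (m : ℝ) (hm : Real.sqrt 3 / 2 < m) (hray : ∀ v : V, m * ‖v‖ ^ 2 ≤ (inner ℂ (ρ y v) v).re) :
    ∃ r : ℝ, 0 ≤ r ∧ r < 1 / 2 ∧
      ∀ v : V, ‖ρ y v - ((Real.sqrt 3 / 2 : ℝ) : ℂ) • v‖ ≤ r * ‖v‖ := by
  have h3 : Real.sqrt 3 ^ 2 = 3 := Real.sq_sqrt (by norm_num)
  have hs0 : 0 ≤ Real.sqrt 3 := Real.sqrt_nonneg 3
  set q : ℝ := 7 / 4 - Real.sqrt 3 * m with hq
  have hq4 : q < (1 / 2) ^ 2 := by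
    rw [hq]; nlinarith
  refine ⟨Real.sqrt q, Real.sqrt_nonneg q, (Real.sqrt_lt' (by norm_num)).mpr hq4, fun v => ?_⟩
  have hexp : ‖ρ y v - ((Real.sqrt 3 / 2 : ℝ) : ℂ) • v‖ ^ 2 ≤ q * ‖v‖ ^ 2 := by
    have e : ‖ρ y v - ((Real.sqrt 3 / 2 : ℝ) : ℂ) • v‖ ^ 2 = ‖ρ y v‖ ^ 2
        - 2 * (inner ℂ (ρ y v) (((Real.sqrt 3 / 2 : ℝ) : ℂ) • v)).re
        + ‖((Real.sqrt 3 / 2 : ℝ) : ℂ) • v‖ ^ 2 := @norm_sub_sq ℂ V _ _ _ _ _
    rw [e, inner_smul_right, Complex.re_ofReal_mul, norm_smul,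
      jarc_norm_map ρ hinv, Complex.norm_real, Real.norm_eq_abs,
      abs_of_nonneg (by positivity : (0:ℝ) ≤ Real.sqrt 3 / 2)]
    have := hray v
    have e3 : (Real.sqrt 3 / 2 * ‖v‖) ^ 2 = 3 / 4 * ‖v‖ ^ 2 := by
      rw [mul_pow, div_pow, h3]; norm_num
    have e4 := mul_le_mul_of_nonneg_left this hs0
    rw [hq, e3]
    linarith
  have h1 : ‖ρ y v - ((Real.sqrt 3 / 2 : ℝ) : ℂ) • v‖ ≤ Real.sqrt (q * ‖v‖ ^ 2) :=
    Real.le_sqrt_of_sq_le hexp
  rw [Real.sqrt_mul' q (by positivity), Real.sqrt_sq (norm_nonneg v)] at h1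
  exact h1

/-- Contraction: commutators with `y` shrink `‖ρ x - 1‖` by the factor `2 r`. -/
theorem jarc_contraction (hinv : ∀ g v w, inner ℂ (ρ g v) (ρ g w) = inner ℂ v w) (x y : G)
    (c : ℂ) (r : ℝ) (hr0 : 0 ≤ r) (hr : ∀ v : V, ‖ρ y v - c • v‖ ≤ r * ‖v‖) :
    jarcN ρ (x⁻¹ * y⁻¹ * x * y) ≤ 2 * r * jarcN ρ x := by
  have hN := jarcN_nonneg ρ x
  apply jarcN_le_of_bound ρ _ (by positivity)
  intro v
  have e1 : ρ (x⁻¹ * y⁻¹ * x * y) v - v
      = ρ (x⁻¹ * y⁻¹) (ρ x (ρ y v) - ρ y (ρ x v)) := by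
    have ha : ρ (x⁻¹ * y⁻¹ * x * y) = ρ (x⁻¹ * y⁻¹) * (ρ x * ρ y) := by
      rw [← map_mul, ← map_mul]; congr 1; group
    have hb : ρ (x⁻¹ * y⁻¹) * (ρ y * ρ x) = 1 := by
      rw [← map_mul, ← map_mul]
      have : x⁻¹ * y⁻¹ * (y * x) = 1 := by group
      rw [this, map_one]
    rw [map_sub, ha]
    have hb' := congrArg (fun f : V →ₗ[ℂ] V => f v) hb
    simp only [Module.End.mul_apply, Module.End.one_apply] at hb'
    rw [hb']
    rfl
  have e2 : ρ x (ρ y v) - ρ y (ρ x v)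
      = (ρ x (ρ y v - c • v) - (ρ y v - c • v)) - (ρ y (ρ x v - v) - c • (ρ x v - v)) := by
    simp only [map_sub, map_smul, smul_sub]
    abel
  rw [e1, jarc_norm_map ρ hinv, e2]
  have b1 : ‖ρ x (ρ y v - c • v) - (ρ y v - c • v)‖ ≤ jarcN ρ x * (r * ‖v‖) :=
    (jarcN_le_apply ρ x _).trans (mul_le_mul_of_nonneg_left (hr v) hN)
  have b2 : ‖ρ y (ρ x v - v) - c • (ρ x v - v)‖ ≤ r * (jarcN ρ x * ‖v‖) :=
    (hr _).trans (mul_le_mul_of_nonneg_left (jarcN_le_apply ρ x v) hr0)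
  calc ‖(ρ x (ρ y v - c • v) - (ρ y v - c • v)) - (ρ y (ρ x v - v) - c • (ρ x v - v))‖
      ≤ ‖ρ x (ρ y v - c • v) - (ρ y v - c • v)‖ + ‖ρ y (ρ x v - v) - c • (ρ x v - v)‖ :=
        norm_sub_le _ _
    _ ≤ jarcN ρ x * (r * ‖v‖) + r * (jarcN ρ x * ‖v‖) := add_le_add b1 b2
    _ = 2 * r * jarcN ρ x * ‖v‖ := by ring

/-- Frobenius' lemma: if `z = [x, y]` commutes with `y` and the numerical range of `ρ x`
avoids `0`, then `ρ z = 1`. -/
theorem jarc_frobenius (hinv : ∀ g v w, inner ℂ (ρ g v) (ρ g w) = inner ℂ v w) (x y : G)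
    (hcomm : Commute (ρ (x⁻¹ * y⁻¹ * x * y)) (ρ y))
    (hx : ∀ w : V, w ≠ 0 → inner ℂ (ρ x w) w ≠ 0) : ρ (x⁻¹ * y⁻¹ * x * y) = 1 := by
  by_contra hne
  set z := x⁻¹ * y⁻¹ * x * y with hz
  have hss := jarc_isSemisimple ρ z
  have htop := hss.iSup_eigenspace_eq_top
  have hex : ∃ ζ : ℂ, ζ ≠ 1 ∧ HasEigenvalue (ρ z) ζ := by
    by_contra hcon
    push Not at hcon
    apply hne
    have hle : (⊤ : Submodule ℂ V) ≤ eigenspace (ρ z) 1 := by
      rw [← htop]
      refine iSup_le fun ζ => ?_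
      by_cases h1 : ζ = 1
      · rw [h1]
      · have := hcon ζ h1
        have hbot : eigenspace (ρ z) ζ = ⊥ := by
          by_contra hb
          exact this hb
        rw [hbot]; exact bot_le
    ext v
    have : v ∈ eigenspace (ρ z) 1 := hle Submodule.mem_top
    rw [mem_eigenspace_iff] at this
    simpa using this
  obtain ⟨ζ, hζ1, hζ⟩ := hex
  obtain ⟨ε, w, hw0, hZw, hYw⟩ := jarc_common_eigenvector (ρ z) (ρ y) hcomm ζ hζ
  have hnε : ‖ε‖ = 1 := by
    have := jarc_norm_map ρ hinv y w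
    rw [hYw, norm_smul] at this
    have hw0' : ‖w‖ ≠ 0 := norm_ne_zero_iff.mpr hw0
    field_simp at this
    exact this
  have key : ζ • ρ y (ρ x w) = ε • ρ x w := by
    have h1 : ρ y (ρ x (ρ z w)) = ρ x (ρ y w) := by
      rw [← Module.End.mul_apply, ← Module.End.mul_apply, ← Module.End.mul_apply, ← map_mul,
        ← map_mul, ← map_mul]
      congr 2; rw [hz]; group
    rw [hZw, hYw, map_smul, map_smul, map_smul] at h1
    exact h1
  have h2 : inner ℂ (ρ x w) w = inner ℂ (ρ y (ρ x w)) (ε • w) := by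
    rw [← hYw, hinv]
  have h3 : (starRingEnd ℂ) ζ * inner ℂ (ρ y (ρ x w)) (ε • w) = inner ℂ (ρ x w) w := by
    rw [← inner_smul_left, key, inner_smul_left, inner_smul_right, ← mul_assoc,
      Complex.conj_mul', hnε]
    simp
  rw [← h2] at h3
  have h4 : ((starRingEnd ℂ) ζ - 1) * inner ℂ (ρ x w) w = 0 := by
    rw [sub_mul, h3, one_mul, sub_self]
  rcases mul_eq_zero.mp h4 with h5 | h5
  · have : (starRingEnd ℂ) ζ = 1 := sub_eq_zero.mp h5
    have h6 : ζ = 1 := by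
      have := congrArg (starRingEnd ℂ) this
      simpa using this
    exact hζ1 h6
  · exact hx w hw0 h5

/-- Elements with `‖ρ g - 1‖ < 1` commute with every `y` whose eigenvalues have real part
`> √3/2`. -/
theorem jarc_commute_of_small (hinv : ∀ g v w, inner ℂ (ρ g v) (ρ g w) = inner ℂ v w) (y : G)
    (hy : ∀ μ : ℂ, HasEigenvalue (ρ y) μ → Real.sqrt 3 / 2 < μ.re) (g : G)
    (hg : jarcN ρ g < 1) : Commute (ρ g) (ρ y) := by
  obtain ⟨m, hm, hray⟩ := jarc_rayleigh ρ hinv y hy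
  obtain ⟨r, hr0, hr2, hr⟩ := jarc_center_bound ρ hinv y m hm hray
  by_contra hcon
  let K := {g : G // jarcN ρ g < 1 ∧ ¬ Commute (ρ g) (ρ y)}
  have hKne : Nonempty K := ⟨⟨g, hg, hcon⟩⟩
  obtain ⟨⟨g₀, h1, h2⟩, hmin⟩ := Finite.exists_min (fun k : K => jarcN ρ k.1)
  have hpos : 0 < jarcN ρ g₀ := by
    rcases (jarcN_nonneg ρ g₀).lt_or_eq with h | h
    · exact h
    · exfalso
      apply h2
      rw [jarcN_eq_zero ρ g₀ h.symm]
      exact Commute.one_left _
  have hlt : jarcN ρ (g₀⁻¹ * y⁻¹ * g₀ * y) < jarcN ρ g₀ := by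
    have := jarc_contraction ρ hinv g₀ y _ r hr0 hr
    nlinarith
  have hc' : Commute (ρ (g₀⁻¹ * y⁻¹ * g₀ * y)) (ρ y) := by
    by_contra hnc
    have := hmin ⟨g₀⁻¹ * y⁻¹ * g₀ * y, hlt.trans h1, hnc⟩
    simp only at this
    linarith
  have hx : ∀ w : V, w ≠ 0 → inner ℂ (ρ g₀ w) w ≠ 0 := by
    intro w hw h0
    have hb := jarcN_le_apply ρ g₀ w
    have hw0 : 0 < ‖w‖ := norm_pos_iff.mpr hw
    have hsq : ‖ρ g₀ w - w‖ ^ 2 = 2 * ‖w‖ ^ 2 := by
      have e : ‖ρ g₀ w - w‖ ^ 2 = ‖ρ g₀ w‖ ^ 2 - 2 * (inner ℂ (ρ g₀ w) w).re + ‖w‖ ^ 2 :=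
        @norm_sub_sq ℂ V _ _ _ _ _
      rw [e, h0, jarc_norm_map ρ hinv]
      simp; ring
    have hb2 : ‖ρ g₀ w - w‖ < ‖w‖ := by
      calc ‖ρ g₀ w - w‖ ≤ jarcN ρ g₀ * ‖w‖ := hb
        _ < 1 * ‖w‖ := by exact mul_lt_mul_of_pos_right h1 hw0
        _ = ‖w‖ := one_mul _
    have hnn : 0 ≤ ‖ρ g₀ w - w‖ := norm_nonneg _
    nlinarith
  have hone := jarc_frobenius ρ hinv g₀ y hc' hx
  apply h2
  have hgy : ρ (g₀ * y) = ρ (y * g₀) := by
    have : g₀ * y = y * g₀ * (g₀⁻¹ * y⁻¹ * g₀ * y) := by group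
    rw [this, map_mul, hone, mul_one]
  rw [map_mul, map_mul] at hgy
  exact hgy

/-- **Frobenius**: elements all of whose eigenvalues have real part `> √3/2` commute. -/
theorem jarc_commute (hinv : ∀ g v w, inner ℂ (ρ g v) (ρ g w) = inner ℂ v w) (x y : G)
    (hx : ∀ μ : ℂ, HasEigenvalue (ρ x) μ → Real.sqrt 3 / 2 < μ.re)
    (hy : ∀ μ : ℂ, HasEigenvalue (ρ y) μ → Real.sqrt 3 / 2 < μ.re) :
    Commute (ρ x) (ρ y) := by
  apply jarc_commute_of_small ρ hinv y hy
  obtain ⟨m, hm, hray⟩ := jarc_rayleigh ρ hinv x hx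
  have h3 : Real.sqrt 3 ^ 2 = 3 := Real.sq_sqrt (by norm_num)
  have hs0 : 0 ≤ Real.sqrt 3 := Real.sqrt_nonneg 3
  have hs1 : 1 < Real.sqrt 3 := by
    rw [Real.lt_sqrt (by norm_num)]; norm_num
  have hlt : Real.sqrt (2 - Real.sqrt 3) < 1 := by
    rw [Real.sqrt_lt' one_pos]; linarith
  refine lt_of_le_of_lt (jarcN_le_of_bound ρ x (Real.sqrt_nonneg _) fun v => ?_) hlt
  have hexp : ‖ρ x v - v‖ ^ 2 ≤ (2 - Real.sqrt 3) * ‖v‖ ^ 2 := by
    have e : ‖ρ x v - v‖ ^ 2 = ‖ρ x v‖ ^ 2 - 2 * (inner ℂ (ρ x v) v).re + ‖v‖ ^ 2 :=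
      @norm_sub_sq ℂ V _ _ _ _ _
    rw [e, jarc_norm_map ρ hinv]
    have := hray v
    nlinarith [sq_nonneg ‖v‖]
  have h1 : ‖ρ x v - v‖ ≤ Real.sqrt ((2 - Real.sqrt 3) * ‖v‖ ^ 2) :=
    Real.le_sqrt_of_sq_le hexp
  rw [Real.sqrt_mul' _ (by positivity), Real.sqrt_sq (norm_nonneg v)] at h1
  exact h1

end Inner

section Concrete

variable {G : Type*} [Group G] {n : ℕ}

/-- The averaged inner product. -/
noncomputable def jarcCore [Fintype G] (ρ : G →* ((Fin n → ℂ) →ₗ[ℂ] (Fin n → ℂ))) :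
    InnerProductSpace.Core ℂ (Fin n → ℂ) where
  inner v w := ∑ g : G, ∑ i, (starRingEnd ℂ) (ρ g v i) * ρ g w i
  conj_inner_symm v w := by
    simp only [map_sum, map_mul, Complex.conj_conj]
    refine Finset.sum_congr rfl fun g _ => Finset.sum_congr rfl fun i _ => ?_
    ring
  re_inner_nonneg v := by
    show 0 ≤ RCLike.re (∑ g : G, ∑ i, (starRingEnd ℂ) (ρ g v i) * ρ g v i)
    rw [map_sum]
    refine Finset.sum_nonneg fun g _ => ?_
    rw [map_sum]
    refine Finset.sum_nonneg fun i _ => ?_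
    rw [← Complex.normSq_eq_conj_mul_self]
    simp [Complex.normSq_nonneg]
  add_left v w u := by
    simp only [map_add, Pi.add_apply, add_mul, Finset.sum_add_distrib]
  smul_left v w r := by
    simp only [map_smul, Pi.smul_apply, smul_eq_mul, map_mul, Finset.mul_sum, mul_assoc]
  definite v hv := by
    have hre : ∑ g : G, ∑ i, Complex.normSq (ρ g v i) = 0 := by
      have := congrArg Complex.re hv
      simp only [Complex.re_sum, ← Complex.normSq_eq_conj_mul_self, Complex.ofReal_re,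
        Complex.zero_re] at this
      exact this
    have h1 := (Finset.sum_eq_zero_iff_of_nonneg
      (fun g _ => Finset.sum_nonneg fun i _ => Complex.normSq_nonneg _)).mp hre 1
      (Finset.mem_univ _)
    have h2 := (Finset.sum_eq_zero_iff_of_nonneg
      (fun i _ => Complex.normSq_nonneg _)).mp h1
    funext i
    have := h2 i (Finset.mem_univ _)
    simpa using this

theorem jarcCore_inv [Fintype G] (ρ : G →* ((Fin n → ℂ) →ₗ[ℂ] (Fin n → ℂ))) (h : G)
    (v w : Fin n → ℂ) :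
    (jarcCore ρ).inner (ρ h v) (ρ h w) = (jarcCore ρ).inner v w := by
  show ∑ g : G, ∑ i, (starRingEnd ℂ) (ρ g (ρ h v) i) * ρ g (ρ h w) i
    = ∑ g : G, ∑ i, (starRingEnd ℂ) (ρ g v i) * ρ g w i
  refine Fintype.sum_equiv (Equiv.mulRight h) _ _ fun g => ?_
  simp only [Equiv.coe_mulRight, map_mul, Module.End.mul_apply]

/-- **Frobenius**, concrete form for representations on `Fin n → ℂ`. -/
theorem jarc_commute_concrete [Finite G] (ρ : G →* ((Fin n → ℂ) →ₗ[ℂ] (Fin n → ℂ))) (x y : G)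
    (hx : ∀ μ : ℂ, HasEigenvalue (ρ x) μ → Real.sqrt 3 / 2 < μ.re)
    (hy : ∀ μ : ℂ, HasEigenvalue (ρ y) μ → Real.sqrt 3 / 2 < μ.re) :
    Commute (ρ x) (ρ y) := by
  classical
  let _ := Fintype.ofFinite G
  let nacg : NormedAddCommGroup (Fin n → ℂ) :=
    @InnerProductSpace.Core.toNormedAddCommGroup ℂ (Fin n → ℂ) _ _ _ (jarcCore ρ)
  let ips : @InnerProductSpace ℂ (Fin n → ℂ) _ nacg.toSeminormedAddCommGroup :=
    InnerProductSpace.ofCore (jarcCore ρ).toCore
  exact @jarc_commute (Fin n → ℂ) nacg ips _ G _ _ ρ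
    (fun g v w => jarcCore_inv ρ g v w) x y hx hy

end Concrete

end Cfsg.Agent.Helper67
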