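import Mathlib
import Cfsg.Agent.Helper77.K2Block
import Cfsg.Agent.Helper77.Defect
import Cfsg.Agent.Helper77.PRegular
import Cfsg.Agent.Helper16.PPart

/-!
# PIECE F of CALL S4648 (helper77), core part

`kul_bridge_of`: the bridge statement (`l(B) = 1` makes the trace functions of two
representations of the block algebra proportional), with the two inputs F1 (traces only see the
`p'`-part) and F2 (class functions constant on `p`-sections are combinations of reduced
characters) taken as hypotheses.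
-/

set_option autoImplicit false
open Cfsg Cfsg.Agent.Helper77

namespace Cfsg.Agent.Helper67

universe u v w

section general

variable {G : Type u} [Group G] [Fintype G]

theorem kulF_delta_mul {k : Type v} [CommRing k] (a b : G) :
    ConvAlg.delta k a * ConvAlg.delta k b = ConvAlg.delta k (a * b) := by
  classical
  ext x
  rw [ConvAlg.delta_mul_apply]
  by_cases h : x = a * b
  · subst h
    rw [ConvAlg.delta_apply_self, inv_mul_cancel_left, ConvAlg.delta_apply_self]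
  · rw [ConvAlg.delta_apply_ne h, ConvAlg.delta_apply_ne]
    intro h2
    apply h
    rw [← h2]
    group

theorem kulF_delta_one {k : Type v} [CommRing k] :
    ConvAlg.delta k (1 : G) = 1 := by
  classical
  ext x
  rw [ConvAlg.one_apply]
  by_cases h : x = 1
  · subst h
    rw [ConvAlg.delta_apply_self, if_pos rfl]
  · rw [ConvAlg.delta_apply_ne h, if_neg h]

theorem kulF_trace_conj {k : Type v} [Field k] {d : ℕ}
    (ρ : ConvAlg k G →ₐ[k] Matrix (Fin d) (Fin d) k) (g h : G) :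
    (ρ (ConvAlg.delta k (h * g * h⁻¹))).trace = (ρ (ConvAlg.delta k g)).trace := by
  rw [← kulF_delta_mul, ← kulF_delta_mul, map_mul, map_mul, Matrix.trace_mul_comm, ← mul_assoc,
    ← map_mul, kulF_delta_mul, inv_mul_cancel, kulF_delta_one, map_one, one_mul]

theorem kulF_eq_sum_delta {k : Type v} [CommRing k] (a : ConvAlg k G) :
    a = ∑ g : G, a g • ConvAlg.delta k g := by
  classical
  ext x
  rw [ConvAlg.sum_apply, Finset.sum_eq_single x]
  · rw [ConvAlg.smul_apply, ConvAlg.delta_apply_self, mul_one]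
  · intro g _ hg
    rw [ConvAlg.smul_apply, ConvAlg.delta_apply_ne (Ne.symm hg), mul_zero]
  · intro h
    exact absurd (Finset.mem_univ _) h

theorem kulF_trace_eq_sum {k : Type v} [Field k] {d : ℕ}
    (ρ : ConvAlg k G →ₐ[k] Matrix (Fin d) (Fin d) k) (a : ConvAlg k G) :
    (ρ a).trace = ∑ g : G, a g * (ρ (ConvAlg.delta k g)).trace := by
  conv_lhs => rw [kulF_eq_sum_delta a]
  rw [map_sum, Matrix.trace_sum]
  refine Finset.sum_congr rfl fun g _ => ?_
  rw [map_smul, Matrix.trace_smul, smul_eq_mul]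

end general

section block

variable {G : Type u} [Group G] [Fintype G] {M : Ideal Cfsg.AlgInt} (hM : M.IsMaximal)

theorem kulF_natCast_eq_zero (p : ℕ) (hp : (p : Cfsg.AlgInt) ∈ M) :
    ((p : ℕ) : ResField M hM) = 0 := by
  have h1 : Cfsg.MemLocalIdeal M ((p : ℕ) : ℂ) := by
    have := memLocalIdeal_of_mem hM hp
    simpa using this
  have h2 : Cfsg.MemLocalRing M ((p : ℕ) : ℂ) := memLocalRing_of_memLocalIdeal h1
  have h3 : resHom M hM (⟨(p : ℂ), h2⟩ : localSubring M hM) = 0 :=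
    (resHom_eq_zero_iff hM _).mpr h1
  have h4 : (⟨(p : ℂ), h2⟩ : localSubring M hM) = ((p : ℕ) : localSubring M hM) := by
    apply Subtype.ext
    simp
  rw [h4, map_natCast] at h3
  exact h3

theorem kulF_block_expansion {B : Set (Cfsg.IrrCharacter G)} (hB : Cfsg.IsPBlock M B) {d : ℕ}
    (ρ : ConvAlg (ResField M hM) G →ₐ[ResField M hM] Matrix (Fin d) (Fin d) (ResField M hM))
    (h : ∀ a, ρ (redIdem hM B * a) = ρ a)
    (c : Cfsg.IrrCharacter G → ResField M hM)
    (hc : ∀ g : G, (ρ (ConvAlg.delta (ResField M hM) g)).trace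
      = ∑ᶠ χ : Cfsg.IrrCharacter G, c χ * resMap M hM ((χ : G → ℂ) g))
    [Fintype (Cfsg.IrrCharacter G)] [DecidablePred (· ∈ B)] (g : G) :
    (ρ (ConvAlg.delta (ResField M hM) g)).trace
      = ∑ χ : Cfsg.IrrCharacter G, (if χ ∈ B then c χ else 0) * resMap M hM ((χ : G → ℂ) g) := by
  have hχR : ∀ (χ : Cfsg.IrrCharacter G) (x : G), Cfsg.MemLocalRing M ((χ : G → ℂ) x) :=
    fun χ x => memLocalRing_of_isIntegral hM (irr_isIntegral χ x)
  have heR := blockCoeff_memLocalRing hM hB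
  have h1 : (ρ (ConvAlg.delta (ResField M hM) g)).trace
      = ∑ x : G, redIdem hM B x * (ρ (ConvAlg.delta (ResField M hM) (x * g))).trace := by
    conv_lhs => rw [← h (ConvAlg.delta (ResField M hM) g)]
    rw [kulF_trace_eq_sum]
    rw [← Equiv.sum_comp (Equiv.mulRight g)]
    refine Finset.sum_congr rfl fun x _ => ?_
    rw [Equiv.coe_mulRight, ConvAlg.mul_delta_apply, mul_inv_cancel_right]
  rw [h1]
  simp only [hc, finsum_eq_sum_of_fintype]
  simp only [Finset.mul_sum]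
  rw [Finset.sum_comm]
  refine Finset.sum_congr rfl fun χ _ => ?_
  have h2 : ∑ x : G, resMap M hM (Cfsg.blockCoeff B x) * resMap M hM ((χ : G → ℂ) (x * g))
      = resMap M hM (Helper81.omega (χ : G → ℂ) (Cfsg.blockCoeff B) * (χ : G → ℂ) g) := by
    rw [← sum_mul_irr_mul χ (blockCoeff_isClassFunction B) g,
      resMap_sum hM _ _ (fun x _ => memLocalRing_mul hM (heR x) (hχR χ _))]
    refine Finset.sum_congr rfl fun x _ => ?_
    rw [resMap_mul hM (heR x) (hχR χ _)]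
  have h3 : ∑ x : G, redIdem hM B x * (c χ * resMap M hM ((χ : G → ℂ) (x * g)))
      = c χ * ∑ x : G, resMap M hM (Cfsg.blockCoeff B x) * resMap M hM ((χ : G → ℂ) (x * g)) := by
    rw [Finset.mul_sum]
    refine Finset.sum_congr rfl fun x _ => ?_
    show resMap M hM (Cfsg.blockCoeff B x) * _ = _
    ring
  rw [h3, h2]
  by_cases hχ : χ ∈ B
  · rw [if_pos hχ, omega_blockCoeff_of_mem hχ, one_mul]
  · rw [if_neg hχ, omega_blockCoeff_of_not_mem hχ, zero_mul, resMap_zero, mul_zero, zero_mul]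

theorem kul_bridge_of (p : ℕ) [Fact p.Prime]
    {B : Set (Cfsg.IrrCharacter G)}
    (hB : Cfsg.IsPBlock M B) (hl : Cfsg.blockRank p B = 1) {d₁ d₂ : ℕ}
    (ρ₁ : ConvAlg (ResField M hM) G →ₐ[ResField M hM] Matrix (Fin d₁) (Fin d₁) (ResField M hM))
    (ρ₂ : ConvAlg (ResField M hM) G →ₐ[ResField M hM] Matrix (Fin d₂) (Fin d₂) (ResField M hM))
    (h₁ : ∀ a, ρ₁ (redIdem hM B * a) = ρ₁ a) (h₂ : ∀ a, ρ₂ (redIdem hM B * a) = ρ₂ a)
    (F1 : ∀ {d : ℕ}
      (ρ : ConvAlg (ResField M hM) G →ₐ[ResField M hM] Matrix (Fin d) (Fin d) (ResField M hM))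
      (x y : G), Commute x y → (∃ j : ℕ, orderOf x = p ^ j) →
        (ρ (ConvAlg.delta (ResField M hM) (x * y))).trace
          = (ρ (ConvAlg.delta (ResField M hM) y)).trace)
    (F2 : ∀ (t : G → ResField M hM), (∀ g h : G, t (h * g * h⁻¹) = t g) →
      (∀ x y : G, Commute x y → (∃ j : ℕ, orderOf x = p ^ j) → t (x * y) = t y) →
      ∃ c : Cfsg.IrrCharacter G → ResField M hM, ∀ g : G,
        t g = ∑ᶠ χ : Cfsg.IrrCharacter G, c χ * resMap M hM ((χ : G → ℂ) g)) :
    ∃ c₁ c₂ : ResField M hM, (c₁ ≠ 0 ∨ c₂ ≠ 0) ∧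
      ∀ a, c₁ * (ρ₁ a).trace + c₂ * (ρ₂ a).trace = 0 := by
  classical
  have : Fintype (Cfsg.IrrCharacter G) := Fintype.ofFinite _
  have hχR : ∀ (χ : Cfsg.IrrCharacter G) (x : G), Cfsg.MemLocalRing M ((χ : G → ℂ) x) :=
    fun χ x => memLocalRing_of_isIntegral hM (irr_isIntegral χ x)
  obtain ⟨c₁, hc₁⟩ := F2 (fun g => (ρ₁ (ConvAlg.delta (ResField M hM) g)).trace)
    (fun g h => kulF_trace_conj ρ₁ g h) (fun x y hxy hx => F1 ρ₁ x y hxy hx)
  obtain ⟨c₂, hc₂⟩ := F2 (fun g => (ρ₂ (ConvAlg.delta (ResField M hM) g)).trace)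
    (fun g h => kulF_trace_conj ρ₂ g h) (fun x y hxy hx => F1 ρ₂ x y hxy hx)
  have e₁ := kulF_block_expansion hM hB ρ₁ h₁ c₁ hc₁
  have e₂ := kulF_block_expansion hM hB ρ₂ h₂ c₂ hc₂
  -- the 2 x 2 minors vanish
  have hminor : ∀ χ ∈ B, ∀ χ' ∈ B, ∀ g h : G, ¬ p ∣ orderOf g → ¬ p ∣ orderOf h →
      resMap M hM ((χ : G → ℂ) g) * resMap M hM ((χ' : G → ℂ) h)
        = resMap M hM ((χ : G → ℂ) h) * resMap M hM ((χ' : G → ℂ) g) := by
    have hV : Module.finrank ℂ ↥(Submodule.span ℂ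
        ((fun χ : Cfsg.IrrCharacter G => Cfsg.pRegularPart p (χ : G → ℂ)) '' B)) = 1 := hl
    obtain ⟨v, -, hv⟩ := finrank_eq_one_iff'.mp hV
    have hval : ∀ χ ∈ B, ∃ a : ℂ, ∀ x : G, ¬ p ∣ orderOf x →
        (χ : G → ℂ) x = a * (v : G → ℂ) x := by
      intro χ hχ
      obtain ⟨a, ha⟩ := hv ⟨Cfsg.pRegularPart p (χ : G → ℂ),
        Submodule.subset_span ⟨χ, hχ, rfl⟩⟩
      refine ⟨a, fun x hx => ?_⟩
      have h1 := congrArg (fun w : ↥(Submodule.span ℂ
        ((fun χ : Cfsg.IrrCharacter G => Cfsg.pRegularPart p (χ : G → ℂ)) '' B)) =>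
          (w : G → ℂ) x) ha
      simp only [Submodule.coe_smul, Pi.smul_apply, smul_eq_mul] at h1
      rw [pRegularPart_apply, if_pos hx] at h1
      exact h1.symm
    intro χ hχ χ' hχ' g h hg hh
    obtain ⟨a, ha⟩ := hval χ hχ
    obtain ⟨a', ha'⟩ := hval χ' hχ'
    rw [← resMap_mul hM (hχR χ g) (hχR χ' h), ← resMap_mul hM (hχR χ h) (hχR χ' g)]
    congr 1
    rw [ha g hg, ha' h hh, ha h hh, ha' g hg]
    ring
  have hcross : ∀ g h : G, ¬ p ∣ orderOf g → ¬ p ∣ orderOf h →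
      (ρ₁ (ConvAlg.delta (ResField M hM) g)).trace * (ρ₂ (ConvAlg.delta (ResField M hM) h)).trace
        = (ρ₁ (ConvAlg.delta (ResField M hM) h)).trace
          * (ρ₂ (ConvAlg.delta (ResField M hM) g)).trace := by
    intro g h hg hh
    rw [e₁ g, e₂ h, e₁ h, e₂ g, Finset.sum_mul_sum, Finset.sum_mul_sum]
    refine Finset.sum_congr rfl fun χ _ => Finset.sum_congr rfl fun χ' _ => ?_
    by_cases hχ : χ ∈ B
    · by_cases hχ' : χ' ∈ B
      · rw [if_pos hχ, if_pos hχ']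
        have := hminor χ hχ χ' hχ' g h hg hh
        linear_combination (c₁ χ * c₂ χ') * this
      · rw [if_neg hχ']
        ring
    · rw [if_neg hχ]
      ring
  -- reduction to the p-regular part
  have hreg : ∀ g : G, ∃ y : G, ¬ p ∣ orderOf y ∧
      (ρ₁ (ConvAlg.delta (ResField M hM) g)).trace = (ρ₁ (ConvAlg.delta (ResField M hM) y)).trace ∧
      (ρ₂ (ConvAlg.delta (ResField M hM) g)).trace
        = (ρ₂ (ConvAlg.delta (ResField M hM) y)).trace := by
    intro g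
    obtain ⟨x, y, hxy, hcomm, hx, hy⟩ := Helper16.exists_isPPart p g (orderOf_pos g)
    refine ⟨y, hy, ?_, ?_⟩
    · rw [← hxy]
      exact F1 ρ₁ x y hcomm hx
    · rw [← hxy]
      exact F1 ρ₂ x y hcomm hx
  -- the coefficients
  have hfin : ∀ c₁ c₂ : ResField M hM,
      (∀ y : G, ¬ p ∣ orderOf y → c₁ * (ρ₁ (ConvAlg.delta (ResField M hM) y)).trace
        + c₂ * (ρ₂ (ConvAlg.delta (ResField M hM) y)).trace = 0) →
      ∀ a, c₁ * (ρ₁ a).trace + c₂ * (ρ₂ a).trace = 0 := by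
    intro c₁ c₂ hy a
    rw [kulF_trace_eq_sum ρ₁ a, kulF_trace_eq_sum ρ₂ a, Finset.mul_sum, Finset.mul_sum,
      ← Finset.sum_add_distrib]
    refine Finset.sum_eq_zero fun g _ => ?_
    obtain ⟨y, hy1, hy2, hy3⟩ := hreg g
    rw [hy2, hy3]
    linear_combination a g * hy y hy1
  by_cases hall : ∀ y : G, ¬ p ∣ orderOf y → (ρ₂ (ConvAlg.delta (ResField M hM) y)).trace = 0
  · refine ⟨0, 1, Or.inr one_ne_zero, hfin 0 1 fun y hy => ?_⟩
    rw [hall y hy]
    ring
  · push Not at hall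
    obtain ⟨h₀, hh₀, hne⟩ := hall
    refine ⟨(ρ₂ (ConvAlg.delta (ResField M hM) h₀)).trace,
      -(ρ₁ (ConvAlg.delta (ResField M hM) h₀)).trace, Or.inl hne, hfin _ _ fun y hy => ?_⟩
    linear_combination hcross y h₀ hy hh₀

end block

end Cfsg.Agent.Helper67
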