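import Mathlib
import Cfsg.Agent.Helper67.KulFCore
import Cfsg.Agent.Helper51.KulF1
import Cfsg.Agent.Helper41.KulF2

/-!
# PIECE F of CALL S4648 (helper77): the bridge

`kul_bridge`: for a block with `l(B) = 1`, the trace functions of two representations of the
block algebra over the residue field are proportional.
-/

set_option autoImplicit false
open Cfsg Cfsg.Agent.Helper77

namespace Cfsg.Agent.Helper67

universe u v w

variable {G : Type u} [Group G] [Fintype G] {M : Ideal Cfsg.AlgInt} (hM : M.IsMaximal)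

theorem kul_bridge (p : ℕ) [Fact p.Prime] (hp : (p : Cfsg.AlgInt) ∈ M)
    {B : Set (Cfsg.IrrCharacter G)}
    (hB : Cfsg.IsPBlock M B) (hl : Cfsg.blockRank p B = 1) {d₁ d₂ : ℕ}
    (ρ₁ : ConvAlg (ResField M hM) G →ₐ[ResField M hM] Matrix (Fin d₁) (Fin d₁) (ResField M hM))
    (ρ₂ : ConvAlg (ResField M hM) G →ₐ[ResField M hM] Matrix (Fin d₂) (Fin d₂) (ResField M hM))
    (h₁ : ∀ a, ρ₁ (redIdem hM B * a) = ρ₁ a) (h₂ : ∀ a, ρ₂ (redIdem hM B * a) = ρ₂ a) :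
    ∃ c₁ c₂ : ResField M hM, (c₁ ≠ 0 ∨ c₂ ≠ 0) ∧
      ∀ a, c₁ * (ρ₁ a).trace + c₂ * (ρ₂ a).trace = 0 :=
  kul_bridge_of hM p hB hl ρ₁ ρ₂ h₁ h₂
    (fun ρ x y hxy hx =>
      Cfsg.Agent.Helper51.kul_trace_ppart p (kulF_natCast_eq_zero hM p hp) ρ x y hxy hx)
    (fun t hcl hpp => Cfsg.Agent.Helper41.kul_classfun_res hM p hp t hcl hpp)

end Cfsg.Agent.Helper67
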