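import Mathlib
import Cfsg.Prelude.Def_GeometricClasses
import Cfsg.Prelude.Def_Classical

set_option autoImplicit false

/-!
# CALL NP piece EXJ (double): an isometry `g` of the plus form with `g * g = -1`, `d` even.
-/

namespace Cfsg.Agent.Helper67.NP5989

open Module Cfsg Cfsg.Geo
open scoped MatrixGroups

universe u

section A

variable {F : Type u} [Field F] [Fintype F]

/-- EXJ: `d = k + k`: the map `e_j ↦ e_{j+k}`, `e_{j+k} ↦ -e_j`, and the same on the `f`'s. -/
theorem np_ex_even (d : ℕ) (hde : Even d) :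
    ∃ g : GL (Fin d ⊕ Fin d) F, g ∈ Cfsg.isometryGroup F (Cfsg.quadFormPlus d F) ∧
      (g : Matrix (Fin d ⊕ Fin d) (Fin d ⊕ Fin d) F) *
        (g : Matrix (Fin d ⊕ Fin d) (Fin d ⊕ Fin d) F) = -1 := by
  obtain ⟨k, rfl⟩ := hde
  let e : Fin (k + k) ≃ Fin k ⊕ Fin k := finSumFinEquiv.symm
  let σ : Fin (k + k) ≃ Fin (k + k) := e.trans ((Equiv.sumComm _ _).trans e.symm)
  let s : Fin (k + k) → F := fun a => Sum.elim (fun _ => (-1 : F)) (fun _ => 1) (e a)
  have hσσ : ∀ a, σ (σ a) = a := by
    intro a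
    simp [σ]
  have hs : ∀ a, s a * s (σ a) = -1 := by
    intro a
    simp only [s, σ, Equiv.trans_apply, Equiv.apply_symm_apply, Equiv.sumComm_apply]
    rcases e a with x | x <;> simp
  have hs2 : ∀ a, s a * s a = 1 := by
    intro a
    simp only [s]
    rcases e a with x | x <;> simp
  let f : (Fin (k + k) ⊕ Fin (k + k) → F) →ₗ[F] (Fin (k + k) ⊕ Fin (k + k) → F) :=
    { toFun := fun v x =>
        Sum.elim (fun a => s a * v (Sum.inl (σ a))) (fun a => s a * v (Sum.inr (σ a))) x
      map_add' := by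
        intro v w
        ext x
        rcases x with a | a <;> simp [mul_add]
      map_smul' := by
        intro c v
        ext x
        rcases x with a | a <;> simp [mul_left_comm] }
  have hfl : ∀ v a, f v (Sum.inl a) = s a * v (Sum.inl (σ a)) := fun v a => rfl
  have hfr : ∀ v a, f v (Sum.inr a) = s a * v (Sum.inr (σ a)) := fun v a => rfl
  have hff : f * f = -1 := by
    apply LinearMap.ext
    intro v
    ext x
    rcases x with a | a
    · rw [Module.End.mul_apply, hfl, hfl, hσσ, ← mul_assoc, hs]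
      simp
    · rw [Module.End.mul_apply, hfr, hfr, hσσ, ← mul_assoc, hs]
      simp
  have hMM : LinearMap.toMatrix' f * LinearMap.toMatrix' f = -1 := by
    rw [← LinearMap.toMatrix'_mul, hff, map_neg, LinearMap.toMatrix'_one]
  have hMv : ∀ v, (LinearMap.toMatrix' f).mulVec v = f v := by
    intro v
    rw [← Matrix.toLin'_apply, Matrix.toLin'_toMatrix']
  refine ⟨⟨LinearMap.toMatrix' f, -LinearMap.toMatrix' f, by rw [Matrix.mul_neg, hMM, neg_neg],
    by rw [Matrix.neg_mul, hMM, neg_neg]⟩, ?_, hMM⟩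
  intro u v
  show Cfsg.quadFormPlus (k + k) F ((LinearMap.toMatrix' f).mulVec u) = Cfsg.quadFormPlus (k + k) F u
  rw [hMv]
  unfold Cfsg.quadFormPlus
  have h1 : ∀ i, f u (Sum.inl i) * f u (Sum.inr i)
      = u (Sum.inl (σ i)) * u (Sum.inr (σ i)) := by
    intro i
    rw [hfl, hfr]
    linear_combination (u (Sum.inl (σ i)) * u (Sum.inr (σ i))) * hs2 i
  rw [Finset.sum_congr rfl (fun i _ => h1 i)]
  exact Equiv.sum_comp σ (fun i => u (Sum.inl i) * u (Sum.inr i))

end A

end Cfsg.Agent.Helper67.NP5989
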