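import Mathlib
import Cfsg.Prelude.Def_GeometricClasses
import Cfsg.Prelude.Def_Classical
import Cfsg.Agent.Helper13.NPDefs
import Cfsg.Agent.Helper96.OHDefs
import Cfsg.Agent.Helper45.Spinor
import Cfsg.Agent.Helper45.POmegaAut
import Cfsg.Agent.Helper43.UniIso
import Cfsg.Agent.Helper43.OrthEven
import Cfsg.Agent.Helper66.NPSPINNEG
import Cfsg.Agent.Helper12.NPLEVCARD
import Cfsg.Agent.Helper87.NPARITH8
import Cfsg.Agent.Helper12.NPEXD
import Cfsg.Agent.Helper67.NPEXJ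
import Cfsg.Agent.Helper52.NPNEGODD
import Cfsg.Agent.Helper33.NPINVGOOD
import Cfsg.Agent.Helper70.TSR2Z
import Cfsg.Agent.Helper35.TSSTDP

set_option autoImplicit false

/-!
# CALL NP stage TWOMAIN (double, helper67): `np_two`, the `r = 2` stage of row S5989.
-/

namespace Cfsg.Agent.Helper67.NP5989

open Module Cfsg Cfsg.Geo Cfsg.Agent.Helper13.NP Cfsg.Agent.Helper96.OH
open Cfsg.Agent.Helper43.UniIso (UnipH kdim)
open scoped MatrixGroups

universe u

section stages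

variable {F : Type*} [Field F] [Fintype F]

/-- the sign of an isometry with square `-1` on a level set of the plus form. -/
theorem np_two_spin67 (hodd : Odd (Fintype.card F)) (h2 : (2 : F) ≠ 0) (d : ℕ) (hd : 1 ≤ d)
    (g : ↥(Cfsg.isometryGroup F (Cfsg.quadFormPlus d F)))
    (hg : ((g : GL (Fin d ⊕ Fin d) F) : Matrix (Fin d ⊕ Fin d) (Fin d ⊕ Fin d) F) *
      ((g : GL (Fin d ⊕ Fin d) F) : Matrix (Fin d ⊕ Fin d) (Fin d ⊕ Fin d) F) = -1) (c : F)
    (hc : c ≠ 0) :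
    Cfsg.Agent.Helper45.spin (Cfsg.quadFormPlus d F) c g = 1 ↔
      (Even d ∨ Fintype.card F % 8 = 1) := by
  have hQ0 : Cfsg.quadFormPlus d F 0 = 0 := by simp [Cfsg.quadFormPlus]
  obtain ⟨h4, hs⟩ :=
    Cfsg.Agent.Helper66.NP5989.np_spin_neg (Cfsg.quadFormPlus d F) hQ0 h2 g hg c hc
  rw [Cfsg.Agent.Helper12.NP5989.np_lev_card d hd c hc] at h4 hs
  rw [hs, ← Cfsg.Agent.Helper87.NP5989.np_arith8 _ d hodd hd]
  obtain ⟨t, ht⟩ := h4
  rw [ht, Nat.mul_div_cancel_left t (by norm_num)]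
  constructor
  · intro h
    have hev : Even t := by
      by_contra hne
      rw [Nat.not_even_iff_odd] at hne
      rw [Odd.neg_one_pow hne] at h
      exact absurd h (by decide)
    obtain ⟨s, rfl⟩ := hev
    exact ⟨s, by ring⟩
  · rintro ⟨s, hs'⟩
    have ht2 : t = 2 * s := by omega
    rw [ht2, pow_mul]
    simp

/-- TWOMAIN = stage R2. -/
theorem np_two (p : ℕ) [Fact p.Prime] [CharP F p] (q : ℕ) (hq : Fintype.card F = q) (hodd : Odd q)
    (d m : ℕ) (hd : 4 ≤ d) (hm : Odd m) (hmd : m < d) (W₀ : Submodule F (Fin d ⊕ Fin d → F))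
    (hW₀ : Module.finrank F ↥W₀ = m ∧
      IsNondegenerateOn (QuadraticMap.polar (Cfsg.quadFormPlus d F)) W₀) :
    (∀ x : GL (Fin d ⊕ Fin d) F, x ∈ Cfsg.Geo.omegaGL (Cfsg.quadFormPlus d F) →
      (∃ z : F, ((x ^ 2 : GL (Fin d ⊕ Fin d) F) : Matrix (Fin d ⊕ Fin d) (Fin d ⊕ Fin d) F) =
        z • (1 : Matrix (Fin d ⊕ Fin d) (Fin d ⊕ Fin d) F)) →
      (∀ z : F, (x : Matrix (Fin d ⊕ Fin d) (Fin d ⊕ Fin d) F) ≠
        z • (1 : Matrix (Fin d ⊕ Fin d) (Fin d ⊕ Fin d) F)) →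
      NPFix (Cfsg.quadFormPlus d F) W₀ m (x : Matrix (Fin d ⊕ Fin d) (Fin d ⊕ Fin d) F)) ↔
    (Odd d ∧ q % 8 ≠ 1) := by
  classical
  subst hq
  have h2 : (2 : F) ≠ 0 := by
    intro h
    have h3 : ringChar F = 2 := CharP.ringChar_of_prime_eq_zero Nat.prime_two h
    have h4 := FiniteField.even_card_of_char_two h3
    rcases hodd with ⟨k, hk⟩
    omega
  have hQnd : IsNondegenerateQuadraticForm (Cfsg.quadFormPlus d F) :=
    (Cfsg.Agent.Helper35.TS5973.ts_std_plus d).1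
  have hcard : Fintype.card (Fin d ⊕ Fin d) = 2 * d := by
    rw [Fintype.card_sum, Fintype.card_fin]
    ring
  obtain ⟨ε, hε⟩ := FiniteField.exists_nonsquare (Cfsg.Agent.Helper45.ringChar_ne_two h2)
  have hε0 : ε ≠ 0 := by
    rintro rfl
    exact hε ⟨0, by simp⟩
  have hmem : ∀ g : ↥(Cfsg.isometryGroup F (Cfsg.quadFormPlus d F)),
      g ∈ Cfsg.Omega F (Cfsg.quadFormPlus d F) ↔
      (Cfsg.Agent.Helper45.spin (Cfsg.quadFormPlus d F) 1 g = 1 ∧
        Cfsg.Agent.Helper45.spin (Cfsg.quadFormPlus d F) ε g = 1) := by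
    intro g
    exact Cfsg.Agent.Helper45.mem_omega_iff (Cfsg.Agent.Helper43.plusQF d F) h2
      (Cfsg.Agent.Helper43.OrthEven.plusQF_nondeg d) (by rw [hcard]; omega) ε hε g
  constructor
  · intro hL
    by_contra hcon
    have hcase : Even d ∨ Fintype.card F % 8 = 1 := by
      by_contra h
      push Not at h
      exact hcon ⟨Nat.not_even_iff_odd.mp h.1, h.2⟩
    obtain ⟨g, hgmem, hgg⟩ : ∃ g : GL (Fin d ⊕ Fin d) F,
        g ∈ Cfsg.isometryGroup F (Cfsg.quadFormPlus d F) ∧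
        (g : Matrix (Fin d ⊕ Fin d) (Fin d ⊕ Fin d) F) *
          (g : Matrix (Fin d ⊕ Fin d) (Fin d ⊕ Fin d) F) = -1 := by
      rcases Nat.even_or_odd d with hde | hdo
      · exact np_ex_even d hde
      · have h8 : Fintype.card F % 8 = 1 := by
          rcases hcase with h | h
          · exact absurd h (Nat.not_even_iff_odd.mpr hdo)
          · exact h
        apply Cfsg.Agent.Helper12.NP5989.np_ex_sq d
        rw [FiniteField.isSquare_neg_one_iff]
        omega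
    have hs1 := (np_two_spin67 hodd h2 d (by omega) ⟨g, hgmem⟩ hgg 1 one_ne_zero).mpr hcase
    have hs2 := (np_two_spin67 hodd h2 d (by omega) ⟨g, hgmem⟩ hgg ε hε0).mpr hcase
    have hgΩ : g ∈ Cfsg.Geo.omegaGL (Cfsg.quadFormPlus d F) :=
      ⟨⟨g, hgmem⟩, (hmem _).mpr ⟨hs1, hs2⟩, rfl⟩
    have hsq : ∃ z : F,
        ((g ^ 2 : GL (Fin d ⊕ Fin d) F) : Matrix (Fin d ⊕ Fin d) (Fin d ⊕ Fin d) F) =
          z • (1 : Matrix (Fin d ⊕ Fin d) (Fin d ⊕ Fin d) F) :=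
      ⟨-1, by rw [Units.val_pow_eq_pow_val, pow_two, hgg]; simp⟩
    have hM := (Cfsg.Agent.Helper45.mem_iso_iff (Cfsg.quadFormPlus d F) g).mp hgmem
    have hns : ∀ z : F, (g : Matrix (Fin d ⊕ Fin d) (Fin d ⊕ Fin d) F) ≠
        z • (1 : Matrix (Fin d ⊕ Fin d) (Fin d ⊕ Fin d) F) := by
      intro z hz
      have h1 : z * z = -1 := by
        have h' := hgg
        rw [hz] at h'
        have h'' := congrFun (congrFun h' (Sum.inl ⟨0, by omega⟩)) (Sum.inl ⟨0, by omega⟩)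
        simpa using h''
      obtain ⟨u, hu⟩ := Cfsg.Agent.Helper45.exists_norm_eq (Cfsg.Agent.Helper43.plusQF d F) h2
        (Cfsg.Agent.Helper43.OrthEven.plusQF_nondeg d) (by rw [hcard]; omega) 1
      have hu' : Cfsg.quadFormPlus d F u = 1 := hu
      have h3 := hM u
      rw [hz, Matrix.smul_mulVec, Matrix.one_mulVec] at h3
      have h4 : Cfsg.quadFormPlus d F (z • u) = z * z * Cfsg.quadFormPlus d F u := by
        unfold Cfsg.quadFormPlus
        rw [Finset.mul_sum]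
        apply Finset.sum_congr rfl
        intro i _
        simp only [Pi.smul_apply, smul_eq_mul]
        ring
      rw [h4, hu', h1] at h3
      apply h2
      linear_combination (-1 : F) * h3
    obtain ⟨W, ⟨hWm, hWnd, -⟩, hWinv⟩ := hL g hgΩ hsq hns
    have hev := Cfsg.Agent.Helper52.NP5989.np_neg_odd (Cfsg.quadFormPlus d F) hQnd h2
      (g : Matrix (Fin d ⊕ Fin d) (Fin d ⊕ Fin d) F) hM hgg W hWnd hWinv
    rw [hWm] at hev
    exact (Nat.not_even_iff_odd.mpr hm) hev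
  · rintro ⟨hdo, hq8⟩ x hxΩ ⟨z, hz⟩ hns
    obtain ⟨g, hgΩ, rfl⟩ := hxΩ
    have hM := (Cfsg.Agent.Helper45.mem_iso_iff (Cfsg.quadFormPlus d F)
      (g : GL (Fin d ⊕ Fin d) F)).mp g.2
    have hz' : ((g : GL (Fin d ⊕ Fin d) F) : Matrix (Fin d ⊕ Fin d) (Fin d ⊕ Fin d) F) *
        ((g : GL (Fin d ⊕ Fin d) F) : Matrix (Fin d ⊕ Fin d) (Fin d ⊕ Fin d) F) =
        z • (1 : Matrix (Fin d ⊕ Fin d) (Fin d ⊕ Fin d) F) := by
      rw [← hz, Units.val_pow_eq_pow_val, pow_two]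
      rfl
    rcases Cfsg.Agent.Helper70.TSR2.r2_z (Cfsg.quadFormPlus d F) hQnd
      ⟨Sum.inl ⟨0, by omega⟩⟩ _ hM z hz' with rfl | rfl
    · exact Cfsg.Agent.Helper33.NP5989.np_inv_good (Cfsg.quadFormPlus d F) hQnd h2 _ hM
        (by rw [hz', one_smul]) W₀ hW₀.2 m hW₀.1 (by rw [hcard]; omega)
    · exfalso
      have hgg : ((g : GL (Fin d ⊕ Fin d) F) : Matrix (Fin d ⊕ Fin d) (Fin d ⊕ Fin d) F) *
          ((g : GL (Fin d ⊕ Fin d) F) : Matrix (Fin d ⊕ Fin d) (Fin d ⊕ Fin d) F) = -1 := by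
        rw [hz']
        simp
      have h := (np_two_spin67 hodd h2 d (by omega) g hgg 1 one_ne_zero).mp ((hmem g).mp hgΩ).1
      rcases h with h | h
      · exact (Nat.not_even_iff_odd.mpr hdo) h
      · exact hq8 h

end stages

end Cfsg.Agent.Helper67.NP5989
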