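import Mathlib
import Cfsg.Agent.Helper5.SL2Sylow
import Cfsg.Agent.Helper87.S2788Defs
import Cfsg.Agent.Helper37.S2788XC

/-!
# CALL S2788, PIECE OD (helper67): the odd characteristic assembly
-/

set_option autoImplicit false

namespace Cfsg.Agent.Helper67

open Cfsg.Agent Cfsg.Agent.Helper87

/-- the central involution of `SL₂(F)` is nontrivial in odd characteristic. -/
theorem s2788_negOne_ne_one {F : Type*} [Field F] {p : ℕ} [Fact p.Prime] [CharP F p]
    (hp2 : p ≠ 2) : negOneSL F ≠ 1 := by
  intro h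
  have h1 := congrArg (fun A : Matrix.SpecialLinearGroup (Fin 2) F =>
    (A : Matrix (Fin 2) (Fin 2) F) 0 0) h
  simp only [negOneSL_coe, Matrix.SpecialLinearGroup.coe_one] at h1
  have h2 : (-1 : F) = 1 := by simpa using h1
  have h3 : ((2 : ℕ) : F) = 0 := by
    push_cast
    linear_combination (-1 : F) * h2
  have h4 : p ∣ 2 := (CharP.cast_eq_zero_iff F p 2).mp h3
  exact hp2 ((Nat.prime_dvd_prime_iff_eq (Fact.out : p.Prime) Nat.prime_two).mp h4)

/-- PIECE OD with the pieces D and MC as hypotheses. -/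
theorem s2788_odd_aux {F : Type*} [Field F] [Fintype F] {p : ℕ} [Fact p.Prime] [CharP F p]
    (hp2 : p ≠ 2) (n : ℕ)
    {M : Type*} [AddCommGroup M] [Finite M]
    [DistribMulAction (Matrix.SpecialLinearGroup (Fin 2) F) M]
    (hp : ∀ m : M, p • m = 0)
    (hfaith : ∀ g : Matrix.SpecialLinearGroup (Fin 2) F, (∀ m : M, g • m = m) → g = 1)
    (s : F)
    (hD : Nat.card {m : M // negOneSL F • m = -m} =
      Nat.card {m : M // negOneSL F • m = -m ∧ Helper5.uSL s • m = m} ^ 2)
    (hMC : 2 ≤ n → p ^ (2 * n) ≤ Nat.card {m : M // negOneSL F • m = -m}) :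
    p ^ n * Nat.card {m : M // Helper5.uSL s • m = m} ≤ Nat.card M := by
  classical
  have hpp : p.Prime := Fact.out
  let B : AddSubgroup M :=
    { carrier := {m | negOneSL F • m = -m}
      zero_mem' := by simp
      add_mem' := by
        intro a b ha hb
        simp only [Set.mem_ofPred_eq] at ha hb ⊢
        rw [smul_add, ha, hb, neg_add]
      neg_mem' := by
        intro a ha
        simp only [Set.mem_ofPred_eq] at ha ⊢
        rw [smul_neg, ha] }
  let C : AddSubgroup M :=
    { carrier := {m | Helper5.uSL s • m = m}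
      zero_mem' := by simp
      add_mem' := by
        intro a b ha hb
        simp only [Set.mem_ofPred_eq] at ha hb ⊢
        rw [smul_add, ha, hb]
      neg_mem' := by
        intro a ha
        simp only [Set.mem_ofPred_eq] at ha ⊢
        rw [smul_neg, ha] }
  have hBmem : ∀ m : M, m ∈ B ↔ negOneSL F • m = -m := fun m => Iff.rfl
  have hCmem : ∀ m : M, m ∈ C ↔ Helper5.uSL s • m = m := fun m => Iff.rfl
  have hB : Nat.card B = Nat.card {m : M // negOneSL F • m = -m} :=
    Nat.card_congr (Equiv.subtypeEquivRight hBmem)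
  have hC : Nat.card C = Nat.card {m : M // Helper5.uSL s • m = m} :=
    Nat.card_congr (Equiv.subtypeEquivRight hCmem)
  have hBC : Nat.card (B ⊓ C : AddSubgroup M)
      = Nat.card {m : M // negOneSL F • m = -m ∧ Helper5.uSL s • m = m} :=
    Nat.card_congr (Equiv.subtypeEquivRight (fun m => by
      rw [AddSubgroup.mem_inf, hBmem, hCmem]))
  have hX := Helper37.s2788_index B C
  rw [hB, hC, hBC, hD] at hX
  obtain ⟨x, hx⟩ : ∃ x : ℕ,
      x = Nat.card {m : M // negOneSL F • m = -m ∧ Helper5.uSL s • m = m} := ⟨_, rfl⟩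
  obtain ⟨c, hc⟩ : ∃ c : ℕ, c = Nat.card {m : M // Helper5.uSL s • m = m} := ⟨_, rfl⟩
  rw [← hx] at hX hD
  rw [← hc] at hX ⊢
  have hxpos : 0 < x := by
    rw [hx, ← hBC]
    exact Nat.card_pos
  have hxc : x * c ≤ Nat.card M := by
    have h1 : x * (x * c) ≤ x * Nat.card M := by
      calc x * (x * c) = x ^ 2 * c := by ring
        _ ≤ Nat.card M * x := hX
        _ = x * Nat.card M := by ring
    exact Nat.le_of_mul_le_mul_left h1 hxpos
  -- `x` is at least `p ^ n`
  have hxp : p ^ n ≤ x := by
    by_cases hn : 2 ≤ n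
    · have h1 := hMC hn
      rw [hD, mul_comm, pow_mul] at h1
      exact (Nat.pow_le_pow_iff_left (by norm_num)).mp h1
    · have hn1 : p ^ n ≤ p := by
        calc p ^ n ≤ p ^ 1 := Nat.pow_le_pow_right hpp.pos (by omega)
          _ = p := pow_one p
      refine le_trans hn1 ?_
      -- `M₋` is nontrivial
      have hz1 : negOneSL F ≠ 1 := s2788_negOne_ne_one hp2
      have hex : ∃ m : M, negOneSL F • m ≠ m := by
        by_contra hcon
        push Not at hcon
        exact hz1 (hfaith _ hcon)
      obtain ⟨m, hm⟩ := hex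
      have hmB : m - negOneSL F • m ∈ B := by
        rw [hBmem, smul_sub, smul_smul, negOneSL_mul_self, one_smul]
        abel
      have hm0 : m - negOneSL F • m ≠ 0 := by
        intro h0
        apply hm
        rw [sub_eq_zero] at h0
        exact h0.symm
      have hBgt : 1 < Nat.card B := by
        rw [Finite.one_lt_card_iff_nontrivial]
        exact ⟨⟨⟨m - negOneSL F • m, hmB⟩, 0, fun h => hm0 (congrArg Subtype.val h)⟩⟩
      rw [hB, hD] at hBgt
      have hx1 : 1 < x := by
        by_contra hle
        have : x = 1 := by omega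
        rw [this] at hBgt
        norm_num at hBgt
      -- `p ∣ x`
      obtain ⟨r, hr, hrx⟩ := Nat.exists_prime_and_dvd (show x ≠ 1 by omega)
      rw [hx, ← hBC] at hrx
      have : Fact r.Prime := ⟨hr⟩
      obtain ⟨y, hy⟩ := exists_prime_addOrderOf_dvd_card' r hrx
      have hy2 : p • y = 0 := by
        apply Subtype.ext
        rw [AddSubgroup.coe_nsmul]
        exact hp _
      have hrp : r ∣ p := by
        rw [← hy]
        exact addOrderOf_dvd_of_nsmul_eq_zero hy2
      have hrp' : r = p := (Nat.prime_dvd_prime_iff_eq hr hpp).mp hrp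
      rw [hrp'] at hrx
      rw [hx, ← hBC]
      exact Nat.le_of_dvd Nat.card_pos hrx
  calc p ^ n * c ≤ x * c := Nat.mul_le_mul_right c hxp
    _ ≤ Nat.card M := hxc

end Cfsg.Agent.Helper67
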