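import Mathlib
import Cfsg.Prelude.Def_Sporadic_a

/-!
Definitions and basic facts for the uniqueness of the strongly regular graph with
parameters (77, 16, 0, 4)  (statement S0429).

Plan: in such a graph every pair of distinct nonadjacent vertices `x, y` has exactly three
"parallel" vertices (nonadjacent to both, no common neighbour with both); with `x, y` they
form a "line" (5 pairwise nonadjacent vertices, no three with a common neighbour).  The
cocliques of size 21 are unions of lines, there are exactly 22 of them, every vertex lies in 6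
and two nonadjacent vertices in exactly 2; they are the points of a Steiner system S(3,6,22)
whose block graph is the given graph.
-/

set_option autoImplicit false
set_option linter.unusedSectionVars false

namespace Cfsg.Agent.Helper67.S77

open Finset

variable {V : Type*} [Fintype V] [DecidableEq V] (G : SimpleGraph V) [DecidableRel G.Adj]

/-- number of common neighbours of three vertices -/
def t3 (x y z : V) : ℕ :=
  (G.neighborFinset x ∩ G.neighborFinset y ∩ G.neighborFinset z).card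

/-- the vertices different from `x`, `y` and adjacent to neither -/
def Rs (x y : V) : Finset V :=
  Finset.univ.filter (fun z => z ≠ x ∧ z ≠ y ∧ ¬ G.Adj x z ∧ ¬ G.Adj y z)

/-- the vertices parallel to the pair `x, y` -/
def Par (x y : V) : Finset V := (Rs G x y).filter (fun z => t3 G x y z = 0)

/-- the line through `x` and `y` -/
def lineOf (x y : V) : Finset V := insert x (insert y (Par G x y))

/-- a line: five pairwise nonadjacent vertices, no three of them with a common neighbour -/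
def IsLine (L : Finset V) : Prop :=
  L.card = 5 ∧ (∀ a ∈ L, ∀ b ∈ L, ¬ G.Adj a b) ∧
    ∀ a ∈ L, ∀ b ∈ L, ∀ c ∈ L, a ≠ b → a ≠ c → b ≠ c → t3 G a b c = 0

/-- a coclique with 21 vertices -/
def IsCocl (C : Finset V) : Prop := C.card = 21 ∧ ∀ a ∈ C, ∀ b ∈ C, ¬ G.Adj a b

instance instDecIsCocl : DecidablePred (IsCocl G) := fun C => by
  unfold IsCocl; infer_instance

/-- distinct and nonadjacent -/
def NA (x y : V) : Prop := x ≠ y ∧ ¬ G.Adj x y

/-- the set of all cocliques with 21 vertices -/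
def Cocls : Finset (Finset V) := Finset.univ.filter (fun C => IsCocl G C)

/-- the cocliques (points) through a vertex, as a finset of the subtype of points -/
def pts (v : V) : Finset {C // C ∈ Cocls G} := Finset.univ.filter (fun C => v ∈ C.1)

/-- the blocks: one for each vertex -/
def Blk : Set (Finset {C // C ∈ Cocls G}) := Set.range (pts G)

/-! ### the chain of facts (each proved in its own file) -/

def F1 : Prop := ∀ x y, NA G x y → (Rs G x y).card = 47
def F2 : Prop := ∀ x y, NA G x y → ∑ z ∈ Rs G x y, t3 G x y z = 56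
def F3 : Prop := ∀ x y, NA G x y → ∑ z ∈ Rs G x y, (t3 G x y z) ^ 2 = 80
def F4a : Prop := ∀ x y, NA G x y → (Par G x y).card ≤ 3
def F4 : Prop := ∀ x y, NA G x y → ∀ z ∈ Rs G x y, t3 G x y z ≤ 2
def F5 : Prop := ∀ x y, NA G x y → (Par G x y).card = 3
def F6 : Prop := ∀ x y, NA G x y →
  ((Rs G x y).filter (fun z => t3 G x y z = 2)).card = 12 ∧
  ((Rs G x y).filter (fun z => t3 G x y z = 1)).card = 32
def F7 : Prop := ∀ x y, NA G x y → ∀ z ∈ Par G x y, ∀ w, G.Adj z w → ¬ G.Adj x w → ¬ G.Adj y w →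
  t3 G x y w = 2
def F8 : Prop := ∀ x y, NA G x y → ∀ v ∈ Rs G x y, t3 G x y v = 2 →
  ((Par G x y).filter (fun z => G.Adj v z)).card = 2
def F9 : Prop := ∀ x y, NA G x y → ∀ z ∈ Par G x y, ∀ w ∈ Par G x y, z ≠ w →
  ∀ v, G.Adj z v → G.Adj w v → v ∈ Rs G x y ∧ t3 G x y v = 2
def F10 : Prop := ∀ x y, NA G x y → IsLine G (lineOf G x y)
def F11 : Prop := ∀ L, IsLine G L → ∀ x ∈ L, ∀ y ∈ L, x ≠ y → L = lineOf G x y
def F12 : Prop := ∀ L, IsLine G L → ∀ x ∈ L, ∀ a, G.Adj a x →
  (L.filter (fun v => G.Adj a v)).card = 2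
def F13 : Prop := ∀ K, IsLine G K → ∀ x, x ∉ K → (∀ v ∈ K, ¬ G.Adj x v) →
  ∀ v ∈ K, ∀ w ∈ K, v ≠ w → t3 G x v w = 1
def F14a : Prop := ∀ L L', IsLine G L → IsLine G L' → L ≠ L' → ∀ x, x ∈ L → x ∈ L' →
  ∀ v ∈ L, ∀ w ∈ L', v ≠ x → w ≠ x → t3 G x v w = 1 → ∀ u ∈ L, ¬ G.Adj w u
def F14 : Prop := ∀ L L', IsLine G L → IsLine G L' → L ≠ L' → ∀ x, x ∈ L → x ∈ L' →
  ∀ v ∈ L, ∀ w ∈ L', v ≠ x → w ≠ x → t3 G x v w = 1 → ∀ u ∈ L, ∀ u' ∈ L', ¬ G.Adj u u'
def F15 : Prop := ∀ C, IsCocl G C → ∀ v, v ∉ C → (C.filter (fun c => G.Adj v c)).card = 6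
def F16 : Prop := ∀ C, IsCocl G C → ∀ x ∈ C, ∀ y ∈ C, x ≠ y →
  Par G x y ⊆ C ∧
  (((Rs G x y).filter (fun z => t3 G x y z = 1)).filter (fun z => z ∈ C)).card = 16
def F17a : Prop := ∀ x y z, NA G x y → NA G x z → NA G y z → t3 G x y z = 1 →
  x ∉ lineOf G y z ∧ ∀ v ∈ lineOf G y z, ¬ G.Adj x v
def F17b : Prop := ∀ K, IsLine G K → ∀ x, x ∉ K → (∀ v ∈ K, ¬ G.Adj x v) →
  IsCocl G (K.biUnion (fun v => lineOf G x v))
def F17 : Prop := ∀ x y z, NA G x y → NA G x z → NA G y z → t3 G x y z = 1 →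
  ∃! C : Finset V, IsCocl G C ∧ x ∈ C ∧ y ∈ C ∧ z ∈ C
def F18 : Prop := ∀ x y, NA G x y → ((Cocls G).filter (fun C => x ∈ C ∧ y ∈ C)).card = 2
def F19a : Prop := ∀ x, ((Cocls G).filter (fun C => x ∈ C)).card = 6
def F19b : Prop := (Cocls G).card = 22
def F20a : Prop := (∀ v, (pts G v).card = 6) ∧
  (∀ v w, v ≠ w → (pts G v ∩ pts G w).card ≤ 2) ∧
  (∀ v w, v ≠ w → (G.Adj v w ↔ Disjoint (pts G v) (pts G w)))
def F20 : Prop := Cfsg.IsSteinerSystem 3 6 (Blk G)
def F21 : Prop := Nonempty (G ≃g Cfsg.blockGraph (Blk G))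

/-! ### basic facts -/

variable {G}

theorem t3_comm12 (x y z : V) : t3 G x y z = t3 G y x z := by
  unfold t3; rw [Finset.inter_comm (G.neighborFinset x)]

theorem t3_comm23 (x y z : V) : t3 G x y z = t3 G x z y := by
  unfold t3; rw [Finset.inter_assoc, Finset.inter_comm (G.neighborFinset y), ← Finset.inter_assoc]

theorem t3_rot (x y z : V) : t3 G x y z = t3 G y z x := by
  rw [t3_comm12, t3_comm23]

theorem mem_Rs {x y z : V} : z ∈ Rs G x y ↔ z ≠ x ∧ z ≠ y ∧ ¬ G.Adj x z ∧ ¬ G.Adj y z := by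
  unfold Rs; simp

theorem mem_Par {x y z : V} : z ∈ Par G x y ↔ z ∈ Rs G x y ∧ t3 G x y z = 0 := by
  unfold Par; simp

theorem mem_lineOf {x y z : V} : z ∈ lineOf G x y ↔ z = x ∨ z = y ∨ z ∈ Par G x y := by
  unfold lineOf; simp

theorem mem_Cocls {C : Finset V} : C ∈ Cocls G ↔ IsCocl G C := by
  unfold Cocls; simp

theorem mem_pts {v : V} {C : {C // C ∈ Cocls G}} : C ∈ pts G v ↔ v ∈ C.1 := by
  unfold pts; simp

theorem NA.symm {x y : V} (h : NA G x y) : NA G y x := ⟨h.1.symm, fun h' => h.2 h'.symm⟩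

/-- common neighbours as a finset -/
theorem card_common_eq (x y : V) :
    Fintype.card (G.commonNeighbors x y) = (G.neighborFinset x ∩ G.neighborFinset y).card := by
  rw [← Set.toFinset_card]
  congr 1
  ext z
  rw [Set.mem_toFinset]
  simp [SimpleGraph.commonNeighbors]

variable (hG : G.IsSRGWith 77 16 0 4)
include hG

theorem card_V : Fintype.card V = 77 := hG.card

theorem card_nbr (x : V) : (G.neighborFinset x).card = 16 := hG.regular.degree_eq x

/-- two distinct nonadjacent vertices have exactly four common neighbours -/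
theorem card_common {x y : V} (h : NA G x y) :
    (G.neighborFinset x ∩ G.neighborFinset y).card = 4 := by
  rw [← card_common_eq]; exact hG.of_not_adj h.1 h.2

/-- the graph is triangle-free -/
theorem tri_free {a b c : V} (hab : G.Adj a b) (hac : G.Adj a c) : ¬ G.Adj b c := by
  intro hbc
  have h := hG.of_adj b c hbc
  rw [card_common_eq] at h
  have : a ∈ G.neighborFinset b ∩ G.neighborFinset c := by
    simp [hab.symm, hac.symm]
  rw [Finset.card_eq_zero] at h
  rw [h] at this
  simp at this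

end Cfsg.Agent.Helper67.S77
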