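import Cfsg.Agent.Helper67.S77Defs

/-!
S0429 piece F20: the 77 blocks `pts G v` form a Steiner system S(3,6,22).
-/

set_option autoImplicit false
set_option linter.unusedSectionVars false

namespace Cfsg.Agent.Helper67.S77F20

open Finset Cfsg.Agent.Helper67.S77

variable {V : Type*} [Fintype V] [DecidableEq V] {G : SimpleGraph V} [DecidableRel G.Adj]

theorem p_F20 (hG : G.IsSRGWith 77 16 0 4) (h19b : F19b G) (h20a : F20a G) : F20 G := by
  obtain ⟨h6, h2, -⟩ := h20a
  have hα : Fintype.card {C // C ∈ Cocls G} = 22 := by
    rw [Fintype.card_coe]; exact h19b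
  refine ⟨?_, ?_⟩
  · rintro b ⟨v, rfl⟩
    exact h6 v
  · have hle : ∀ s : Finset {C // C ∈ Cocls G}, s.card = 3 →
        (univ.filter (fun v : V => s ⊆ pts G v)).card ≤ 1 := by
      intro s hs
      rw [Finset.card_le_one]
      intro v hv w hw
      simp only [mem_filter, mem_univ, true_and] at hv hw
      by_contra hne
      have h1 := h2 v w hne
      have h3 : s.card ≤ (pts G v ∩ pts G w).card :=
        Finset.card_le_card (Finset.subset_inter hv hw)
      omega
    have hsum : ∑ s ∈ (univ : Finset {C // C ∈ Cocls G}).powersetCard 3,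
        (univ.filter (fun v : V => s ⊆ pts G v)).card = 1540 := by
      have hsw : ∑ s ∈ (univ : Finset {C // C ∈ Cocls G}).powersetCard 3,
          (univ.filter (fun v : V => s ⊆ pts G v)).card
          = ∑ v : V, ((pts G v).powersetCard 3).card := by
        simp only [Finset.card_filter]
        rw [Finset.sum_comm]
        refine Finset.sum_congr rfl (fun v _ => ?_)
        rw [← Finset.card_filter]
        congr 1
        ext s
        simp only [mem_filter, Finset.mem_powersetCard, subset_univ, true_and]
        tauto
      rw [hsw]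
      simp only [Finset.card_powersetCard, h6]
      rw [Finset.sum_const, Finset.card_univ, card_V hG]
      decide
    have hcard : ((univ : Finset {C // C ∈ Cocls G}).powersetCard 3).card = 1540 := by
      rw [Finset.card_powersetCard, Finset.card_univ, hα]
      decide
    have hone : ∀ s ∈ (univ : Finset {C // C ∈ Cocls G}).powersetCard 3,
        (univ.filter (fun v : V => s ⊆ pts G v)).card = 1 := by
      by_contra hcon
      push Not at hcon
      obtain ⟨s0, hs0, hne⟩ := hcon
      have hlt : ∑ s ∈ (univ : Finset {C // C ∈ Cocls G}).powersetCard 3,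
          (univ.filter (fun v : V => s ⊆ pts G v)).card
          < ∑ s ∈ (univ : Finset {C // C ∈ Cocls G}).powersetCard 3, 1 := by
        apply Finset.sum_lt_sum
        · intro s hs
          exact hle s (Finset.mem_powersetCard.1 hs).2
        · refine ⟨s0, hs0, ?_⟩
          have := hle s0 (Finset.mem_powersetCard.1 hs0).2
          omega
      rw [hsum, Finset.sum_const, hcard] at hlt
      simp at hlt
    intro s hs
    have h1 := hone s (Finset.mem_powersetCard.2 ⟨Finset.subset_univ _, hs⟩)
    obtain ⟨v, hv⟩ := Finset.card_eq_one.1 h1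
    have hvmem : v ∈ univ.filter (fun v : V => s ⊆ pts G v) := by
      rw [hv]; simp
    refine ⟨pts G v, ⟨⟨v, rfl⟩, (Finset.mem_filter.1 hvmem).2⟩, ?_⟩
    rintro b ⟨⟨w, rfl⟩, hw⟩
    have hwm : w ∈ univ.filter (fun v : V => s ⊆ pts G v) := by simp [hw]
    rw [hv] at hwm
    rw [Finset.mem_singleton.1 hwm]

end Cfsg.Agent.Helper67.S77F20
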