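import Cfsg.Agent.Helper67.S77Defs

/-!
S0429 piece F20a: transfer of the coclique counts to the blocks `pts G v`.
-/

set_option autoImplicit false
set_option linter.unusedSectionVars false
set_option linter.unusedVariables false

namespace Cfsg.Agent.Helper67.S77F20a

open Finset Cfsg.Agent.Helper67.S77

variable {V : Type*} [Fintype V] [DecidableEq V] {G : SimpleGraph V} [DecidableRel G.Adj]

/-- counting a filter of the subtype of cocliques -/
theorem card_sub (P : Finset V → Prop) [DecidablePred P] :
    (univ.filter (fun C : {C // C ∈ Cocls G} => P C.1)).card = ((Cocls G).filter P).card := by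
  rw [← Finset.card_map (Function.Embedding.subtype _)]
  congr 1
  ext C
  simp only [mem_map, mem_filter, mem_univ, true_and, Function.Embedding.coe_subtype,
    Subtype.exists, exists_and_right, exists_eq_right]
  constructor
  · rintro ⟨hC, hP⟩
    exact ⟨hC, hP⟩
  · rintro ⟨hC, hP⟩
    exact ⟨hC, hP⟩

theorem pts_inter (v w : V) :
    pts G v ∩ pts G w = univ.filter (fun C : {C // C ∈ Cocls G} => v ∈ C.1 ∧ w ∈ C.1) := by
  ext C
  simp [mem_pts]

theorem p_F20a (hG : G.IsSRGWith 77 16 0 4) (h18 : F18 G) (h19a : F19a G) : F20a G := by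
  have hadj : ∀ v w, G.Adj v w → (pts G v ∩ pts G w).card = 0 := by
    intro v w hvw
    rw [pts_inter, card_sub (fun C => v ∈ C ∧ w ∈ C), Finset.card_eq_zero,
      Finset.filter_eq_empty_iff]
    intro C hC hvwC
    exact (mem_Cocls.1 hC).2 v hvwC.1 w hvwC.2 hvw
  have hna : ∀ v w, NA G v w → (pts G v ∩ pts G w).card = 2 := by
    intro v w hvw
    rw [pts_inter, card_sub (fun C => v ∈ C ∧ w ∈ C)]
    exact h18 v w hvw
  refine ⟨?_, ?_, ?_⟩
  · intro v
    have h := card_sub (G := G) (fun C => v ∈ C)
    unfold pts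
    rw [h]
    exact h19a v
  · intro v w hvw
    by_cases ha : G.Adj v w
    · rw [hadj v w ha]; omega
    · rw [hna v w ⟨hvw, ha⟩]
  · intro v w hvw
    constructor
    · intro ha
      rw [Finset.disjoint_iff_inter_eq_empty, ← Finset.card_eq_zero]
      exact hadj v w ha
    · intro hd
      by_contra ha
      have h2 := hna v w ⟨hvw, ha⟩
      rw [Finset.disjoint_iff_inter_eq_empty] at hd
      rw [hd] at h2
      simp at h2

end Cfsg.Agent.Helper67.S77F20a
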