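import Cfsg.Agent.Helper67.S77Defs

/-!
S0429 piece F21: the graph is isomorphic to the block graph of its system of 21-cocliques.
-/

set_option autoImplicit false
set_option linter.unusedSectionVars false

namespace Cfsg.Agent.Helper67.S77F21

open Finset Cfsg.Agent.Helper67.S77

variable {V : Type*} [Fintype V] [DecidableEq V] {G : SimpleGraph V} [DecidableRel G.Adj]

theorem p_F21 (h20a : F20a G) : F21 G := by
  obtain ⟨h6, h2, h3⟩ := h20a
  have hinj : Function.Injective (pts G) := by
    intro v w hvw
    by_contra hne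
    have h := h2 v w hne
    rw [hvw, Finset.inter_self, h6] at h
    omega
  refine ⟨⟨(Equiv.ofInjective (pts G) hinj : V ≃ ↥(Blk G)), ?_⟩⟩
  intro v w
  unfold Cfsg.blockGraph
  rw [SimpleGraph.fromRel_adj]
  constructor
  · rintro ⟨hne, hd⟩
    have hvw : v ≠ w := by
      rintro rfl
      exact hne rfl
    rw [h3 v w hvw]
    rcases hd with hd | hd
    · exact hd
    · exact hd.symm
  · intro hadj
    have hvw : v ≠ w := G.ne_of_adj hadj
    refine ⟨fun h => hvw ((Equiv.ofInjective (pts G) hinj).injective h),
      Or.inl ((h3 v w hvw).1 hadj)⟩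

end Cfsg.Agent.Helper67.S77F21
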