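import Cfsg.Agent.Helper67.S77Defs

/-!
S0429 pieces F4a, F5, F6: arithmetic consequences of the three basic counts.
-/

set_option autoImplicit false
set_option linter.unusedSectionVars false

namespace Cfsg.Agent.Helper67.S77F5

open Finset Cfsg.Agent.Helper67.S77

variable {V : Type*} [Fintype V] [DecidableEq V] {G : SimpleGraph V} [DecidableRel G.Adj]

theorem p_F5 (h1 : F1 G) (h2 : F2 G) (h3 : F3 G) (h4 : F4 G) : F5 G := by
  intro x y hxy
  have e1 := h1 x y hxy
  have e2 := h2 x y hxy
  have e3 := h3 x y hxy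
  have e4 := h4 x y hxy
  have key : ∑ z ∈ Rs G x y, ((t3 G x y z) ^ 2 + 2) =
      ∑ z ∈ Rs G x y, (3 * t3 G x y z + 2 * (if t3 G x y z = 0 then 1 else 0)) := by
    refine Finset.sum_congr rfl (fun z hz => ?_)
    have := e4 z hz
    interval_cases (t3 G x y z) <;> simp
  rw [Finset.sum_add_distrib, Finset.sum_add_distrib, ← Finset.mul_sum, ← Finset.mul_sum,
    e3, e2, Finset.sum_const, e1, ← Finset.card_filter] at key
  have : (Par G x y).card = ((Rs G x y).filter (fun z => t3 G x y z = 0)).card := rfl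
  simp only [smul_eq_mul] at key
  omega

theorem p_F6 (h1 : F1 G) (h2 : F2 G) (h3 : F3 G) (h4 : F4 G) : F6 G := by
  intro x y hxy
  have e1 := h1 x y hxy
  have e2 := h2 x y hxy
  have e3 := h3 x y hxy
  have e4 := h4 x y hxy
  have key : ∑ z ∈ Rs G x y, (t3 G x y z) ^ 2 =
      ∑ z ∈ Rs G x y, (t3 G x y z + 2 * (if t3 G x y z = 2 then 1 else 0)) := by
    refine Finset.sum_congr rfl (fun z hz => ?_)
    have := e4 z hz
    interval_cases (t3 G x y z) <;> simp
  have key2 : ∑ z ∈ Rs G x y, t3 G x y z =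
      ∑ z ∈ Rs G x y, ((if t3 G x y z = 1 then 1 else 0) +
        2 * (if t3 G x y z = 2 then 1 else 0)) := by
    refine Finset.sum_congr rfl (fun z hz => ?_)
    have := e4 z hz
    interval_cases (t3 G x y z) <;> simp
  rw [Finset.sum_add_distrib, ← Finset.mul_sum, e3, e2, ← Finset.card_filter] at key
  rw [Finset.sum_add_distrib, ← Finset.mul_sum, e2, ← Finset.card_filter,
    ← Finset.card_filter] at key2
  constructor <;> omega

end Cfsg.Agent.Helper67.S77F5
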