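import Mathlib
import Cfsg.Agent.Helper43.S88OEDefs

set_option autoImplicit false

/-!
# Sub-CALL S88OE piece AG (helper67): `oe_arith_good` (pure arithmetic), with the reduction
`oe_red67` of the condition of the row to the quotients and remainders by `j = i / 2`.
-/

namespace Cfsg.Agent.Helper67.S88OE

open Cfsg.Agent.Helper43.S88OE

section arith

/-- the condition of the row in terms of `D = d / j`, `e = d % j`, `M = m' / j`, `a = m' % j`. -/
theorem oe_red67 (d m' j : ℕ) (hj : 1 ≤ j) :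
    (((2 * d) % (2 * j) = 0 ∧ (Odd ((2 * d) / (2 * j)) ∨
        ((2 * m') % (2 * j) = 0 ∧ Odd ((2 * m') / (2 * j))))) ∨
      (2 * j ≤ 2 * m' ∧ ((0 < (2 * m') % (2 * j) ∧ (2 * m') % (2 * j) < (2 * d) % (2 * j)) ∨
        (0 < (2 * m') % (2 * j) ∧ (2 * m') % (2 * j) = (2 * d) % (2 * j) ∧
          Odd ((2 * d + 2 * m' - 2 * ((2 * d) % (2 * j))) / (2 * j))) ∨
        ((2 * m') % (2 * j) = 0 ∧ 0 < (2 * d) % (2 * j) ∧ Odd ((2 * m') / (2 * j)))))) ↔
    ((d % j = 0 ∧ (Odd (d / j) ∨ (m' % j = 0 ∧ Odd (m' / j)))) ∨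
      (1 ≤ m' / j ∧ ((0 < m' % j ∧ m' % j < d % j) ∨
        (0 < m' % j ∧ m' % j = d % j ∧ Odd (d / j + m' / j)) ∨
        (m' % j = 0 ∧ 0 < d % j ∧ Odd (m' / j))))) := by
  have h1 : (2 * d) % (2 * j) = 2 * (d % j) := Nat.mul_mod_mul_left 2 d j
  have h2 : (2 * d) / (2 * j) = d / j := Nat.mul_div_mul_left d j (by norm_num)
  have h3 : (2 * m') % (2 * j) = 2 * (m' % j) := Nat.mul_mod_mul_left 2 m' j
  have h4 : (2 * m') / (2 * j) = m' / j := Nat.mul_div_mul_left m' j (by norm_num)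
  have h5 : 2 * j ≤ 2 * m' ↔ 1 ≤ m' / j := by
    rw [Nat.le_div_iff_mul_le (by omega)]
    omega
  have h6 : m' % j = d % j →
      (2 * d + 2 * m' - 2 * (2 * (d % j))) / (2 * j) = d / j + m' / j := by
    intro h
    have hd := Nat.div_add_mod d j
    have hm := Nat.div_add_mod m' j
    have e1 : 2 * j * (d / j + m' / j) = 2 * (j * (d / j)) + 2 * (j * (m' / j)) := by ring
    have e2 : 2 * d + 2 * m' - 2 * (2 * (d % j)) = (2 * j) * (d / j + m' / j) := by
      omega
    rw [e2, Nat.mul_div_cancel_left _ (by omega)]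
  rw [h1, h2, h3, h4, h5]
  constructor
  · rintro (⟨ha, hb⟩ | ⟨ha, hb⟩)
    · left
      refine ⟨by omega, ?_⟩
      rcases hb with hb | ⟨hb, hc⟩
      · left
        exact hb
      · right
        exact ⟨by omega, hc⟩
    · right
      refine ⟨ha, ?_⟩
      rcases hb with ⟨hb, hc⟩ | ⟨hb, hc, hd'⟩ | ⟨hb, hc, hd'⟩
      · left
        exact ⟨by omega, by omega⟩
      · right
        left
        rw [h6 (by omega)] at hd'
        exact ⟨by omega, by omega, hd'⟩
      · right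
        right
        exact ⟨by omega, by omega, hd'⟩
  · rintro (⟨ha, hb⟩ | ⟨ha, hb⟩)
    · left
      refine ⟨by omega, ?_⟩
      rcases hb with hb | ⟨hb, hc⟩
      · left
        exact hb
      · right
        exact ⟨by omega, hc⟩
    · right
      refine ⟨ha, ?_⟩
      rcases hb with ⟨hb, hc⟩ | ⟨hb, hc, hd'⟩ | ⟨hb, hc, hd'⟩
      · left
        exact ⟨by omega, by omega⟩
      · right
        left
        rw [h6 hc]
        exact ⟨by omega, by omega, hd'⟩
      · right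
        right
        exact ⟨by omega, by omega, hd'⟩

/-- the good direction in the variables `M, a, D, e`. -/
theorem oe_core_good67 (j M a D e A k₀ : ℕ) (hj : 1 ≤ j) (ha : a < j) (he : e < j) (hA : 1 ≤ A)
    (hk : k₀ + j * A = j * D + e) (hk0 : k₀ = 0 → Even A) (hmd : 2 * (j * M + a) < j * D + e)
    (hm : 1 ≤ j * M + a)
    (hcond : (e = 0 ∧ (Odd D ∨ (a = 0 ∧ Odd M))) ∨
      (1 ≤ M ∧ ((0 < a ∧ a < e) ∨ (0 < a ∧ a = e ∧ Odd (D + M)) ∨ (a = 0 ∧ 0 < e ∧ Odd M)))) :
    ∃ s w₂, Val A k₀ s w₂ ∧ j * M + a = j * s + w₂ := by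
  have hAD : A ≤ D := by
    by_contra h
    push Not at h
    have h1 : j * (D + 1) ≤ j * A := Nat.mul_le_mul_left j h
    have h2 : j * (D + 1) = j * D + j := by ring
    omega
  have hMD : 2 * M ≤ D := by
    by_contra h
    push Not at h
    have h1 : j * (D + 1) ≤ j * (2 * M) := Nat.mul_le_mul_left j h
    have h2 : j * (D + 1) = j * D + j := by ring
    have h3 : j * (2 * M) = 2 * (j * M) := by ring
    omega
  simp only [Nat.odd_iff] at hcond
  have hk0' : k₀ = 0 → A % 2 = 0 := fun h => Nat.even_iff.mp (hk0 h)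
  unfold Val
  rcases Nat.lt_or_ge A M with hAM | hMA
  · obtain ⟨t, rfl⟩ : ∃ t, M = A + t := ⟨M - A, by omega⟩
    obtain ⟨u, rfl⟩ : ∃ u, D = A + t + u := ⟨D - (A + t), by omega⟩
    have e1 : j * (A + t) = j * A + j * t := by ring
    have e2 : j * (A + t + u) = j * A + j * t + j * u := by ring
    have e3 : j ≤ j * t := Nat.le_mul_of_pos_right j (by omega)
    have e4 : j ≤ j * u := Nat.le_mul_of_pos_right j (by omega)
    exact ⟨A, j * t + a, ⟨le_refl _, by omega, Or.inl ⟨by omega, by omega⟩⟩, by omega⟩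
  · obtain ⟨t, rfl⟩ : ∃ t, A = M + t := ⟨A - M, by omega⟩
    obtain ⟨u, rfl⟩ : ∃ u, D = M + t + u := ⟨D - (M + t), by omega⟩
    have e1 : j * (M + t) = j * M + j * t := by ring
    have e2 : j * (M + t + u) = j * M + j * t + j * u := by ring
    have hk' : k₀ = j * u + e := by omega
    have e4 : u = 0 ∨ j ≤ j * u := by
      rcases Nat.eq_zero_or_pos u with h | h
      · left
        exact h
      · right
        exact Nat.le_mul_of_pos_right j h
    have hu1 : e = 0 → (M + t + u) % 2 = 1 → 1 ≤ u := by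
      intro he0 hDo
      by_contra h
      have hu0 : u = 0 := by omega
      subst hu0
      have h3 := hk0' (by rw [hk', he0]; simp)
      omega
    by_cases hsp : a = 0 ∧ M % 2 = 0 ∧ e = 0 ∧ (M + t + u) % 2 = 1
    · obtain ⟨ha0, hMe, he0, hDo⟩ := hsp
      have hM2 : 2 ≤ M := by
        rcases Nat.eq_zero_or_pos M with h | h
        · subst h
          simp at hm
          omega
        · omega
      have hu := hu1 he0 hDo
      obtain ⟨M', rfl⟩ : ∃ M', M = M' + 1 := ⟨M - 1, by omega⟩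
      have e5 : j * (M' + 1) = j * M' + j := by ring
      have e6 : j ≤ j * u := Nat.le_mul_of_pos_right j (by omega)
      refine ⟨M', j, ⟨by omega, by omega, ?_⟩, by omega⟩
      rcases Nat.lt_or_ge 1 u with hu2 | hu1'
      · left
        have h7 : j * 2 ≤ j * u := Nat.mul_le_mul_left j hu2
        omega
      · right
        right
        have hu1'' : u = 1 := by omega
        subst hu1''
        refine ⟨by omega, ?_⟩
        rw [Nat.odd_iff]
        omega
    · refine ⟨M, a, ?_, rfl⟩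
      suffices h : a ≤ k₀ ∧ ((0 < a ∧ a < k₀) ∨ (a = 0 ∧ Odd M) ∨ (a = k₀ ∧ Odd (M + (M + t))))
        from ⟨by omega, h.1, h.2⟩
      rcases hcond with ⟨he0, hor⟩ | ⟨hM1, hor⟩
      · rcases hor with hDo | ⟨ha0, hMo⟩
        · have hu := hu1 he0 hDo
          have e6 : j ≤ j * u := Nat.le_mul_of_pos_right j (by omega)
          by_cases ha0 : a = 0
          · have hMo : M % 2 = 1 := by
              by_contra h
              exact hsp ⟨ha0, by omega, he0, hDo⟩
            exact ⟨by omega, Or.inr (Or.inl ⟨ha0, Nat.odd_iff.mpr hMo⟩)⟩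
          · exact ⟨by omega, Or.inl ⟨by omega, by omega⟩⟩
        · exact ⟨by omega, Or.inr (Or.inl ⟨ha0, Nat.odd_iff.mpr hMo⟩)⟩
      · rcases hor with ⟨h1, h2⟩ | ⟨h1, h2, h3⟩ | ⟨h1, h2, h3⟩
        · exact ⟨by omega, Or.inl ⟨h1, by omega⟩⟩
        · rcases e4 with hu0 | hju
          · subst hu0
            refine ⟨by omega, Or.inr (Or.inr ⟨by omega, ?_⟩)⟩
            rw [Nat.odd_iff]
            omega
          · exact ⟨by omega, Or.inl ⟨h1, by omega⟩⟩
        · exact ⟨by omega, Or.inr (Or.inl ⟨h1, Nat.odd_iff.mpr h3⟩)⟩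

/-- AG: under the condition of the row, every profile `(A, k₀)` has an admissible pair. -/
theorem oe_arith_good (d m i : ℕ) (hd : 4 ≤ d) (hm : 2 ≤ m) (hme : Even m) (hmd : m < d)
    (hi : 2 ≤ i) (heven : Even i)
    (hcond : ((2 * d) % i = 0 ∧ (Odd ((2 * d) / i) ∨ (m % i = 0 ∧ Odd (m / i)))) ∨
      (i ≤ m ∧ ((0 < m % i ∧ m % i < (2 * d) % i) ∨
        (0 < m % i ∧ m % i = (2 * d) % i ∧ Odd ((2 * d + m - 2 * ((2 * d) % i)) / i)) ∨
        (m % i = 0 ∧ 0 < (2 * d) % i ∧ Odd (m / i)))))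
    (A k₀ : ℕ) (hA : 1 ≤ A) (hdk : d = k₀ + i / 2 * A) (hk₀ : k₀ = 0 → Even A) :
    ∃ s w₂, Val A k₀ s w₂ ∧ m = 2 * (i / 2 * s + w₂) := by
  obtain ⟨j, rfl⟩ : ∃ j, i = 2 * j := by
    obtain ⟨j, hj⟩ := heven
    exact ⟨j, by omega⟩
  obtain ⟨m', rfl⟩ : ∃ m', m = 2 * m' := by
    obtain ⟨k, hk⟩ := hme
    exact ⟨k, by omega⟩
  have hj : 1 ≤ j := by omega
  rw [oe_red67 d m' j hj] at hcond
  have hj2 : 2 * j / 2 = j := Nat.mul_div_cancel_left j (by norm_num)
  rw [hj2] at hdk ⊢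
  have hDe := Nat.div_add_mod d j
  have hMa := Nat.div_add_mod m' j
  have he := Nat.mod_lt d hj
  have ha := Nat.mod_lt m' hj
  obtain ⟨s, w₂, hv, heq⟩ := oe_core_good67 j (m' / j) (m' % j) (d / j) (d % j) A k₀ hj ha he hA
    (by omega) hk₀ (by omega) (by omega) hcond
  exact ⟨s, w₂, hv, by omega⟩

end arith

end Cfsg.Agent.Helper67.S88OE
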