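import Mathlib
import Cfsg.Agent.Helper43.S88OEDefs
import Cfsg.Agent.Helper67.S88OEAG

set_option autoImplicit false

/-!
# Sub-CALL S88OE piece AB (helper67): `oe_arith_bad` (pure arithmetic).  The profile without an
admissible pair is always the maximal one, `A = (2 d) / i`, `k₀ = d % (i / 2)`.
-/

namespace Cfsg.Agent.Helper67.S88OE

open Cfsg.Agent.Helper43.S88OE

section arith

/-- the bad direction in the variables `M, a, D, e`: the profile `(D, e)` has no admissible pair. -/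
theorem oe_core_bad67 (j M a D e : ℕ) (ha : a < j) (he : e < j)
    (hcond : ¬ ((e = 0 ∧ (Odd D ∨ (a = 0 ∧ Odd M))) ∨
      (1 ≤ M ∧ ((0 < a ∧ a < e) ∨ (0 < a ∧ a = e ∧ Odd (D + M)) ∨
        (a = 0 ∧ 0 < e ∧ Odd M))))) :
    (M = 0 ∧ (a < e ∨ (a = e ∧ Odd D))) ∨
      ((e = 0 → Even D) ∧ ∀ s w₂, Val D e s w₂ → j * M + a ≠ j * s + w₂) := by
  simp only [Nat.odd_iff] at hcond ⊢
  by_cases hM : M = 0 ∧ (a < e ∨ (a = e ∧ D % 2 = 1))
  · left
    exact hM
  · right
    refine ⟨?_, ?_⟩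
    · intro he0
      rw [Nat.even_iff]
      by_contra h
      exact hcond (Or.inl ⟨he0, Or.inl (by omega)⟩)
    · intro s w₂ hv heq
      obtain ⟨hs, hw, halt⟩ := hv
      have hMs : M = s := by
        rcases Nat.lt_trichotomy M s with h | h | h
        · exfalso
          have h1 : j * (M + 1) ≤ j * s := Nat.mul_le_mul_left j h
          have h2 : j * (M + 1) = j * M + j := by ring
          omega
        · exact h
        · exfalso
          have h1 : j * (s + 1) ≤ j * M := Nat.mul_le_mul_left j h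
          have h2 : j * (s + 1) = j * s + j := by ring
          omega
      subst hMs
      have haw : a = w₂ := by omega
      subst haw
      simp only [Nat.odd_iff] at halt
      rcases halt with ⟨h1, h2⟩ | ⟨h1, h2⟩ | ⟨h1, h2⟩
      · rcases Nat.eq_zero_or_pos M with hM0 | hM1
        · exact hM ⟨hM0, Or.inl h2⟩
        · exact hcond (Or.inr ⟨hM1, Or.inl ⟨h1, h2⟩⟩)
      · rcases Nat.eq_zero_or_pos e with he0 | he1
        · exact hcond (Or.inl ⟨he0, Or.inr ⟨h1, h2⟩⟩)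
        · exact hcond (Or.inr ⟨by omega, Or.inr (Or.inr ⟨h1, he1, h2⟩)⟩)
      · rcases Nat.eq_zero_or_pos M with hM0 | hM1
        · subst hM0
          exact hM ⟨rfl, Or.inr ⟨h1, by omega⟩⟩
        · rcases Nat.eq_zero_or_pos a with ha0 | ha1
          · have h3 : D % 2 = 1 ∨ M % 2 = 1 := by omega
            rcases h3 with h | h
            · exact hcond (Or.inl ⟨by omega, Or.inl h⟩)
            · exact hcond (Or.inl ⟨by omega, Or.inr ⟨ha0, h⟩⟩)
          · exact hcond (Or.inr ⟨hM1, Or.inr (Or.inl ⟨ha1, h1, by omega⟩)⟩)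

/-- AB: if the condition of the row fails (and `i ≤ 2 d`), either the hypothesis of NDIV holds or
some profile has no admissible pair for `m`. -/
theorem oe_arith_bad (d m i : ℕ) (hd : 4 ≤ d) (hm : 2 ≤ m) (hme : Even m) (hmd : m < d)
    (hi : 2 ≤ i) (heven : Even i) (hid : i ≤ 2 * d)
    (hcond : ¬ (((2 * d) % i = 0 ∧ (Odd ((2 * d) / i) ∨ (m % i = 0 ∧ Odd (m / i)))) ∨
      (i ≤ m ∧ ((0 < m % i ∧ m % i < (2 * d) % i) ∨
        (0 < m % i ∧ m % i = (2 * d) % i ∧ Odd ((2 * d + m - 2 * ((2 * d) % i)) / i)) ∨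
        (m % i = 0 ∧ 0 < (2 * d) % i ∧ Odd (m / i)))))) :
    (m < i ∧ (m < (2 * d) % i ∨ (m = (2 * d) % i ∧ Odd ((2 * d) / i)))) ∨
      ∃ A k₀, 1 ≤ A ∧ d = k₀ + i / 2 * A ∧ (k₀ = 0 → Even A) ∧
        ∀ s w₂, Val A k₀ s w₂ → m ≠ 2 * (i / 2 * s + w₂) := by
  obtain ⟨j, rfl⟩ : ∃ j, i = 2 * j := by
    obtain ⟨j, hj⟩ := heven
    exact ⟨j, by omega⟩
  obtain ⟨m', rfl⟩ : ∃ m', m = 2 * m' := by
    obtain ⟨k, hk⟩ := hme
    exact ⟨k, by omega⟩
  have hj : 1 ≤ j := by omega
  rw [oe_red67 d m' j hj] at hcond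
  have hj2 : 2 * j / 2 = j := Nat.mul_div_cancel_left j (by norm_num)
  have h1 : (2 * d) % (2 * j) = 2 * (d % j) := Nat.mul_mod_mul_left 2 d j
  have h2 : (2 * d) / (2 * j) = d / j := Nat.mul_div_mul_left d j (by norm_num)
  rw [hj2, h1, h2]
  have hDe := Nat.div_add_mod d j
  have hMa := Nat.div_add_mod m' j
  have he := Nat.mod_lt d hj
  have ha := Nat.mod_lt m' hj
  have hD1 : 1 ≤ d / j := by
    rw [Nat.le_div_iff_mul_le (by omega)]
    omega
  rcases oe_core_bad67 j (m' / j) (m' % j) (d / j) (d % j) ha he hcond with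
    ⟨hM0, hor⟩ | ⟨hev, hno⟩
  · left
    have hlt : m' < j := by
      rw [hM0] at hMa
      omega
    have hmm : m' % j = m' := Nat.mod_eq_of_lt hlt
    rw [hmm] at hor
    refine ⟨by omega, ?_⟩
    rcases hor with h | ⟨h, h'⟩
    · left
      omega
    · right
      exact ⟨by omega, h'⟩
  · right
    refine ⟨d / j, d % j, hD1, by omega, hev, ?_⟩
    intro s w₂ hv heq
    exact hno s w₂ hv (by omega)

end arith

end Cfsg.Agent.Helper67.S88OE
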