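import Mathlib
import Cfsg.Prelude.Def_GeometricClasses
import Cfsg.Prelude.Def_Classical
import Cfsg.Agent.Helper35.S88Defs
import Cfsg.Agent.Helper58.TSDefs
import Cfsg.Agent.Helper43.PrimeOrdO3
import Cfsg.Agent.Helper33.OType
import Cfsg.Agent.Helper43.S88OEDefs
import Cfsg.Agent.Helper93.TBTYPEPROD
import Cfsg.Agent.Helper93.TBPROD
import Cfsg.Agent.Helper10.S88OEPSND
import Cfsg.Agent.Helper98.S88OEPSTYPE

set_option autoImplicit false

/-!
# Sub-CALL S88OE piece ADDFIX (helper67), core: `oe_add_fix_of67` is ADDFIX with the model space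
`V₀` of MODEL0 given as data.
-/

namespace Cfsg.Agent.Helper67.S88OE

open Module Polynomial Cfsg Cfsg.Geo Cfsg.Agent.Helper58.TS Cfsg.Agent.Helper35.S88
open Cfsg.Agent.Helper43 Cfsg.Agent.Helper43.OrthEven Cfsg.Agent.Helper43.CycFactors
  Cfsg.Agent.Helper43.PrimeOrdMat Cfsg.Agent.Helper43.S88OE
open scoped MatrixGroups

universe u

section lin67

variable {F : Type*} [Field F] {Va Vb : Type*} [AddCommGroup Va] [Module F Va] [AddCommGroup Vb]
  [Module F Vb]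

theorem oe_top_nd67 (Qa : QuadraticForm F Va) (ha : PolarNondeg Qa) :
    PolarNondeg (Qa.comp (⊤ : Submodule F Va).subtype) := by
  intro v hv
  apply Subtype.ext
  apply ha
  intro w
  have h := hv ⟨w, Submodule.mem_top⟩
  rw [Cfsg.Agent.Helper10.S88OE.oe_polar_restr] at h
  exact h

theorem oe_bot_nd67 (Qa : QuadraticForm F Va) :
    PolarNondeg (Qa.comp (⊥ : Submodule F Va).subtype) := by
  intro v _
  exact Subtype.ext ((Submodule.mem_bot F).1 v.2)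

theorem oe_top_ts67 (Qa : QuadraticForm F Va) (d : ℕ) :
    HasTS (Qa.comp (⊤ : Submodule F Va).subtype) d ↔ HasTS Qa d := by
  constructor
  · intro h
    exact hasTS_equiv Qa (fun z => (Qa.comp (⊤ : Submodule F Va).subtype) z)
      (Submodule.topEquiv : ↥(⊤ : Submodule F Va) ≃ₗ[F] Va) (fun z => rfl) h
  · intro h
    exact hasTS_equiv (Qa.comp (⊤ : Submodule F Va).subtype) (fun z => Qa z)
      (Submodule.topEquiv : ↥(⊤ : Submodule F Va) ≃ₗ[F] Va).symm (fun z => rfl) h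

theorem oe_prod_dim67 [FiniteDimensional F Va] [FiniteDimensional F Vb] (Ua : Submodule F Va)
    (Ub : Submodule F Vb) : finrank F ↥(Ua.prod Ub) = finrank F Ua + finrank F Ub := by
  rw [LinearEquiv.finrank_eq (Cfsg.Agent.Helper93.TB.subProdEquiv Ua Ub), Module.finrank_prod]

end lin67

section fin

variable {F : Type u} [Field F] [Fintype F]

/-- ADDFIX with the fixed space `V₀` given. -/
theorem oe_add_fix_of67 {V₀ : Type u} [AddCommGroup V₀] [Module F V₀] [FiniteDimensional F V₀]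
    (Q₀ : QuadraticForm F V₀) (k : ℕ) (b : Prop) (h₀ : PolarNondeg Q₀)
    (hV₀ : finrank F V₀ = 2 * k) (hts : HasTS Q₀ k ↔ b)
    {V₁ : Type u} [AddCommGroup V₁] [Module F V₁] [FiniteDimensional F V₁]
    (Q₁ : QuadraticForm F V₁) (T₁ : Module.End F V₁) (hnd : PolarNondeg Q₁)
    (hT : ∀ v, Q₁ (T₁ v) = Q₁ v) (n₁ : ℕ) (hV₁ : finrank F V₁ = 2 * n₁) (U : Submodule F V₁)
    (hU : U.map T₁ ≤ U) (hUnd : PolarNondeg (Q₁.comp U.subtype)) (u : ℕ)
    (hUdim : finrank F U = 2 * u) :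
    ∃ (V' : Type u) (_ : AddCommGroup V') (_ : Module F V') (_ : FiniteDimensional F V')
      (Q' : QuadraticForm F V') (T' : Module.End F V'),
      PolarNondeg Q' ∧ (∀ v, Q' (T' v) = Q' v) ∧ finrank F V' = 2 * (k + n₁) ∧
      (HasTS Q' (k + n₁) ↔ (b ↔ HasTS Q₁ n₁)) ∧
      T'.charpoly = (X - 1) ^ (2 * k) * T₁.charpoly ∧
      (∀ N, T₁ ^ N = 1 → T' ^ N = 1) ∧ (T₁ ≠ 1 → T' ≠ 1) ∧
      (∃ W : Submodule F V', W.map T' ≤ W ∧ PolarNondeg (Q'.comp W.subtype) ∧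
        finrank F W = 2 * (k + u) ∧
        (HasTS (Q'.comp W.subtype) (k + u) ↔ (b ↔ HasTS (Q₁.comp U.subtype) u))) ∧
      (∃ W : Submodule F V', W.map T' ≤ W ∧ PolarNondeg (Q'.comp W.subtype) ∧
        finrank F W = 2 * u ∧ (HasTS (Q'.comp W.subtype) u ↔ HasTS (Q₁.comp U.subtype) u)) := by
  refine ⟨V₀ × V₁, inferInstance, inferInstance, inferInstance, Q₀.prod Q₁,
    (1 : Module.End F V₀).prodMap T₁, ?_, ?_, ?_, ?_, ?_, ?_, ?_, ?_, ?_⟩
  · exact Cfsg.Agent.Helper93.TB.tb_prod_nd Q₀ Q₁ h₀ hnd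
  · intro v
    rw [QuadraticMap.prod_apply, QuadraticMap.prod_apply]
    show Q₀ v.1 + Q₁ (T₁ v.2) = _
    rw [hT]
  · rw [Module.finrank_prod, hV₀, hV₁]
    ring
  · rw [Cfsg.Agent.Helper93.TB.tb_type_prod Q₀ Q₁ h₀ hnd k n₁ hV₀ hV₁, hts]
  · rw [LinearMap.charpoly_prodMap, LinearMap.charpoly_one, hV₀]
  · intro N hN
    have h1 := map_pow (LinearMap.prodMapRingHom F V₀ V₁) ((1 : Module.End F V₀), T₁) N
    have h2 : ((1 : Module.End F V₀), T₁) ^ N = (1, 1) := by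
      rw [Prod.pow_mk, one_pow, hN]
    rw [h2] at h1
    exact h1.symm.trans (map_one (LinearMap.prodMapRingHom F V₀ V₁))
  · intro hne heq
    apply hne
    ext v
    have h1 := congrArg (fun f : Module.End F (V₀ × V₁) => (f ((0 : V₀), v)).2) heq
    exact h1
  · refine ⟨(⊤ : Submodule F V₀).prod U, ?_, ?_, ?_, ?_⟩
    · rintro _ ⟨x, hx, rfl⟩
      exact ⟨Submodule.mem_top, hU ⟨x.2, hx.2, rfl⟩⟩
    · rw [Cfsg.Agent.Helper10.S88OE.oe_prod_sub_nd]
      exact ⟨oe_top_nd67 Q₀ h₀, hUnd⟩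
    · rw [oe_prod_dim67, finrank_top, hV₀, hUdim]
      ring
    · rw [Cfsg.Agent.Helper98.S88OE.oe_prod_sub_type Q₀ Q₁ ⊤ U (oe_top_nd67 Q₀ h₀) hUnd k u
        (by rw [finrank_top, hV₀]) hUdim, oe_top_ts67, hts]
  · refine ⟨(⊥ : Submodule F V₀).prod U, ?_, ?_, ?_, ?_⟩
    · rintro _ ⟨x, hx, rfl⟩
      exact ⟨hx.1, hU ⟨x.2, hx.2, rfl⟩⟩
    · rw [Cfsg.Agent.Helper10.S88OE.oe_prod_sub_nd]
      exact ⟨oe_bot_nd67 Q₀, hUnd⟩
    · rw [oe_prod_dim67, finrank_bot, hUdim]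
      ring
    · have h := Cfsg.Agent.Helper98.S88OE.oe_prod_sub_type Q₀ Q₁ ⊥ U (oe_bot_nd67 Q₀) hUnd 0 u
        (by rw [finrank_bot]) hUdim
      rw [zero_add] at h
      rw [h]
      constructor
      · intro h'
        exact h'.mp (Cfsg.Agent.Helper93.TB.hasTS_zero _)
      · intro h'
        exact ⟨fun _ => h', fun _ => Cfsg.Agent.Helper93.TB.hasTS_zero _⟩

end fin

end Cfsg.Agent.Helper67.S88OE
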