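import Mathlib
import Cfsg.Prelude.Def_GeometricClasses
import Cfsg.Prelude.Def_Classical
import Cfsg.Agent.Helper35.S88Defs
import Cfsg.Agent.Helper58.TSDefs
import Cfsg.Agent.Helper43.PrimeOrdO3
import Cfsg.Agent.Helper33.OType
import Cfsg.Agent.Helper43.S88OEDefs
import Cfsg.Agent.Helper35.ELSUBT
import Cfsg.Agent.Helper67.S88OEADDFIXof

set_option autoImplicit false

/-!
# Sub-CALL S88OE piece ADDFIX (helper67): `oe_add_fix`, with an own copy `oe_model0_67` of MODEL0.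
-/

namespace Cfsg.Agent.Helper67.S88OE

open Module Polynomial Cfsg Cfsg.Geo Cfsg.Agent.Helper58.TS Cfsg.Agent.Helper35.S88
open Cfsg.Agent.Helper43 Cfsg.Agent.Helper43.OrthEven Cfsg.Agent.Helper43.CycFactors
  Cfsg.Agent.Helper43.PrimeOrdMat Cfsg.Agent.Helper43.S88OE
open scoped MatrixGroups

universe u

section fin

variable {F : Type u} [Field F] [Fintype F]

/-- MODEL0 (own copy): a nondegenerate space of dimension `2 k` of prescribed type. -/
theorem oe_model0_67 (k : ℕ) (b : Prop) (hb : k = 0 → b) :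
    ∃ (V₀ : Type u) (_ : AddCommGroup V₀) (_ : Module F V₀) (_ : FiniteDimensional F V₀)
      (Q₀ : QuadraticForm F V₀), PolarNondeg Q₀ ∧ finrank F V₀ = 2 * k ∧ (HasTS Q₀ k ↔ b) := by
  rcases Nat.eq_zero_or_pos k with h | h
  · subst h
    refine ⟨PUnit.{u+1}, inferInstance, inferInstance, inferInstance, 0, ?_, ?_, ?_⟩
    · intro v _
      exact Subsingleton.elim _ _
    · rw [Module.finrank_zero_of_subsingleton]
    · exact ⟨fun _ => hb rfl, fun _ => Cfsg.Agent.Helper93.TB.hasTS_zero _⟩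
  · exact Cfsg.Agent.Helper35.EL.el_model k h b

/-- ADDFIX: add a fixed space of dimension `2 k` and type `b` to a space with an isometry and an
invariant nondegenerate subspace `U`. -/
theorem oe_add_fix {V₁ : Type u} [AddCommGroup V₁] [Module F V₁] [FiniteDimensional F V₁]
    (Q₁ : QuadraticForm F V₁) (T₁ : Module.End F V₁) (hnd : PolarNondeg Q₁)
    (hT : ∀ v, Q₁ (T₁ v) = Q₁ v) (n₁ : ℕ) (hV₁ : finrank F V₁ = 2 * n₁) (U : Submodule F V₁)
    (hU : U.map T₁ ≤ U) (hUnd : PolarNondeg (Q₁.comp U.subtype)) (u : ℕ)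
    (hUdim : finrank F U = 2 * u) (k : ℕ) (b : Prop) (hb : k = 0 → b) :
    ∃ (V' : Type u) (_ : AddCommGroup V') (_ : Module F V') (_ : FiniteDimensional F V')
      (Q' : QuadraticForm F V') (T' : Module.End F V'),
      PolarNondeg Q' ∧ (∀ v, Q' (T' v) = Q' v) ∧ finrank F V' = 2 * (k + n₁) ∧
      (HasTS Q' (k + n₁) ↔ (b ↔ HasTS Q₁ n₁)) ∧
      T'.charpoly = (X - 1) ^ (2 * k) * T₁.charpoly ∧
      (∀ N, T₁ ^ N = 1 → T' ^ N = 1) ∧ (T₁ ≠ 1 → T' ≠ 1) ∧
      (∃ W : Submodule F V', W.map T' ≤ W ∧ PolarNondeg (Q'.comp W.subtype) ∧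
        finrank F W = 2 * (k + u) ∧
        (HasTS (Q'.comp W.subtype) (k + u) ↔ (b ↔ HasTS (Q₁.comp U.subtype) u))) ∧
      (∃ W : Submodule F V', W.map T' ≤ W ∧ PolarNondeg (Q'.comp W.subtype) ∧
        finrank F W = 2 * u ∧ (HasTS (Q'.comp W.subtype) u ↔ HasTS (Q₁.comp U.subtype) u)) := by
  obtain ⟨V₀, i1, i2, i3, Q₀, h₀, hV₀, hts⟩ := oe_model0_67 (F := F) k b hb
  exact oe_add_fix_of67 Q₀ k b h₀ hV₀ hts Q₁ T₁ hnd hT n₁ hV₁ U hU hUnd u hUdim

end fin

end Cfsg.Agent.Helper67.S88OE
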