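import Mathlib
import Cfsg.Prelude.Def_GeometricClasses
import Cfsg.Prelude.Def_Classical
import Cfsg.Agent.Helper43.PrimeOrdO3
import Cfsg.Agent.Helper43.S88OEDefs

set_option autoImplicit false

/-!
# Sub-CALL S88OE piece BLKCHAR (helper67): the characteristic polynomial of a block.
-/

namespace Cfsg.Agent.Helper67.S88OE

open Module Polynomial Cfsg Cfsg.Geo
open Cfsg.Agent.Helper43 Cfsg.Agent.Helper43.OrthEven Cfsg.Agent.Helper43.CycFactors
  Cfsg.Agent.Helper43.PrimeOrdMat Cfsg.Agent.Helper43.S88OE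
open scoped MatrixGroups

universe u

section fin

variable {F : Type u} [Field F] [Fintype F]

/-- BLKCHAR: the characteristic polynomial of a block. -/
theorem oe_blk_char (p : ℕ) [Fact p.Prime] [CharP F p] (r : ℕ) [Fact r.Prime] (hrp : r ≠ p)
    {V : Type u} [AddCommGroup V] [Module F V] [FiniteDimensional F V] (T : Module.End F V)
    (hcyc : aeval T (cyclotomic r F) = 0) :
    ∃ c : F[X] → ℕ, T.charpoly = ∏ P ∈ cycJ F r, P ^ c P := by
  classical
  have hr : r.Prime := Fact.out
  have hrF : (r : F) ≠ 0 := natCast_ne_zero_of_ne hr hrp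
  have hTr : T ^ r = 1 := by
    have h1 := congrArg (aeval T) (cyclotomic_prime_mul_X_sub_one F r)
    rw [map_mul, hcyc, zero_mul] at h1
    simp only [map_sub, map_pow, aeval_X, map_one] at h1
    exact sub_eq_zero.mp h1.symm
  let b := Module.finBasis F V
  have hM : (LinearMap.toMatrix b b T) ^ r = 1 := by
    have h1 := map_pow (LinearMap.toMatrixAlgEquiv b) T r
    rw [hTr, map_one] at h1
    exact h1.symm
  obtain ⟨c₀, c, hch⟩ := charpoly_eq_psi p hr hrp (LinearMap.toMatrix b b T) hM
  rw [LinearMap.charpoly_toMatrix] at hch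
  refine ⟨c, ?_⟩
  have hc0 : c₀ = 0 := by
    by_contra hne
    have hdvd : (X - 1 : F[X]) ∣ T.charpoly := by
      rw [hch, psi]
      exact Dvd.dvd.mul_right (dvd_pow_self _ hne) _
    have hroot : T.charpoly.IsRoot 1 := by
      have h2 : (X - C 1 : F[X]) ∣ T.charpoly := by rwa [map_one]
      exact dvd_iff_isRoot.mp h2
    have hev : T.HasEigenvalue 1 := (Module.End.hasEigenvalue_iff_isRoot_charpoly T 1).mpr hroot
    obtain ⟨v, hv⟩ := hev.exists_hasEigenvector
    have h1 := Module.End.aeval_apply_of_hasEigenvector (p := cyclotomic r F) hv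
    rw [hcyc, eval_one_cyclotomic_prime] at h1
    have h3 : (r : F) • v = 0 := by
      rw [← h1]
      rfl
    rcases smul_eq_zero.mp h3 with h | h
    · exact hrF h
    · exact hv.2 h
  rw [hch, hc0, psi, pow_zero, one_mul]

end fin

end Cfsg.Agent.Helper67.S88OE
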