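import Mathlib
import Cfsg.Prelude.Def_GeometricClasses
import Cfsg.Prelude.Def_Classical
import Cfsg.Agent.Helper35.S88Defs
import Cfsg.Agent.Helper58.TSDefs
import Cfsg.Agent.Helper43.PrimeOrdO3
import Cfsg.Agent.Helper33.OType
import Cfsg.Agent.Helper43.S88OEDefs
import Cfsg.Agent.Helper6.S88OEBLKRESTR
import Cfsg.Agent.Helper88.S88OEBLKTYPE
import Cfsg.Agent.Helper67.S88OEADDFIX

set_option autoImplicit false

/-!
# Sub-CALL S88OE piece GSM (helper67): `oe_good_model`, the good model.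
-/

namespace Cfsg.Agent.Helper67.S88OE

open Module Polynomial Cfsg Cfsg.Geo Cfsg.Agent.Helper58.TS Cfsg.Agent.Helper35.S88
open Cfsg.Agent.Helper43 Cfsg.Agent.Helper43.OrthEven Cfsg.Agent.Helper43.CycFactors
  Cfsg.Agent.Helper43.PrimeOrdMat Cfsg.Agent.Helper43.S88OE
open scoped MatrixGroups

universe u

section fin

variable {F : Type u} [Field F] [Fintype F]

/-- GSM: the good model. -/
theorem oe_good_model (p : ℕ) [Fact p.Prime] [CharP F p] (r : ℕ) [Fact r.Prime] (hr2 : 2 < r)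
    (hrp : r ≠ p) (heven : Even (orderOf ((Fintype.card F : ℕ) : ZMod r))) {V₁ : Type u}
    [AddCommGroup V₁] [Module F V₁] [FiniteDimensional F V₁] (Q₁ : QuadraticForm F V₁)
    (T₁ : Module.End F V₁) (hblk : Blk r Q₁ T₁) (A : ℕ) (hA : 1 ≤ A)
    (hV₁ : finrank F V₁ = orderOf ((Fintype.card F : ℕ) : ZMod r) * A)
    (hflag : Flag Q₁ T₁ (orderOf ((Fintype.card F : ℕ) : ZMod r)) A) (k₀ : ℕ)
    (hk₀ : k₀ = 0 → Even A) (s w₂ : ℕ) (hval : Val A k₀ s w₂) :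
    ∃ (V' : Type u) (_ : AddCommGroup V') (_ : Module F V') (_ : FiniteDimensional F V')
      (Q' : QuadraticForm F V') (T' : Module.End F V'),
      PolarNondeg Q' ∧
      finrank F V' = 2 * (k₀ + orderOf ((Fintype.card F : ℕ) : ZMod r) / 2 * A) ∧
      HasTS Q' (k₀ + orderOf ((Fintype.card F : ℕ) : ZMod r) / 2 * A) ∧
      (∀ v, Q' (T' v) = Q' v) ∧ T' ^ r = 1 ∧ T' ≠ 1 ∧
      T'.charpoly = (X - 1) ^ (2 * k₀) * T₁.charpoly ∧
      ∃ W : Submodule F V',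
        InvEllSub Q' T' (orderOf ((Fintype.card F : ℕ) : ZMod r) / 2 * s + w₂) W := by
  classical
  have hr : r.Prime := Fact.out
  have hrF : (r : F) ≠ 0 := natCast_ne_zero_of_ne hr hrp
  have hipos : 0 < orderOf ((Fintype.card F : ℕ) : ZMod r) :=
    orderOf_pos_of_card (p := p) rfl hr hrp
  have hbt : ∀ {V : Type u} [AddCommGroup V] [Module F V] [FiniteDimensional F V]
      (Q : QuadraticForm F V) (T : Module.End F V), Blk r Q T →
      ∃ n, finrank F V = 2 * (orderOf ((Fintype.card F : ℕ) : ZMod r) / 2 * n) ∧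
        (HasTS Q (orderOf ((Fintype.card F : ℕ) : ZMod r) / 2 * n) ↔ Even n) :=
    fun Q T h => Cfsg.Agent.Helper88.S88OE.oe_blk_type p r hr2 hrp heven Q T h
  obtain ⟨i, hi⟩ : ∃ i, i = orderOf ((Fintype.card F : ℕ) : ZMod r) := ⟨_, rfl⟩
  rw [← hi] at hipos hV₁ hflag hbt heven ⊢
  obtain ⟨j, hj⟩ := heven
  have hj1 : 1 ≤ j := by omega
  have hi2 : i / 2 = j := by omega
  rw [hi2] at hbt ⊢
  obtain ⟨hsA, hw₂, halt⟩ := hval
  obtain ⟨U, hUT, hUnd, hUdim⟩ := hflag s hsA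
  obtain ⟨T', hT'⟩ :=
    Cfsg.Agent.Helper6.S88OE.oe_blk_restr r Q₁ T₁ hblk.2.1 hblk.2.2 U hUT hUnd
  obtain ⟨n, hn, hnts⟩ := hbt (Q₁.comp U.subtype) T' hT'
  have hns : n = s := by
    have h1 : 2 * (j * n) = i * s := by rw [← hn, hUdim]
    have h2 : j * n = j * s := by
      rw [hj] at h1
      have h3 : (j + j) * s = 2 * (j * s) := by ring
      omega
    exact Nat.eq_of_mul_eq_mul_left hj1 h2
  subst hns
  obtain ⟨n', hn', hnts'⟩ := hbt Q₁ T₁ hblk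
  have hnA : n' = A := by
    have h1 : 2 * (j * n') = i * A := by rw [← hn', hV₁]
    have h2 : j * n' = j * A := by
      rw [hj] at h1
      have h3 : (j + j) * A = 2 * (j * A) := by ring
      omega
    exact Nat.eq_of_mul_eq_mul_left hj1 h2
  subst hnA
  have hTr : T₁ ^ r = 1 := by
    have h1 := congrArg (aeval T₁) (cyclotomic_prime_mul_X_sub_one F r)
    rw [map_mul, hblk.2.2, zero_mul] at h1
    simp only [map_sub, map_pow, aeval_X, map_one] at h1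
    exact sub_eq_zero.mp h1.symm
  have hT1 : T₁ ≠ 1 := by
    intro h
    have h1 := hblk.2.2
    rw [h, ← map_one (algebraMap F (Module.End F V₁)),
      Polynomial.aeval_algebraMap_apply_eq_algebraMap_eval, eval_one_cyclotomic_prime] at h1
    have hpos : 0 < finrank F V₁ := by
      rw [hV₁]
      exact Nat.mul_pos hipos (by omega)
    obtain ⟨v, hv⟩ := Module.finrank_pos_iff_exists_ne_zero.mp hpos
    have h2 := congrArg (fun f : Module.End F V₁ => f v) h1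
    simp only [Module.algebraMap_end_apply, LinearMap.zero_apply] at h2
    rcases smul_eq_zero.mp h2 with h3 | h3
    · exact hrF h3
    · exact hv h3
  have hb1 : w₂ = 0 → ¬ Even n := by
    intro h0
    rcases halt with ⟨h1, _⟩ | ⟨_, h2⟩ | ⟨h1, h2⟩
    · omega
    · exact Nat.not_even_iff_odd.mpr h2
    · have hA' := hk₀ (by omega)
      exact Nat.not_even_iff_odd.mpr ((Nat.odd_add.mp h2).mpr hA')
  obtain ⟨V₂, iA₂, iM₂, iF₂, Q₂, T₂, hnd₂, hiso₂, hdim₂, hts₂, hch₂, hpow₂, hne₂,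
      ⟨W₂, hW₂T, hW₂nd, hW₂dim, hW₂ts⟩, -⟩ :=
    oe_add_fix Q₁ T₁ hblk.1 hblk.2.1 (j * n') (by rw [hV₁, hj]; ring) U hUT hUnd (j * n)
      (by rw [hUdim, hj]; ring) w₂ (¬ Even n) hb1
  have hb2 : k₀ - w₂ = 0 → (¬ Even n ↔ Even n') := by
    intro h0
    rcases halt with ⟨_, h1⟩ | ⟨h1, h2⟩ | ⟨_, h2⟩
    · omega
    · have hA' := hk₀ (by omega)
      exact ⟨fun _ => hA', fun _ => Nat.not_even_iff_odd.mpr h2⟩
    · rw [Nat.not_even_iff_odd]
      exact Nat.odd_add.mp h2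
  obtain ⟨V₃, iA₃, iM₃, iF₃, Q₃, T₃, hnd₃, hiso₃, hdim₃, hts₃, hch₃, hpow₃, hne₃, -,
      ⟨W₃, hW₃T, hW₃nd, hW₃dim, hW₃ts⟩⟩ :=
    oe_add_fix Q₂ T₂ hnd₂ hiso₂ (w₂ + j * n') hdim₂ W₂ hW₂T hW₂nd (w₂ + j * n) hW₂dim
      (k₀ - w₂) (¬ Even n ↔ Even n') hb2
  have hk : k₀ - w₂ + (w₂ + j * n') = k₀ + j * n' := by omega
  rw [hk] at hdim₃ hts₃
  refine ⟨V₃, iA₃, iM₃, iF₃, Q₃, T₃, hnd₃, hdim₃, ?_, hiso₃, hpow₃ r (hpow₂ r hTr),
    hne₃ (hne₂ hT1), ?_, W₃, hW₃T, ?_, hW₃nd, ?_⟩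
  · rw [hts₃, hts₂, hnts']
  · have hpw : (X - 1 : F[X]) ^ (2 * (k₀ - w₂)) * (X - 1) ^ (2 * w₂) = (X - 1) ^ (2 * k₀) := by
      rw [← pow_add]
      have h5 : 2 * (k₀ - w₂) + 2 * w₂ = 2 * k₀ := by omega
      rw [h5]
    rw [hch₃, hch₂, ← mul_assoc, hpw]
  · rw [hW₃dim]
    ring
  · rw [add_comm, hW₃ts, hW₂ts, hnts]
    intro h
    by_cases he : Even n
    · exact (h.mpr he) he
    · exact he (h.mp he)

end fin

end Cfsg.Agent.Helper67.S88OE
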