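import Mathlib
import Cfsg.Prelude.Def_Local

open Subgroup
universe u

namespace Cfsg.Agent.Helper67

variable {G : Type u} [Group G] [Finite G]

theorem shaw_setup_aux (Z : Subgroup G) [Z.Normal] (T N : Subgroup G)
    (hTC : T ≤ centralizer (Z : Set G))
    (hfrat : N ⊔ centralizer (Z : Set G) = ⊤) (hTN : T ≤ N)
    (hT'n : (T.subgroupOf N).Normal)
    (hnorm : ∀ b ∈ N, ∀ t ∈ T, b * t * b⁻¹ ∈ T)
    (hT2 : IsPGroup 2 T) (hodd : ¬ 2 ∣ T.index)
    (htr : ∀ x ∈ Z, ∀ y ∈ Z, x ≠ 1 → y ≠ 1 → ∃ g : G, g * x * g⁻¹ = y) :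
    ∃ B : Subgroup G, Odd (Nat.card B) ∧
      (∀ b ∈ B, ∀ t ∈ T, b * t * b⁻¹ ∈ T) ∧
      ∀ x ∈ Z, ∀ y ∈ Z, x ≠ 1 → y ≠ 1 → ∃ b ∈ B, b * x * b⁻¹ = y := by
  have hrel : ¬ 2 ∣ (T.subgroupOf N).index := by
    intro h
    exact hodd (dvd_trans h (Subgroup.relIndex_dvd_index_of_le hTN))
  have hcop : (Nat.card (T.subgroupOf N)).Coprime (T.subgroupOf N).index := by
    have hTp : IsPGroup 2 (T.subgroupOf N) := hT2.comap_subtype
    obtain ⟨k, hk⟩ := IsPGroup.iff_card.mp hTp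
    rw [hk]
    apply Nat.Coprime.pow_left
    exact (Nat.Prime.coprime_iff_not_dvd Nat.prime_two).mpr hrel
  obtain ⟨B0, hB0⟩ := Subgroup.exists_right_complement'_of_coprime hcop
  refine ⟨B0.map N.subtype, ?_, ?_, ?_⟩
  · have h1 : Nat.card (B0.map N.subtype) = Nat.card B0 :=
      Subgroup.card_map_of_injective (Subgroup.subtype_injective _)
    rw [h1, ← hB0.symm.index_eq_card]
    exact Nat.odd_iff.mpr (Nat.two_dvd_ne_zero.mp hrel)
  · rintro b ⟨b0, hb0, rfl⟩ t ht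
    exact hnorm _ b0.2 t ht
  · intro x hx y hy hx1 hy1
    obtain ⟨g, hg⟩ := htr x hx y hy hx1 hy1
    have hgmem : g ∈ N ⊔ centralizer (Z : Set G) := by
      rw [hfrat]; exact Subgroup.mem_top g
    rw [← SetLike.mem_coe, Subgroup.mul_normal] at hgmem
    obtain ⟨n, hn, c, hc, rfl⟩ := Set.mem_mul.mp hgmem
    have hsup := hB0.symm.sup_eq_top
    have hnmem : (⟨n, hn⟩ : N) ∈ B0 ⊔ T.subgroupOf N := by
      rw [hsup]; exact Subgroup.mem_top _
    rw [← SetLike.mem_coe, Subgroup.mul_normal] at hnmem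
    obtain ⟨b, hb, t, ht, hbt⟩ := Set.mem_mul.mp hnmem
    have hbt' : (b : G) * (t : G) = n := by
      have := congrArg Subtype.val hbt
      simpa using this
    have htC : (t : G) ∈ centralizer (Z : Set G) := hTC (Subgroup.mem_subgroupOf.mp ht)
    refine ⟨(b : G), ⟨b, hb, rfl⟩, ?_⟩
    have e1 : c * x = x * c := (Subgroup.mem_centralizer_iff.mp hc x hx).symm
    have e2 : (t : G) * x = x * (t : G) := (Subgroup.mem_centralizer_iff.mp htC x hx).symm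
    have e3 : c * x * c⁻¹ = x := by rw [e1, mul_inv_cancel_right]
    have e4 : (t : G) * x * (t : G)⁻¹ = x := by rw [e2, mul_inv_cancel_right]
    rw [← hg, ← hbt']
    calc (b : G) * x * (b : G)⁻¹ = (b : G) * ((t : G) * (c * x * c⁻¹) * (t : G)⁻¹) * (b : G)⁻¹ := by
          rw [e3, e4]
      _ = (b : G) * (t : G) * c * x * ((b : G) * (t : G) * c)⁻¹ := by group

theorem shaw_setup (Z : Subgroup G) [Z.Normal]
    (h2 : ∀ x : G, (∃ k : ℕ, x ^ 2 ^ k = 1) → x ∈ centralizer (Z : Set G))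
    (htr : ∀ x ∈ Z, ∀ y ∈ Z, x ≠ 1 → y ≠ 1 → ∃ g : G, g * x * g⁻¹ = y) (T : Sylow 2 G) :
    ∃ B : Subgroup G, Odd (Nat.card B) ∧
      (∀ b ∈ B, ∀ t ∈ (T : Subgroup G), b * t * b⁻¹ ∈ (T : Subgroup G)) ∧
      ∀ x ∈ Z, ∀ y ∈ Z, x ≠ 1 → y ≠ 1 → ∃ b ∈ B, b * x * b⁻¹ = y := by
  have : Fact (Nat.Prime 2) := ⟨Nat.prime_two⟩
  have hTC : (T : Subgroup G) ≤ centralizer (Z : Set G) := by
    intro t ht
    apply h2
    obtain ⟨k, hk⟩ := T.isPGroup' ⟨t, ht⟩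
    exact ⟨k, by simpa using congrArg Subtype.val hk⟩
  have hfrat : normalizer ((T : Subgroup G) : Set G) ⊔ centralizer (Z : Set G) = ⊤ :=
    Sylow.normalizer_sup_eq_top' T hTC
  have hTN : (T : Subgroup G) ≤ normalizer ((T : Subgroup G) : Set G) := Subgroup.le_normalizer
  have hT'n : ((T : Subgroup G).subgroupOf (normalizer ((T : Subgroup G) : Set G))).Normal :=
    Subgroup.normal_in_normalizer
  have hodd : ¬ 2 ∣ (T : Subgroup G).index := T.not_dvd_index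
  refine shaw_setup_aux Z (T : Subgroup G) _ hTC hfrat hTN hT'n ?_ T.isPGroup' hodd htr
  intro b hb t ht
  exact ((Subgroup.mem_normalizer_iff (H := (T : Subgroup G))).mp hb t).mp ht

end Cfsg.Agent.Helper67
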