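import Mathlib
import Cfsg.Prelude.Def_Local

open Subgroup
universe u

namespace Cfsg.Agent.Helper67

variable {G : Type u} [Group G] [Finite G]

/-- iterated commutator series starting at `C`. -/
def shawSer (C : Subgroup G) : ℕ → Subgroup G
  | 0 => C
  | (j+1) => ⁅shawSer C j, shawSer C j⁆

theorem shawSer_normal (C : Subgroup G) [C.Normal] (j : ℕ) : (shawSer C j).Normal := by
  induction j with
  | zero => simpa [shawSer]
  | succ j ih =>
    haveI := ih
    show (⁅shawSer C j, shawSer C j⁆).Normal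
    infer_instance

theorem shawSer_le_derived (C : Subgroup G) (j : ℕ) : shawSer C j ≤ derivedSeries G j := by
  induction j with
  | zero => simp [shawSer]
  | succ j ih =>
    show ⁅shawSer C j, shawSer C j⁆ ≤ ⁅derivedSeries G j, derivedSeries G j⁆
    exact Subgroup.commutator_mono ih ih

theorem shawSer_le (C : Subgroup G) [C.Normal] (j : ℕ) : shawSer C j ≤ C := by
  induction j with
  | zero => exact le_refl _
  | succ j ih =>
    show ⁅shawSer C j, shawSer C j⁆ ≤ C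
    calc ⁅shawSer C j, shawSer C j⁆ ≤ ⁅C, C⁆ := Subgroup.commutator_mono ih ih
      _ ≤ C := Subgroup.commutator_le_right C C

theorem shaw_exists_U (hsol : Group.IsSolvable G) (P C : Subgroup G) [P.Normal] [C.Normal]
    (hP : IsPGroup 2 P) (hPC : P ≤ C)
    (hPmax : ∀ K : Subgroup G, K.Normal → IsPGroup 2 K → K ≤ P) (hne : ¬ C ≤ P) :
    ∃ U : Subgroup G, U.Normal ∧ P ≤ U ∧ U ≤ C ∧ ¬ U ≤ P ∧
      (∀ a ∈ U, ∀ b ∈ U, a * b * a⁻¹ * b⁻¹ ∈ P) ∧
      ∀ x ∈ U, (∃ k : ℕ, x ^ 2 ^ k ∈ P) → x ∈ P := by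
  classical
  obtain ⟨n, hn⟩ := hsol.solvable
  have hex : ∃ j, shawSer C j ≤ P := ⟨n, by
    have := shawSer_le_derived C n
    rw [hn] at this
    exact le_trans this bot_le⟩
  have hjP : shawSer C (Nat.find hex) ≤ P := Nat.find_spec hex
  have hj0 : Nat.find hex ≠ 0 := by
    intro h0
    rw [h0] at hjP
    exact hne hjP
  obtain ⟨i, hi⟩ := Nat.exists_eq_succ_of_ne_zero hj0
  have hiP : ¬ shawSer C i ≤ P := Nat.find_min hex (by omega)
  have hcomm : ⁅shawSer C i, shawSer C i⁆ ≤ P := by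
    have := hjP; rw [hi] at this; exact this
  haveI := shawSer_normal C i
  have hDC : shawSer C i ≤ C := shawSer_le C i
  generalize shawSer C i = D at *
  have hUcomm : ∀ a ∈ D ⊔ P, ∀ b ∈ D ⊔ P, a * b * a⁻¹ * b⁻¹ ∈ P := by
    intro a ha b hb
    rw [← SetLike.mem_coe, Subgroup.mul_normal] at ha hb
    obtain ⟨d, hd, p, hp, rfl⟩ := Set.mem_mul.mp ha
    obtain ⟨d', hd', p', hp', rfl⟩ := Set.mem_mul.mp hb
    rw [← QuotientGroup.eq_one_iff (N := P)]
    have h1 : ((p : G) : G ⧸ P) = 1 := (QuotientGroup.eq_one_iff _).mpr hp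
    have h2 : ((p' : G) : G ⧸ P) = 1 := (QuotientGroup.eq_one_iff _).mpr hp'
    have h3 : ((d * d' * d⁻¹ * d'⁻¹ : G) : G ⧸ P) = 1 :=
      (QuotientGroup.eq_one_iff _).mpr (hcomm (Subgroup.commutator_mem_commutator hd hd'))
    simp only [QuotientGroup.mk_mul, QuotientGroup.mk_inv, h1, h2, mul_one] at h3 ⊢
    exact h3
  have hcommQ : ∀ a ∈ D ⊔ P, ∀ b ∈ D ⊔ P, Commute ((a : G) : G ⧸ P) (b : G ⧸ P) := by
    intro a ha b hb
    have := hUcomm a ha b hb
    rw [← QuotientGroup.eq_one_iff (N := P)] at this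
    simp only [QuotientGroup.mk_mul, QuotientGroup.mk_inv] at this
    show _ * _ = _ * _
    have h4 := congrArg (fun t => t * (b : G ⧸ P) * (a : G ⧸ P)) this
    simp only [one_mul, inv_mul_cancel_right] at h4
    exact h4
  let T : Subgroup G :=
    { carrier := {x | x ∈ D ⊔ P ∧ ∃ k : ℕ, x ^ 2 ^ k ∈ P}
      one_mem' := ⟨one_mem _, 0, by simp⟩
      mul_mem' := by
        rintro x y ⟨hx, k, hk⟩ ⟨hy, l, hl⟩
        refine ⟨mul_mem hx hy, k + l, ?_⟩
        rw [← QuotientGroup.eq_one_iff (N := P)] at hk hl ⊢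
        have hc := hcommQ x hx y hy
        simp only [QuotientGroup.mk_pow, QuotientGroup.mk_mul] at hk hl ⊢
        rw [hc.mul_pow, pow_add, pow_mul, hk, one_pow, one_mul, pow_mul', hl, one_pow]
      inv_mem' := by
        rintro x ⟨hx, k, hk⟩
        exact ⟨inv_mem hx, k, by rw [inv_pow]; exact inv_mem hk⟩ }
  have hTmem : ∀ x, x ∈ T ↔ x ∈ D ⊔ P ∧ ∃ k : ℕ, x ^ 2 ^ k ∈ P := fun x => Iff.rfl
  have hTn : T.Normal := by
    refine ⟨fun x hx g => ?_⟩
    obtain ⟨hx1, k, hk⟩ := (hTmem x).mp hx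
    refine (hTmem _).mpr ⟨(inferInstance : (D ⊔ P).Normal).conj_mem x hx1 g, k, ?_⟩
    rw [conj_pow]
    exact (inferInstance : P.Normal).conj_mem _ hk g
  have hT2 : IsPGroup 2 T := by
    intro x
    obtain ⟨_, k, hk⟩ := (hTmem x).mp x.2
    obtain ⟨l, hl⟩ := hP ⟨_, hk⟩
    refine ⟨k + l, ?_⟩
    have hl' := congrArg Subtype.val hl
    simp only [Subgroup.coe_pow, Subgroup.coe_one] at hl'
    apply Subtype.ext
    simp only [Subgroup.coe_pow, Subgroup.coe_one]
    rw [pow_add, pow_mul]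
    exact hl'
  have hTP : T ≤ P := hPmax T hTn hT2
  refine ⟨D ⊔ P, inferInstance, le_sup_right, sup_le hDC hPC, ?_, hUcomm, ?_⟩
  · intro h
    exact hiP (le_trans le_sup_left h)
  · intro x hx hk
    exact hTP ((hTmem x).mpr ⟨hx, hk⟩)

end Cfsg.Agent.Helper67
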