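import Mathlib
import Cfsg.Agent.Helper40.SemisimpleMat
import Cfsg.Agent.Helper46.BGLIRR
import Cfsg.Agent.Helper69.BGLSING

set_option autoImplicit false

/-!
Piece C of CALL S5970 (helper69): two nontrivial matrices of prime order `n` in `M_n(F)`, for a
finite field `F` in which the order of `|F|` modulo `n` is `n - 1`, are conjugate by a matrix of
determinant one.
-/

namespace Cfsg.Agent.Helper67

open Polynomial

theorem sng_phi_natDegree {F : Type*} [Field F] {n : ℕ} (hn : n ≠ 0) :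
    (∑ j ∈ Finset.range n, (X : F[X]) ^ j).natDegree = n - 1 := by
  have hm : (∑ j ∈ Finset.range n, (X : F[X]) ^ j).Monic := monic_geom_sum_X hn
  have h1 : (∑ j ∈ Finset.range n, (X : F[X]) ^ j) * (X - C 1) = X ^ n - C 1 := by
    rw [C_1]; exact geom_sum_mul X n
  have h2 := congrArg natDegree h1
  rw [natDegree_mul hm.ne_zero (X_sub_C_ne_zero 1), natDegree_X_sub_C,
    natDegree_X_pow_sub_C] at h2
  omega

theorem sng_phi_irreducible {F : Type*} [Field F] [Fintype F] (p : ℕ) [Fact p.Prime] [CharP F p]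
    {n : ℕ} [Fact n.Prime] (hnp : n ≠ p) (hn3 : 3 ≤ n)
    (hord : orderOf ((Fintype.card F : ℕ) : ZMod n) = n - 1) :
    Irreducible (∑ j ∈ Finset.range n, (X : F[X]) ^ j) := by
  have hnP : n.Prime := Fact.out
  have hpP : p.Prime := Fact.out
  obtain ⟨Φ, hΦ⟩ : ∃ Φ : F[X], Φ = ∑ j ∈ Finset.range n, (X : F[X]) ^ j := ⟨_, rfl⟩
  rw [← hΦ]
  have hmon : Φ.Monic := hΦ ▸ monic_geom_sum_X hnP.ne_zero
  have hdeg : Φ.natDegree = n - 1 := hΦ ▸ sng_phi_natDegree hnP.ne_zero
  have hnF : (n : F) ≠ 0 := by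
    intro h0
    rw [CharP.cast_eq_zero_iff F p] at h0
    exact hnp ((Nat.prime_dvd_prime_iff_eq hpP hnP).mp h0).symm
  have hnu : ¬ IsUnit Φ := by
    intro hu
    have := natDegree_eq_zero_of_isUnit hu
    omega
  obtain ⟨g, hg, hgd⟩ := WfDvdMonoid.exists_irreducible_factor hnu hmon.ne_zero
  have hgdeg : g.natDegree = n - 1 := by
    rw [← hord]
    exact Cfsg.Agent.Helper46.bgl_irr_factor_degree n hnF g hg (hΦ ▸ hgd)
  have hass : Associated g Φ :=
    associated_of_dvd_of_natDegree_le hgd hmon.ne_zero (by omega)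
  exact hass.irreducible hg

theorem sng_charpoly {F : Type*} [Field F] [Fintype F] (p : ℕ) [Fact p.Prime] [CharP F p] {n : ℕ}
    [Fact n.Prime] (hnp : n ≠ p) (hn3 : 3 ≤ n)
    (hord : orderOf ((Fintype.card F : ℕ) : ZMod n) = n - 1)
    (A : Matrix (Fin n) (Fin n) F) (hA : A ^ n = 1) (hA1 : A ≠ 1) :
    A.charpoly = (∑ j ∈ Finset.range n, (X : F[X]) ^ j) * (X - C 1) := by
  classical
  have hnP : n.Prime := Fact.out
  have hpP : p.Prime := Fact.out
  have hcop : n.Coprime p := (Nat.coprime_primes hnP hpP).mpr hnp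
  obtain ⟨Φ, hΦ⟩ : ∃ Φ : F[X], Φ = ∑ j ∈ Finset.range n, (X : F[X]) ^ j := ⟨_, rfl⟩
  rw [← hΦ]
  have hirr : Irreducible Φ := hΦ ▸ sng_phi_irreducible p hnp hn3 hord
  have hmon : Φ.Monic := hΦ ▸ monic_geom_sum_X hnP.ne_zero
  have hdeg : Φ.natDegree = n - 1 := hΦ ▸ sng_phi_natDegree hnP.ne_zero
  have hmul : Φ * (X - C 1) = X ^ n - C 1 := by rw [hΦ, C_1]; exact geom_sum_mul X n
  obtain ⟨T, hT⟩ : ∃ T : Module.End F (Fin n → F), T = Matrix.toLin' A := ⟨_, rfl⟩
  have hss : T.IsSemisimple :=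
    hT ▸ Cfsg.Agent.Helper40.isSemisimple_toLin'_of_pow_eq_one p hcop A hA
  have hTn : T ^ n = 1 := by
    have h2 : Matrix.toLinAlgEquiv' (A ^ n) = (Matrix.toLinAlgEquiv' A) ^ n := map_pow _ _ _
    rw [hA, map_one] at h2
    rw [hT]; exact h2.symm
  have hT1 : T ≠ 1 := by
    intro h
    apply hA1
    apply Matrix.toLin'.injective
    rw [← hT, h, Matrix.toLin'_one]
    rfl
  obtain ⟨u, hu⟩ : ∃ u, T u ≠ u := by
    by_contra hcon
    push Not at hcon
    exact hT1 (LinearMap.ext hcon)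
  have hv : T u - u ≠ 0 := sub_ne_zero.mpr hu
  have hev : aeval T Φ (T u - u) = 0 := by
    have h1 : aeval T (Φ * (X - C 1)) = 0 := by
      rw [hmul]; simp [hTn]
    have h2 : aeval T (Φ * (X - C 1)) u = aeval T Φ (T u - u) := by
      rw [map_mul, Module.End.mul_apply]; simp
    rw [← h2, h1]; rfl
  obtain ⟨V', hV', e, -, hI, -⟩ := Cfsg.Agent.Helper40.exists_model_split hss hirr hv hev
  have hfin : Module.Finite F (AdjoinRoot Φ) := Cfsg.Agent.Helper40.model_finite hmon.ne_zero
  have hfr : Module.finrank F V' = 1 := by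
    have h1 := LinearEquiv.finrank_eq e
    rw [Module.finrank_prod, Cfsg.Agent.Helper40.model_finrank hmon.ne_zero, hdeg,
      Module.finrank_fin_fun] at h1
    have := hnP.two_le
    omega
  obtain ⟨S, hS⟩ : ∃ S : Module.End F V', S = T.restrict hV' := ⟨_, rfl⟩
  have hSc : S.charpoly = X - C 1 := by
    have hm := S.charpoly_monic
    have hd : S.charpoly.natDegree = 1 := by rw [LinearMap.charpoly_natDegree, hfr]
    have h1 := hm.eq_X_add_C hd
    obtain ⟨b, hb⟩ : ∃ b, b = S.charpoly.coeff 0 := ⟨_, rfl⟩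
    rw [← hb] at h1
    have h2 := LinearMap.aeval_self_charpoly S
    rw [h1] at h2
    have h3 : ∀ w : V', T (w : Fin n → F) = (-b) • (w : Fin n → F) := by
      intro w
      have h4 := congrArg (fun f : Module.End F V' => f w) h2
      simp only [map_add, aeval_X, aeval_C, LinearMap.add_apply, LinearMap.zero_apply,
        Module.algebraMap_end_apply] at h4
      have h5 : S w = (-b) • w := by
        have h50 := eq_neg_of_add_eq_zero_left h4
        rw [h50]
        exact (neg_smul b w).symm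
      have h6 := congrArg (Subtype.val) h5
      rw [hS] at h6
      exact h6
    have h7 : ∀ (k : ℕ) (w : V'), (T ^ k) (w : Fin n → F) = (-b) ^ k • (w : Fin n → F) := by
      intro k
      induction k with
      | zero => intro w; simp
      | succ k ih =>
        intro w
        rw [pow_succ, Module.End.mul_apply, h3, map_smul, ih, smul_smul, pow_succ, mul_comm]
    obtain ⟨w, hw⟩ : ∃ w : V', w ≠ 0 := by
      have : Nontrivial V' := Module.nontrivial_of_finrank_pos (R := F) (by omega)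
      exact exists_ne 0
    have h8 := h7 n w
    rw [hTn, Module.End.one_apply] at h8
    have h9 : ((-b) ^ n - 1) • (w : Fin n → F) = 0 := by
      rw [sub_smul, one_smul, ← h8, sub_self]
    have h10 : (-b) ^ n = 1 := by
      rcases smul_eq_zero.mp h9 with h | h
      · exact sub_eq_zero.mp h
      · exact absurd (Subtype.ext h) hw
    have h11 : -b = 1 :=
      Cfsg.Agent.Helper69.bgl_root_unity_trivial n (by omega) (-b) h10
    have h12 : b = -1 := by rw [← h11, neg_neg]
    rw [h1, h12, C_neg, sub_eq_add_neg]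
  have h13 : T.charpoly = ((Cfsg.Agent.Helper40.modelEnd Φ).prodMap (T.restrict hV')).charpoly :=
    Cfsg.Agent.Helper40.Intertw.charpoly_eq hI
  rw [LinearMap.charpoly_prodMap, Cfsg.Agent.Helper40.modelEnd_charpoly hmon.ne_zero hmon,
    ← hS, hSc] at h13
  rw [← h13, hT, Matrix.charpoly_toLin']

theorem sng_conj {F : Type*} [Field F] [Fintype F] (p : ℕ) [Fact p.Prime] [CharP F p] {n : ℕ}
    [Fact n.Prime] (hnp : n ≠ p) (hn3 : 3 ≤ n)
    (hord : orderOf ((Fintype.card F : ℕ) : ZMod n) = n - 1)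
    (A B : Matrix (Fin n) (Fin n) F) (hA : A ^ n = 1) (hB : B ^ n = 1) (hA1 : A ≠ 1) (hB1 : B ≠ 1) :
    ∃ P : Matrix (Fin n) (Fin n) F, P.det = 1 ∧ P * A = B * P := by
  have hnP : n.Prime := Fact.out
  have hpP : p.Prime := Fact.out
  have hcop : n.Coprime p := (Nat.coprime_primes hnP hpP).mpr hnp
  have hc : A.charpoly = B.charpoly := by
    rw [sng_charpoly p hnp hn3 hord A hA hA1, sng_charpoly p hnp hn3 hord B hB hB1]
  exact Cfsg.Agent.Helper40.exists_conj_matrix p hcop hcop A B hA hB hc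

end Cfsg.Agent.Helper67
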