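import Mathlib
import Cfsg.Prelude.Def_GeometricClasses
import Cfsg.Agent.Helper71.T4Defs
import Cfsg.Agent.Helper96.T5Defs
import Cfsg.Agent.Helper51.T5TRANS

/-!
# CALL S5704, PIECE T2A (helper67)

From one element `1 + τ_{u₀} ⊗ dm x₀ y₀` (`x₀, y₀` independent, orthogonal) and the root elements
we get every `sg u x u y = 1 + τ_u ⊗ dm x y` with `bf x y = 0`.
-/

set_option autoImplicit false
set_option linter.unusedVariables false
set_option linter.unusedSectionVars false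

namespace Cfsg.Agent.Helper67.T5T2A

open Matrix Cfsg Cfsg.Geo Cfsg.Agent.Helper71.T4 Cfsg.Agent.Helper96.T5
open scoped Kronecker

section General

variable {F : Type*} [Field F] {ι : Type*} [Fintype ι] [DecidableEq ι]

theorem rk_add_right (J : Matrix ι ι F) (x y y' : ι → F) :
    rk J x (y + y') = rk J x y + rk J x y' := by
  rw [rk, rk, rk, Matrix.mulVec_add, Matrix.vecMulVec_add]

theorem rk_add_left (J : Matrix ι ι F) (x x' y : ι → F) :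
    rk J (x + x') y = rk J x y + rk J x' y := by
  rw [rk, rk, rk, Matrix.add_vecMulVec]

theorem rk_zero_left (J : Matrix ι ι F) (y : ι → F) : rk J 0 y = 0 := by
  rw [rk, Matrix.zero_vecMulVec]

theorem rk_zero_right (J : Matrix ι ι F) (x : ι → F) : rk J x 0 = 0 := by
  rw [rk, Matrix.mulVec_zero, Matrix.vecMulVec_zero]

theorem dm_add_right (J : Matrix ι ι F) (x y y' : ι → F) :
    dm J x (y + y') = dm J x y + dm J x y' := by
  rw [dm, dm, dm, rk_add_right, rk_add_left]; abel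

theorem dm_zero_right (J : Matrix ι ι F) (x : ι → F) : dm J x 0 = 0 := by
  rw [dm, rk_zero_right, rk_zero_left, sub_zero]

theorem dm_zero_left (J : Matrix ι ι F) (y : ι → F) : dm J 0 y = 0 := by
  rw [dm, rk_zero_right, rk_zero_left, sub_zero]

/-- `τ_u² = 0` for an alternating form. -/
theorem rk_self_sq (J : Matrix ι ι F) (halt : ∀ x, bf J x x = 0) (u : ι → F) :
    rk J u u * rk J u u = 0 := by
  rw [rk_mul_rk, halt, zero_smul]

/-- A transvection is an isometry. -/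
theorem tv_isom (J : Matrix ι ι F) (halt : ∀ x, bf J x x = 0) (z : ι → F) (c : F) (x y : ι → F) :
    bf J (tv J z c *ᵥ x) (tv J z c *ᵥ y) = bf J x y := by
  rw [tv_mulVec, tv_mulVec, bf_add_left, bf_add_right, bf_add_right, bf_smul_left, bf_smul_left,
    bf_smul_right, bf_smul_right, halt z, bf_swap J halt z y]
  ring

/-- The inverse of a transvection. -/
theorem tv_mul_tv_neg (J : Matrix ι ι F) (halt : ∀ x, bf J x x = 0) (z : ι → F) (c : F) :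
    tv J z c * tv J z (-c) = 1 := by
  rw [tv, tv, Matrix.add_mul, Matrix.mul_add, Matrix.mul_add, Matrix.one_mul, Matrix.mul_one,
    Matrix.one_mul, Matrix.smul_mul, Matrix.mul_smul, rk_self_sq J halt]
  simp

theorem tv_mulVec_tv_neg (J : Matrix ι ι F) (halt : ∀ x, bf J x x = 0) (z : ι → F) (c : F)
    (y : ι → F) : tv J z c *ᵥ (tv J z (-c) *ᵥ y) = y := by
  rw [Matrix.mulVec_mulVec, tv_mul_tv_neg J halt, Matrix.one_mulVec]

/-- Conjugating a rank one operator by a transvection. -/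
theorem tv_conj_rk (J : Matrix ι ι F) (halt : ∀ x, bf J x x = 0) (z : ι → F) (c : F)
    (x y : ι → F) :
    tv J z c * rk J x y * tv J z (-c) = rk J (tv J z c *ᵥ x) (tv J z c *ᵥ y) := by
  have hpt : ∀ w : ι → F, (tv J z c * rk J x y * tv J z (-c)) *ᵥ w
      = rk J (tv J z c *ᵥ x) (tv J z c *ᵥ y) *ᵥ w := by
    intro w
    rw [← Matrix.mulVec_mulVec, ← Matrix.mulVec_mulVec, rk_mulVec, rk_mulVec, Matrix.mulVec_smul]
    congr 1
    have h1 := tv_isom J halt z c (tv J z (-c) *ᵥ w) y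
    rw [tv_mulVec_tv_neg J halt] at h1
    exact h1.symm
  ext i j
  have := congrFun (hpt (Pi.single j 1)) i
  simpa using this

theorem tv_conj_dm (J : Matrix ι ι F) (halt : ∀ x, bf J x x = 0) (z : ι → F) (c : F)
    (x y : ι → F) :
    tv J z c * dm J x y * tv J z (-c) = dm J (tv J z c *ᵥ x) (tv J z c *ᵥ y) := by
  rw [dm, dm, Matrix.mul_sub, Matrix.sub_mul, tv_conj_rk J halt, tv_conj_rk J halt]

/-- For independent `x₀, y₀` there is `w ⊥ x₀` with `bf y₀ w ≠ 0`. -/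
theorem exists_perp_ne (J : Matrix ι ι F) (halt : ∀ x, bf J x x = 0) (hdet : J.det ≠ 0)
    (x₀ y₀ : ι → F) (hx : x₀ ≠ 0) (hind : ∀ c : F, y₀ ≠ c • x₀) :
    ∃ w : ι → F, bf J w x₀ = 0 ∧ bf J y₀ w ≠ 0 := by
  obtain ⟨m, hm⟩ := exists_bf_eq_one J hdet x₀ hx
  by_contra hcon
  push Not at hcon
  have hmx : bf J m x₀ = -1 := by rw [bf_swap J halt, hm]
  have h1 : ∀ n : ι → F, bf J (y₀ - bf J y₀ m • x₀) n = 0 := by
    intro n
    have h2 : bf J (n + bf J n x₀ • m) x₀ = 0 := by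
      rw [bf_add_left, bf_smul_left, hmx]; ring
    have h3 := hcon _ h2
    rw [bf_add_right, bf_smul_right] at h3
    rw [bf_sub_left, bf_smul_left, bf_swap J halt x₀ n]
    linear_combination h3
  apply hind (bf J y₀ m)
  by_contra h4
  have h5 : y₀ - bf J y₀ m • x₀ ≠ 0 := fun h => h4 (sub_eq_zero.1 h)
  obtain ⟨n, hn⟩ := exists_bf_eq_one J hdet _ h5
  rw [h1 n] at hn
  exact zero_ne_one hn

end General

section Tensor

variable {F : Type*} [Field F] {a b : ℕ}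

/-- `(1 + τ ⊗ D)(1 + τ ⊗ D') = 1 + τ ⊗ (D + D')` when `τ² = 0`. -/
theorem one_add_kron_mul (τ : Matrix (Fin a) (Fin a) F) (hτ : τ * τ = 0)
    (D D' : Matrix (Fin b) (Fin b) F) :
    (1 + τ ⊗ₖ D) * (1 + τ ⊗ₖ D') = 1 + τ ⊗ₖ (D + D') := by
  have h0 : (τ ⊗ₖ D) * (τ ⊗ₖ D') = 0 := by
    rw [← Matrix.mul_kronecker_mul, hτ, Matrix.zero_kronecker]
  rw [Matrix.add_mul, Matrix.mul_add, Matrix.mul_add, h0, Matrix.kronecker_add]
  simp only [Matrix.one_mul, Matrix.mul_one, add_zero]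
  abel

/-- Conjugation by `1 ⊗ B`. -/
theorem conj_right (τ : Matrix (Fin a) (Fin a) F) (D B B' : Matrix (Fin b) (Fin b) F)
    (hBB' : B * B' = 1) :
    ((1 : Matrix (Fin a) (Fin a) F) ⊗ₖ B) * (1 + τ ⊗ₖ D) * ((1 : Matrix (Fin a) (Fin a) F) ⊗ₖ B')
      = 1 + τ ⊗ₖ (B * D * B') := by
  rw [Matrix.mul_add, Matrix.add_mul, Matrix.mul_one, ← Matrix.mul_kronecker_mul,
    ← Matrix.mul_kronecker_mul, ← Matrix.mul_kronecker_mul, hBB']
  simp only [Matrix.one_mul, Matrix.mul_one, Matrix.one_kronecker_one]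

/-- Conjugation by `A ⊗ 1`. -/
theorem conj_left (τ A A' : Matrix (Fin a) (Fin a) F) (D : Matrix (Fin b) (Fin b) F)
    (hAA' : A * A' = 1) :
    (A ⊗ₖ (1 : Matrix (Fin b) (Fin b) F)) * (1 + τ ⊗ₖ D) * (A' ⊗ₖ (1 : Matrix (Fin b) (Fin b) F))
      = 1 + (A * τ * A') ⊗ₖ D := by
  rw [Matrix.mul_add, Matrix.add_mul, Matrix.mul_one, ← Matrix.mul_kronecker_mul,
    ← Matrix.mul_kronecker_mul, ← Matrix.mul_kronecker_mul, hAA']
  simp only [Matrix.one_mul, Matrix.mul_one, Matrix.one_kronecker_one]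

variable {J₁ : Matrix (Fin a) (Fin a) F} {J₂ : Matrix (Fin b) (Fin b) F}
  {Q : (Fin a × Fin b → F) → F}

/-- PIECE T2A with the transitivity of the transvections (PIECE TRANS) as hypotheses. -/
theorem t2a_core (hT : TQ J₁ J₂ Q) (M : Subgroup (GL (Fin a × Fin b) F)) (hR : HasR J₁ J₂ M)
    (htr₁ : ∀ x y : Fin a → F, x ≠ 0 → y ≠ 0 →
      ∃ (z z' : Fin a → F) (c c' : F), (tv J₁ z' c' * tv J₁ z c) *ᵥ x = y)
    (htr₂ : ∀ x y : Fin b → F, x ≠ 0 → y ≠ 0 →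
      ∃ (z z' : Fin b → F) (c c' : F), (tv J₂ z' c' * tv J₂ z c) *ᵥ x = y)
    (u₀ : Fin a → F) (x₀ y₀ : Fin b → F) (hu : u₀ ≠ 0) (hx : x₀ ≠ 0)
    (hind : ∀ c : F, y₀ ≠ c • x₀) (hxy : bf J₂ x₀ y₀ = 0)
    (h : InM M (1 + rk J₁ u₀ u₀ ⊗ₖ dm J₂ x₀ y₀)) :
    ∀ (u : Fin a → F) (x y : Fin b → F), bf J₂ x y = 0 → InM M (sg J₁ J₂ u x u y) := by
  have hτ : ∀ u : Fin a → F, rk J₁ u u * rk J₁ u u = 0 := rk_self_sq J₁ hT.alt₁
  -- additivity
  have hadd : ∀ (u : Fin a → F) (x y y' : Fin b → F),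
      InM M (1 + rk J₁ u u ⊗ₖ dm J₂ x y) → InM M (1 + rk J₁ u u ⊗ₖ dm J₂ x y') →
      InM M (1 + rk J₁ u u ⊗ₖ dm J₂ x (y + y')) := by
    intro u x y y' h1 h2
    have := h1.mul h2
    rwa [one_add_kron_mul _ (hτ u), ← dm_add_right] at this
  have hneg : ∀ (u : Fin a → F) (x y : Fin b → F),
      InM M (1 + rk J₁ u u ⊗ₖ dm J₂ x y) → InM M (1 + rk J₁ u u ⊗ₖ dm J₂ x (-y)) := by
    intro u x y h1
    apply h1.inv
    rw [one_add_kron_mul _ (hτ u), ← dm_add_right, add_neg_cancel, dm_zero_right,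
      Matrix.kronecker_zero, add_zero]
  -- conjugation in `W`
  have hcW : ∀ (u : Fin a → F) (x y w : Fin b → F) (c : F),
      InM M (1 + rk J₁ u u ⊗ₖ dm J₂ x y) →
      InM M (1 + rk J₁ u u ⊗ₖ dm J₂ (tv J₂ w c *ᵥ x) (tv J₂ w c *ᵥ y)) := by
    intro u x y w c h1
    have := ((hR.1 w c).mul h1).mul (hR.1 w (-c))
    rwa [conj_right _ _ _ _ (tv_mul_tv_neg J₂ hT.alt₂ w c), tv_conj_dm J₂ hT.alt₂] at this
  -- conjugation in `U`
  have hcU : ∀ (u : Fin a → F) (D : Matrix (Fin b) (Fin b) F) (z : Fin a → F) (c : F),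
      InM M (1 + rk J₁ u u ⊗ₖ D) →
      InM M (1 + rk J₁ (tv J₁ z c *ᵥ u) (tv J₁ z c *ᵥ u) ⊗ₖ D) := by
    intro u D z c h1
    have := ((hR.2 z c).mul h1).mul (hR.2 z (-c))
    rwa [conj_left _ _ _ _ (tv_mul_tv_neg J₁ hT.alt₁ z c), tv_conj_rk J₁ hT.alt₁] at this
  -- Step 1
  have hneg0 := hneg u₀ x₀ y₀ h
  have hs1 : ∀ w : Fin b → F, bf J₂ w x₀ = 0 → bf J₂ y₀ w ≠ 0 → ∀ c : F,
      InM M (1 + rk J₁ u₀ u₀ ⊗ₖ dm J₂ x₀ (c • w)) := by
    intro w hw hyw c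
    have h1 := hcW u₀ x₀ y₀ w (c / bf J₂ y₀ w) h
    have e1 : tv J₂ w (c / bf J₂ y₀ w) *ᵥ x₀ = x₀ := by
      rw [tv_mulVec, bf_swap J₂ hT.alt₂ x₀ w, hw]; simp
    have e2 : tv J₂ w (c / bf J₂ y₀ w) *ᵥ y₀ = y₀ + c • w := by
      rw [tv_mulVec, div_mul_cancel₀ _ hyw]
    rw [e1, e2] at h1
    have h2 := hadd u₀ x₀ _ _ hneg0 h1
    rwa [neg_add_cancel_left] at h2
  obtain ⟨w₁, hw₁, hyw₁⟩ := exists_perp_ne J₂ hT.alt₂ hT.det₂ x₀ y₀ hx hind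
  have hs2 : ∀ y : Fin b → F, bf J₂ x₀ y = 0 → InM M (1 + rk J₁ u₀ u₀ ⊗ₖ dm J₂ x₀ y) := by
    intro y hy
    have hy' : bf J₂ y x₀ = 0 := by rw [bf_swap J₂ hT.alt₂, hy, neg_zero]
    by_cases hyy : bf J₂ y₀ y = 0
    · have h1 := hs1 (y + w₁) (by rw [bf_add_left, hy', hw₁, add_zero])
        (by rw [bf_add_right, hyy, zero_add]; exact hyw₁) 1
      have h2 := hs1 w₁ hw₁ hyw₁ (-1)
      have h3 := hadd u₀ x₀ _ _ h1 h2
      have e : (1 : F) • (y + w₁) + (-1 : F) • w₁ = y := by simp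
      rwa [e] at h3
    · have h1 := hs1 y hy' hyy 1
      rwa [one_smul] at h1
  -- Step 2: all `x`
  have hs3 : ∀ (x : Fin b → F),
      (∀ y : Fin b → F, bf J₂ x y = 0 → InM M (1 + rk J₁ u₀ u₀ ⊗ₖ dm J₂ x y)) →
      ∀ (w : Fin b → F) (c : F), ∀ y : Fin b → F, bf J₂ (tv J₂ w c *ᵥ x) y = 0 →
        InM M (1 + rk J₁ u₀ u₀ ⊗ₖ dm J₂ (tv J₂ w c *ᵥ x) y) := by
    intro x hxr w c y hy
    have h1 : bf J₂ x (tv J₂ w (-c) *ᵥ y) = 0 := by
      rw [← tv_isom J₂ hT.alt₂ w c, tv_mulVec_tv_neg J₂ hT.alt₂, hy]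
    have h2 := hcW u₀ x _ w c (hxr _ h1)
    rwa [tv_mulVec_tv_neg J₂ hT.alt₂] at h2
  have hs4 : ∀ (x y : Fin b → F), bf J₂ x y = 0 →
      InM M (1 + rk J₁ u₀ u₀ ⊗ₖ dm J₂ x y) := by
    intro x y hxy'
    by_cases hx0 : x = 0
    · subst hx0
      rw [dm_zero_left, Matrix.kronecker_zero, add_zero]
      exact InM.one M
    · obtain ⟨z, z', c, c', hzz⟩ := htr₂ x₀ x hx hx0
      rw [← Matrix.mulVec_mulVec] at hzz
      have := hs3 _ (hs3 x₀ hs2 z c) z' c' y (by rw [hzz]; exact hxy')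
      rwa [hzz] at this
  -- Step 3: all `u`
  intro u x y hxy'
  have hsg : sg J₁ J₂ u x u y = 1 + rk J₁ u u ⊗ₖ dm J₂ x y := by
    have e : rk J₁ u u ⊗ₖ dm J₂ x y = rk J₁ u u ⊗ₖ rk J₂ x y - rk J₁ u u ⊗ₖ rk J₂ y x := by
      ext ⟨i, k⟩ ⟨j, l⟩
      simp only [dm, Matrix.kronecker_apply, Matrix.sub_apply]
      ring
    rw [sg, e, add_sub_assoc]
  rw [hsg]
  by_cases hu0 : u = 0
  · subst hu0
    rw [rk_zero_left, Matrix.zero_kronecker, add_zero]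
    exact InM.one M
  · obtain ⟨z, z', c, c', hzz⟩ := htr₁ u₀ u hu hu0
    rw [← Matrix.mulVec_mulVec] at hzz
    have := hcU _ _ z' c' (hcU u₀ _ z c (hs4 x y hxy'))
    rwa [hzz] at this

/-- PIECE T2A -/
theorem t2a (hT : TQ J₁ J₂ Q) (M : Subgroup (GL (Fin a × Fin b) F)) (hR : HasR J₁ J₂ M)
    (u₀ : Fin a → F) (x₀ y₀ : Fin b → F) (hu : u₀ ≠ 0) (hx : x₀ ≠ 0)
    (hind : ∀ c : F, y₀ ≠ c • x₀) (hxy : bf J₂ x₀ y₀ = 0)
    (h : InM M (1 + rk J₁ u₀ u₀ ⊗ₖ dm J₂ x₀ y₀)) :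
    ∀ (u : Fin a → F) (x y : Fin b → F), bf J₂ x y = 0 → InM M (sg J₁ J₂ u x u y) :=
  t2a_core hT M hR
    (fun x y hx hy => Cfsg.Agent.Helper51.T5TRANS.sp_trans J₁ hT.alt₁ hT.det₁ x y hx hy)
    (fun x y hx hy => Cfsg.Agent.Helper51.T5TRANS.sp_trans J₂ hT.alt₂ hT.det₂ x y hx hy)
    u₀ x₀ y₀ hu hx hind hxy h

end Tensor

end Cfsg.Agent.Helper67.T5T2A
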