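import Mathlib
import Cfsg.Agent.Helper67.TIVal

/-!
# Cyclic TI Sylow subgroups in characteristic p (elementary Green correspondence)

`tic_pow_ne_zero`: let `P = ⟨x⟩` be a cyclic TI Sylow `p`-subgroup of order `p ^ n` of the finite
group `G`, and `ρ` an irreducible representation of `G` over a field of characteristic `p`.
Put `t = ρ x - 1`.  If `t ^ (p - 1) ≠ 0` then `t ^ (p ^ n - p) ≠ 0`.
(The Jordan blocks of `x` have size `≤ p - 1` or `≥ p ^ n - (p - 1)`.)
-/

set_option autoImplicit false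

namespace Cfsg.Agent.Helper67

open Finset
open scoped Pointwise

/-- geometric sum in characteristic `p` -/
theorem tic_geom_sum {F : Type*} [Field F] (p : ℕ) [Fact p.Prime] [CharP F p] {A : Type*} [Ring A]
    [Algebra F A] (a : A) (n : ℕ) :
    ∑ i ∈ range (p ^ n), a ^ i = (a - 1) ^ (p ^ n - 1) := by
  have hq : 0 < p ^ n := pow_pos (Fact.out : p.Prime).pos n
  have key : (∑ i ∈ range (p ^ n), (Polynomial.X : Polynomial F) ^ i)
      = (Polynomial.X - 1) ^ (p ^ n - 1) := by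
    have h1 : (Polynomial.X - 1 : Polynomial F) * ∑ i ∈ range (p ^ n), (Polynomial.X : Polynomial F) ^ i
        = (Polynomial.X - 1) * (Polynomial.X - 1) ^ (p ^ n - 1) := by
      rw [mul_geom_sum, ← pow_succ', Nat.sub_add_cancel hq,
        sub_pow_char_pow_of_commute p n (Commute.one_right _), one_pow]
    have hne : (Polynomial.X - 1 : Polynomial F) ≠ 0 := by
      have := Polynomial.X_sub_C_ne_zero (1 : F)
      simpa using this
    exact mul_left_cancel₀ hne h1
  have := congrArg (Polynomial.aeval a) key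
  simpa using this

/-- Frobenius on `a - 1` in an algebra over a field of characteristic `p` -/
theorem tic_sub_one_pow {F : Type*} [Field F] (p : ℕ) [Fact p.Prime] [CharP F p] {A : Type*}
    [Ring A] [Algebra F A] (a : A) (n : ℕ) : (a - 1) ^ (p ^ n) = a ^ (p ^ n) - 1 := by
  have hq : 0 < p ^ n := pow_pos (Fact.out : p.Prime).pos n
  calc (a - 1) ^ (p ^ n) = (a - 1) * (a - 1) ^ (p ^ n - 1) := by
        rw [← pow_succ', Nat.sub_add_cancel hq]
    _ = a ^ (p ^ n) - 1 := by rw [← tic_geom_sum (F := F) p a n, mul_geom_sum]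

theorem tic_filt_step {F V : Type*} [Field F] [AddCommGroup V] [Module F V]
    (y y' : Module.End F V) (h1 : y * y' = 1) (h2 : y' * y = 1) (k : ℕ) (Φ : Module.End F V)
    (hΦ : ∀ j : ℕ, 1 ≤ j → ∀ v : V, ((y - 1) ^ j) v = 0 →
      ∃ w : V, Φ v = ((y - 1) ^ (k + 1 - j)) w) :
    ∀ j : ℕ, 1 ≤ j → ∀ v : V, ((y - 1) ^ j) v = 0 →
      ∃ w : V, (y * Φ * y' - Φ) v = ((y - 1) ^ (k + 2 - j)) w := by
  intro j hj v hv
  have hcomm : y' * (y - 1) = (y - 1) * y' := by
    rw [mul_sub, sub_mul, h2, h1, mul_one, one_mul]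
  have hcommj : ∀ i : ℕ, y' * (y - 1) ^ i = (y - 1) ^ i * y' := by
    intro i
    induction i with
    | zero => simp
    | succ i ih => rw [pow_succ, ← mul_assoc, ih, mul_assoc, hcomm, mul_assoc]
  have hD : y * Φ * y' - Φ = ((y - 1) * Φ - Φ * (y - 1)) * y' := by
    have e1 : ((y - 1) * Φ - Φ * (y - 1)) = y * Φ - Φ * y := by
      rw [sub_mul, mul_sub, one_mul, mul_one]; abel
    rw [e1, sub_mul, mul_assoc Φ y y', h1, mul_one]
  by_cases hjk : k + 2 ≤ j
  · refine ⟨(y * Φ * y' - Φ) v, ?_⟩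
    have : k + 2 - j = 0 := by omega
    rw [this, pow_zero, Module.End.one_apply]
  · have hv' : ((y - 1) ^ j) (y' v) = 0 := by
      have := congrArg (fun f : Module.End F V => f v) (hcommj j)
      simp only [Module.End.mul_apply] at this
      rw [← this, hv, map_zero]
    obtain ⟨w₁, hw₁⟩ := hΦ j hj (y' v) hv'
    have hsecond : ∃ w₂ : V, Φ ((y - 1) (y' v)) = ((y - 1) ^ (k + 2 - j)) w₂ := by
      by_cases hj1 : j = 1
      · refine ⟨0, ?_⟩
        have : (y - 1) (y' v) = 0 := by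
          rw [hj1, pow_one] at hv'
          exact hv'
        rw [this, map_zero, map_zero]
      · have hv'' : ((y - 1) ^ (j - 1)) ((y - 1) (y' v)) = 0 := by
          rw [← Module.End.mul_apply, ← pow_succ, Nat.sub_add_cancel hj]
          exact hv'
        obtain ⟨w₂, hw₂⟩ := hΦ (j - 1) (by omega) _ hv''
        refine ⟨w₂, ?_⟩
        rw [hw₂]
        have : k + 1 - (j - 1) = k + 2 - j := by omega
        rw [this]
    obtain ⟨w₂, hw₂⟩ := hsecond
    refine ⟨w₁ - w₂, ?_⟩
    rw [hD, Module.End.mul_apply, LinearMap.sub_apply, Module.End.mul_apply, Module.End.mul_apply,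
      hw₁, hw₂, map_sub]
    congr 1
    rw [← Module.End.mul_apply, ← pow_succ']
    have : k + 1 - j + 1 = k + 2 - j := by omega
    rw [this]

theorem tic_filt {F V : Type*} [Field F] [AddCommGroup V] [Module F V]
    (y y' : Module.End F V) (h1 : y * y' = 1) (h2 : y' * y = 1) (Ψ : Module.End F V) (k : ℕ) :
    ∀ j : ℕ, 1 ≤ j → ∀ v : V, ((y - 1) ^ j) v = 0 →
      ∃ w : V, (((LinearMap.mulLeft F y * LinearMap.mulRight F y' - 1) ^ k) Ψ) v
        = ((y - 1) ^ (k + 1 - j)) w := by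
  induction k with
  | zero =>
    intro j hj v hv
    refine ⟨Ψ v, ?_⟩
    have : 0 + 1 - j = 0 := by omega
    rw [this]; simp
  | succ k ih =>
    intro j hj v hv
    obtain ⟨w, hw⟩ := tic_filt_step y y' h1 h2 k _ ih j hj v hv
    refine ⟨w, ?_⟩
    rw [pow_succ', Module.End.mul_apply, show k + 1 + 1 - j = k + 2 - j by omega, ← hw]
    have e : (LinearMap.mulLeft F y * LinearMap.mulRight F y' - 1)
        (((LinearMap.mulLeft F y * LinearMap.mulRight F y' - 1) ^ k) Ψ)
        = y * ((LinearMap.mulLeft F y * LinearMap.mulRight F y' - 1) ^ k) Ψ * y' -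
        ((LinearMap.mulLeft F y * LinearMap.mulRight F y' - 1) ^ k) Ψ := by
      rw [LinearMap.sub_apply, Module.End.mul_apply, LinearMap.mulLeft_apply,
        LinearMap.mulRight_apply, Module.End.one_apply, mul_assoc]
    rw [e]

theorem tic_conj_pow {F V : Type*} [Field F] [AddCommGroup V] [Module F V]
    (y y' : Module.End F V) (i : ℕ) : ∀ (Ψ : Module.End F V),
    ((LinearMap.mulLeft F y * LinearMap.mulRight F y') ^ i) Ψ = y ^ i * Ψ * y' ^ i := by
  induction i with
  | zero => intro Ψ; simp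
  | succ i ih =>
    intro Ψ
    rw [pow_succ, Module.End.mul_apply, ih]
    simp only [Module.End.mul_apply, LinearMap.mulLeft_apply, LinearMap.mulRight_apply]
    rw [pow_succ, pow_succ']
    simp only [mul_assoc]

/-- the trace from the trivial subgroup to a cyclic `p`-group raises the filtration -/
theorem tic_trace_filt {F V : Type*} [Field F] (p : ℕ) [Fact p.Prime] [CharP F p]
    [AddCommGroup V] [Module F V]
    (y y' : Module.End F V) (h1 : y * y' = 1) (h2 : y' * y = 1) (Ψ : Module.End F V) (n : ℕ)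
    (j : ℕ) (hj : 1 ≤ j) (v : V) (hv : ((y - 1) ^ j) v = 0) :
    ∃ w : V, (∑ i ∈ range (p ^ n), y ^ i * Ψ * y' ^ i) v = ((y - 1) ^ (p ^ n - j)) w := by
  have hq : 0 < p ^ n := pow_pos (Fact.out : p.Prime).pos n
  have e1 : (∑ i ∈ range (p ^ n), y ^ i * Ψ * y' ^ i)
      = ((LinearMap.mulLeft F y * LinearMap.mulRight F y' - 1) ^ (p ^ n - 1)) Ψ := by
    rw [← tic_geom_sum (F := F) p (LinearMap.mulLeft F y * LinearMap.mulRight F y') n,
      LinearMap.sum_apply]
    exact Finset.sum_congr rfl (fun i _ => (tic_conj_pow y y' i Ψ).symm)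
  obtain ⟨w, hw⟩ := tic_filt y y' h1 h2 Ψ (p ^ n - 1) j hj v hv
  refine ⟨w, ?_⟩
  rw [e1, hw, show p ^ n - 1 + 1 - j = p ^ n - j by omega]

/-- conjugating `t ^ (p - 1)` by a normalizing element changes it only modulo `t ^ p` -/
theorem tic_conj_poly {F : Type*} [Field F] (p : ℕ) [Fact p.Prime] [CharP F p] {A : Type*} [Ring A]
    [Algebra F A] (y : A) (a : ℕ) (ha : ¬ p ∣ a) :
    ∃ r : A, r * (y - 1) = (y - 1) * r ∧
      (y ^ a - 1) ^ (p - 1) = (y - 1) ^ (p - 1) + (y - 1) ^ p * r := by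
  have hp : p.Prime := Fact.out
  have haF : ((a : F)) ^ (p - 1) = 1 := by
    have h0 : (a : ZMod p) ≠ 0 := by
      rw [Ne, ZMod.natCast_eq_zero_iff]; exact ha
    have h1 := ZMod.pow_card_sub_one_eq_one h0
    have h2 := congrArg (ZMod.castHom (dvd_refl p) F) h1
    simpa using h2
  set s : Polynomial F := ∑ i ∈ range a, (Polynomial.X : Polynomial F) ^ i with hs
  have hXa : (Polynomial.X : Polynomial F) ^ a - 1 = (Polynomial.X - 1) * s := by
    rw [hs, mul_geom_sum]
  have hdvd1 : (Polynomial.X - Polynomial.C (1 : F)) ∣ s - Polynomial.C (a : F) := by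
    rw [Polynomial.dvd_iff_isRoot]
    simp [hs, Polynomial.eval_finsetSum]
  have hdvd2 : (Polynomial.X - Polynomial.C (1 : F)) ∣ s ^ (p - 1) - 1 := by
    have h3 : s - Polynomial.C (a : F) ∣ s ^ (p - 1) - (Polynomial.C (a : F)) ^ (p - 1) :=
      sub_dvd_pow_sub_pow _ _ _
    rw [← Polynomial.C_pow, haF, Polynomial.C_1] at h3
    exact hdvd1.trans h3
  obtain ⟨r₂, hr₂⟩ := hdvd2
  rw [Polynomial.C_1] at hr₂
  have key : ((Polynomial.X : Polynomial F) ^ a - 1) ^ (p - 1)
      = (Polynomial.X - 1) ^ (p - 1) + (Polynomial.X - 1) ^ p * r₂ := by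
    have e : s ^ (p - 1) = 1 + (Polynomial.X - 1) * r₂ := by
      rw [← hr₂]; ring
    rw [hXa, mul_pow, e]
    have hpp : p = (p - 1) + 1 := (Nat.sub_add_cancel hp.pos).symm
    conv_rhs => rw [hpp]
    simp only [Nat.add_sub_cancel]
    ring
  refine ⟨Polynomial.aeval y r₂, ?_, ?_⟩
  · have e1 : (y - 1) = Polynomial.aeval y (Polynomial.X - 1 : Polynomial F) := by simp
    rw [e1, ← map_mul, ← map_mul, mul_comm]
  · have := congrArg (Polynomial.aeval y) key
    simpa using this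


theorem tic_conj_mul_pow {A : Type*} [Ring A] (a b c : A) (hab : b * a = 1) (k : ℕ) :
    (a * c * b) ^ k * a = a * c ^ k := by
  induction k with
  | zero => simp
  | succ k ih =>
    rw [pow_succ', mul_assoc, ih, pow_succ']
    calc a * c * b * (a * c ^ k) = a * c * (b * a) * c ^ k := by simp only [mul_assoc]
      _ = a * (c * c ^ k) := by rw [hab, mul_one, mul_assoc]

/-- **Cyclic TI Sylow subgroups, characteristic `p`**: the nilpotency index of `x - 1` on an
irreducible module is `≤ p - 1` or `> p ^ n - p`. -/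
theorem tic_pow_ne_zero {G : Type*} [Group G] [Finite G] (p : ℕ) [Fact p.Prime] (P : Sylow p G)
    (x : G) (hx : x ∈ (P : Subgroup G)) (hgen : ∀ u ∈ (P : Subgroup G), ∃ i : ℕ, u = x ^ i)
    (n : ℕ) (hPn : Nat.card P = p ^ n)
    (hTI : ∀ Q : Sylow p G, Q ≠ P → (P : Subgroup G) ⊓ (Q : Subgroup G) = ⊥)
    {F : Type*} [Field F] [CharP F p] {V : Type*} [AddCommGroup V] [Module F V]
    (ρ : Representation F G V) (hirr : ρ.IsIrreducible)
    (h1 : (ρ x - 1) ^ (p - 1) ≠ 0) : (ρ x - 1) ^ (p ^ n - p) ≠ 0 := by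
  classical
  intro hz
  have hp : p.Prime := Fact.out
  have : Fintype G := Fintype.ofFinite G
  have hyy' : ρ x * ρ x⁻¹ = 1 := by rw [← map_mul, mul_inv_cancel, map_one]
  have hy'y : ρ x⁻¹ * ρ x = 1 := by rw [← map_mul, inv_mul_cancel, map_one]
  -- the order of x
  have hPz : (P : Subgroup G) = Subgroup.zpowers x :=
    le_antisymm (fun u hu => by
      obtain ⟨i, rfl⟩ := hgen u hu
      exact Subgroup.npow_mem_zpowers x i) ((Subgroup.zpowers_le).2 hx)
  have hord : orderOf x = p ^ n := by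
    have h : Nat.card (P : Subgroup G) = p ^ n := hPn
    rw [hPz, Nat.card_zpowers] at h
    exact h
  have hn1 : 1 ≤ n := by
    by_contra hcon
    have hn0 : n = 0 := by omega
    rw [hn0, pow_zero, orderOf_eq_one_iff] at hord
    apply h1
    rw [hord, map_one, sub_self, zero_pow]
    have := hp.two_le
    omega
  have hpq : p ≤ p ^ n := by
    calc p = p ^ 1 := (pow_one p).symm
      _ ≤ p ^ n := Nat.pow_le_pow_right hp.pos hn1
  have hpq' : p < p ^ n := by
    by_contra hcon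
    have : p ^ n - p = 0 := by omega
    rw [this, pow_zero] at hz
    apply h1
    calc (ρ x - 1) ^ (p - 1) = (ρ x - 1) ^ (p - 1) * 1 := (mul_one _).symm
      _ = 0 := by rw [hz, mul_zero]
  have hpdq : p ∣ p ^ n := dvd_pow_self p (by omega)
  set N : Subgroup G := Subgroup.normalizer ((P : Subgroup G) : Set G) with hN
  have hPN : (P : Subgroup G) ≤ N := Subgroup.le_normalizer
  have hTI' : ∀ g : G, g ∉ Subgroup.normalizer ((P : Subgroup G) : Set G) →
      (P : Subgroup G) ⊓ (MulAut.conj g • (P : Subgroup G)) = ⊥ := by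
    intro g hg
    have hne : g • P ≠ P := fun h => hg (Sylow.smul_eq_iff_mem_normalizer.1 h)
    have := hTI (g • P) hne
    rwa [Sylow.coe_subgroup_smul] at this
  -- elements of P commute with t
  have hcommP : ∀ u ∈ (P : Subgroup G), ∀ k : ℕ, ρ u * (ρ x - 1) ^ k = (ρ x - 1) ^ k * ρ u := by
    intro u hu k
    obtain ⟨i, rfl⟩ := hgen u hu
    rw [map_pow]
    have hc : Commute (ρ x ^ i) ((ρ x - 1) ^ k) :=
      (((Commute.refl (ρ x)).sub_right (Commute.one_right _)).pow_right k).pow_left i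
    exact hc.eq
  have hPfix : ∀ u ∈ (P : Subgroup G), ∀ k : ℕ, ρ u * (ρ x - 1) ^ k * ρ u⁻¹ = (ρ x - 1) ^ k := by
    intro u hu k
    rw [hcommP u hu k, mul_assoc, ← map_mul, mul_inv_cancel, map_one, mul_one]
  -- the summand
  set Ω := G ⧸ (P : Subgroup G) with hΩ
  have : Fintype Ω := Fintype.ofFinite Ω
  set Fc : Ω → Module.End F V := fun c => ρ c.out * (ρ x - 1) ^ (p - 1) * ρ (c.out)⁻¹ with hFc
  have hF : ∀ g : G, Fc (QuotientGroup.mk g) = ρ g * (ρ x - 1) ^ (p - 1) * ρ g⁻¹ := by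
    intro g
    obtain ⟨u, hu⟩ := QuotientGroup.mk_out_eq_mul (P : Subgroup G) g
    simp only [hFc]
    rw [hu, mul_inv_rev, map_mul, map_mul]
    calc ρ g * ρ (u : G) * (ρ x - 1) ^ (p - 1) * (ρ (u : G)⁻¹ * ρ g⁻¹)
        = ρ g * (ρ (u : G) * (ρ x - 1) ^ (p - 1) * ρ (u : G)⁻¹) * ρ g⁻¹ := by
          simp only [mul_assoc]
      _ = ρ g * (ρ x - 1) ^ (p - 1) * ρ g⁻¹ := by rw [hPfix u u.2]
  have hFsmul : ∀ (g : G) (c : Ω), Fc (g • c) = ρ g * Fc c * ρ g⁻¹ := by
    intro g c
    obtain ⟨g', rfl⟩ := QuotientGroup.mk_surjective c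
    have : g • (QuotientGroup.mk g' : Ω) = QuotientGroup.mk (g * g') := rfl
    rw [this, hF, hF, mul_inv_rev, map_mul, map_mul]
    simp only [mul_assoc]
  set Θ : Module.End F V := ∑ c : Ω, Fc c with hΘ
  have hΘconj : ∀ g : G, ρ g * Θ * ρ g⁻¹ = Θ := by
    intro g
    rw [hΘ, Finset.mul_sum, Finset.sum_mul]
    calc ∑ c : Ω, ρ g * Fc c * ρ g⁻¹ = ∑ c : Ω, Fc (g • c) :=
          Finset.sum_congr rfl (fun c _ => (hFsmul g c).symm)
      _ = ∑ c : Ω, Fc c := Fintype.sum_equiv (MulAction.toPerm g) _ _ (fun c => rfl)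
  have hΘcomm : ∀ (g : G) (v : V), Θ (ρ g v) = ρ g (Θ v) := by
    intro g v
    have h := hΘconj g
    have h2 : ρ g * Θ = Θ * ρ g := by
      calc ρ g * Θ = ρ g * Θ * (ρ g⁻¹ * ρ g) := by
            rw [← map_mul, inv_mul_cancel, map_one, mul_one]
        _ = (ρ g * Θ * ρ g⁻¹) * ρ g := by simp only [mul_assoc]
        _ = Θ * ρ g := by rw [h]
    have := congrArg (fun f : Module.End F V => f v) h2
    simpa [Module.End.mul_apply] using this.symm
  -- the split
  set S : Finset Ω := Finset.univ.filter (fun c : Ω => c.out ∉ N) with hS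
  have hSinv : ∀ u : (P : Subgroup G), ∀ c ∈ S, u • c ∈ S := by
    intro u c hc
    rw [hS, Finset.mem_filter] at hc ⊢
    refine ⟨Finset.mem_univ _, fun hmem => hc.2 ?_⟩
    have e1 : u • c = QuotientGroup.mk ((u : G) * c.out) := by
      conv_lhs => rw [← QuotientGroup.out_eq' c]
      rfl
    obtain ⟨u', hu'⟩ := QuotientGroup.mk_out_eq_mul (P : Subgroup G) ((u : G) * c.out)
    rw [e1, hu'] at hmem
    have h3 : c.out = (u : G)⁻¹ * ((u : G) * c.out * (u' : G)) * (u' : G)⁻¹ := by group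
    rw [h3]
    exact N.mul_mem (N.mul_mem (N.inv_mem (hPN u.2)) hmem) (N.inv_mem (hPN u'.2))
  have hSfree : ∀ u : (P : Subgroup G), ∀ c ∈ S, u • c = c → u = 1 := by
    intro u c hc huc
    rw [hS, Finset.mem_filter] at hc
    by_contra hu1
    apply hc.2
    have e1 : u • c = QuotientGroup.mk ((u : G) * c.out) := by
      conv_lhs => rw [← QuotientGroup.out_eq' c]
      rfl
    have e2 : (QuotientGroup.mk ((u : G) * c.out) : Ω) = QuotientGroup.mk c.out := by
      rw [← e1, huc, QuotientGroup.out_eq']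
    have e3 := QuotientGroup.eq.1 e2.symm
    have e4 : (c.out)⁻¹ * (u : G) * c.out ∈ N := by
      apply hPN
      have : (c.out)⁻¹ * (u : G) * c.out = (c.out)⁻¹ * ((u : G) * c.out) := by group
      rw [this]; exact e3
    have hune : (u : G) ≠ 1 := fun h => hu1 (Subtype.ext h)
    exact tiv_free p P hTI' N le_rfl (u : G) u.2 hune c.out e4
  obtain ⟨T, hTS, hTsum⟩ := tiv_free_sum (P := (P : Subgroup G)) Fc S hSinv hSfree
  obtain ⟨T', hT'S, hT'sum⟩ := tiv_free_sum (P := (P : Subgroup G)) (fun _ : Ω => (1 : ℕ)) S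
    hSinv hSfree
  -- the bijection Fin q ≃ P
  have hcardP : Fintype.card (P : Subgroup G) = p ^ n := by
    rw [Fintype.card_eq_nat_card]; exact hPn
  set eP : Fin (p ^ n) → (P : Subgroup G) := fun i => ⟨x ^ (i : ℕ), pow_mem hx _⟩ with heP
  have hePbij : Function.Bijective eP := by
    rw [Fintype.bijective_iff_injective_and_card]
    refine ⟨?_, by rw [Fintype.card_fin, hcardP]⟩
    intro i j hij
    have h : x ^ (i : ℕ) = x ^ (j : ℕ) := congrArg Subtype.val hij
    have hi : (i : ℕ) < orderOf x := by rw [hord]; exact i.2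
    have hj : (j : ℕ) < orderOf x := by rw [hord]; exact j.2
    exact Fin.ext (pow_injOn_Iio_orderOf hi hj h)
  set Ψ : Module.End F V := ∑ τ ∈ T, Fc τ with hΨ
  have hSsum : ∑ c ∈ S, Fc c = ∑ i ∈ range (p ^ n), ρ x ^ i * Ψ * ρ x⁻¹ ^ i := by
    rw [hTsum, Finset.sum_comm]
    have e1 : ∀ u : (P : Subgroup G), ∑ τ ∈ T, Fc (u • τ) = ρ (u : G) * Ψ * ρ (u : G)⁻¹ := by
      intro u
      rw [hΨ, Finset.mul_sum, Finset.sum_mul]
      exact Finset.sum_congr rfl (fun τ _ => hFsmul (u : G) τ)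
    rw [Finset.sum_congr rfl (fun u _ => e1 u)]
    rw [← Fin.sum_univ_eq_sum_range (fun i => ρ x ^ i * Ψ * ρ x⁻¹ ^ i) (p ^ n)]
    symm
    refine Fintype.sum_bijective eP hePbij _ _ (fun i => ?_)
    simp only [heP]
    rw [map_pow, ← inv_pow, map_pow]
  -- the count
  have hScard : S.card = T'.card * p ^ n := by
    have := hT'sum
    simp only [Finset.sum_const, smul_eq_mul, mul_one, Finset.card_univ] at this
    rw [this, hcardP]
  set S' : Finset Ω := Finset.univ.filter (fun c : Ω => ¬ (c.out ∉ N)) with hS'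
  have hkcard : S.card + S'.card = (P : Subgroup G).index := by
    rw [hS, hS', Finset.card_filter_add_card_filter_not, Finset.card_univ,
      Subgroup.index_eq_card, Fintype.card_eq_nat_card]
  have hknd : ¬ p ∣ S'.card := by
    intro hdvd
    have : p ∣ (P : Subgroup G).index := by
      rw [← hkcard, hScard]
      exact dvd_add (Dvd.dvd.mul_left hpdq _) hdvd
    exact P.not_dvd_index this
  have hkF : (S'.card : F) ≠ 0 := by
    rw [Ne, CharP.cast_eq_zero_iff F p]; exact hknd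
  -- the normalizer part
  have hA : ∀ c : Ω, ¬ (c.out ∉ N) → ∃ r : Module.End F V,
      r * (ρ x - 1) = (ρ x - 1) * r ∧ Fc c = (ρ x - 1) ^ (p - 1) + (ρ x - 1) ^ p * r := by
    intro c hc
    rw [not_not] at hc
    have hmem : c.out * x * (c.out)⁻¹ ∈ (P : Subgroup G) :=
      (Subgroup.mem_normalizer_iff.1 hc x).1 hx
    obtain ⟨a, ha⟩ := hgen _ hmem
    have hoa : orderOf (x ^ a) = p ^ n := by
      rw [← ha, ← hord]
      have := MulEquiv.orderOf_eq (MulAut.conj c.out) x
      rwa [MulAut.conj_apply] at this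
    have hnda : ¬ p ∣ a := by
      intro hpa
      have h3 : orderOf (x ^ a) = orderOf x / Nat.gcd (orderOf x) a :=
        orderOf_pow x
      rw [hoa, hord] at h3
      have h4 : p ∣ Nat.gcd (p ^ n) a := Nat.dvd_gcd hpdq hpa
      have h5 : 2 ≤ Nat.gcd (p ^ n) a :=
        le_trans hp.two_le (Nat.le_of_dvd (Nat.gcd_pos_of_pos_left _ (by omega)) h4)
      have h6 : p ^ n / Nat.gcd (p ^ n) a < p ^ n := Nat.div_lt_self (by omega) h5
      omega
    obtain ⟨r, hr1, hr2⟩ := tic_conj_poly (F := F) p (ρ x) a hnda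
    refine ⟨r, hr1, ?_⟩
    rw [← hr2]
    simp only [hFc]
    have e1 : ρ c.out * (ρ x - 1) * ρ (c.out)⁻¹ = ρ x ^ a - 1 := by
      rw [mul_sub, sub_mul, mul_one, ← map_mul, ← map_mul, ← map_mul, mul_inv_cancel, map_one, ha,
        map_pow]
    have e2 := tic_conj_mul_pow (ρ c.out) (ρ (c.out)⁻¹) (ρ x - 1)
      (by rw [← map_mul, inv_mul_cancel, map_one]) (p - 1)
    rw [← e1]
    calc ρ c.out * (ρ x - 1) ^ (p - 1) * ρ (c.out)⁻¹
        = (ρ c.out * (ρ x - 1) * ρ (c.out)⁻¹) ^ (p - 1) * ρ c.out * ρ (c.out)⁻¹ := by rw [e2]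
      _ = (ρ c.out * (ρ x - 1) * ρ (c.out)⁻¹) ^ (p - 1) := by
        rw [mul_assoc, ← map_mul, mul_inv_cancel, map_one, mul_one]
  choose! r hr using hA
  set R : Module.End F V := ∑ c ∈ S', r c with hR
  have hAsum : ∑ c ∈ S', Fc c = (S'.card : F) • (ρ x - 1) ^ (p - 1) + (ρ x - 1) ^ p * R := by
    have e1 : ∑ c ∈ S', Fc c = ∑ c ∈ S', ((ρ x - 1) ^ (p - 1) + (ρ x - 1) ^ p * r c) := by
      refine Finset.sum_congr rfl (fun c hc => ?_)
      rw [hS', Finset.mem_filter] at hc
      exact (hr c hc.2).2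
    rw [e1, Finset.sum_add_distrib, Finset.sum_const, ← Finset.mul_sum, Nat.cast_smul_eq_nsmul]
  have hRcomm : ∀ k : ℕ, (ρ x - 1) ^ k * R = R * (ρ x - 1) ^ k := by
    intro k
    have hc : Commute R (ρ x - 1) := by
      rw [hR]
      refine Commute.sum_left _ _ _ (fun c hc => ?_)
      rw [hS', Finset.mem_filter] at hc
      exact (hr c hc.2).1
    exact ((hc.pow_right k).eq).symm
  have hΘsplit : Θ = (∑ i ∈ range (p ^ n), ρ x ^ i * Ψ * ρ x⁻¹ ^ i)
      + ((S'.card : F) • (ρ x - 1) ^ (p - 1) + (ρ x - 1) ^ p * R) := by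
    rw [← hSsum, ← hAsum, hΘ, hS, hS', Finset.sum_filter_add_sum_filter_not]
  -- a nonzero vector killed by t
  have hex : ∃ k : ℕ, (ρ x - 1) ^ k = 0 := ⟨p ^ n - p, hz⟩
  have hk0 : Nat.find hex ≠ 0 := by
    intro h0
    have := Nat.find_spec hex
    rw [h0, pow_zero] at this
    apply h1
    calc (ρ x - 1) ^ (p - 1) = (ρ x - 1) ^ (p - 1) * 1 := (mul_one _).symm
      _ = 0 := by rw [this, mul_zero]
  have hkmin : (ρ x - 1) ^ (Nat.find hex - 1) ≠ 0 :=
    Nat.find_min hex (by omega)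
  obtain ⟨w₀, hw₀⟩ : ∃ w₀ : V, ((ρ x - 1) ^ (Nat.find hex - 1)) w₀ ≠ 0 := by
    by_contra hcon
    push Not at hcon
    exact hkmin (LinearMap.ext (fun v => by rw [hcon v]; rfl))
  set v₀ : V := ((ρ x - 1) ^ (Nat.find hex - 1)) w₀ with hv₀
  have htv₀ : ((ρ x - 1) ^ (1 : ℕ)) v₀ = 0 := by
    rw [hv₀, ← Module.End.mul_apply, ← pow_add,
      show 1 + (Nat.find hex - 1) = Nat.find hex by omega, Nat.find_spec hex]
    rfl
  have hpow_q1 : (ρ x - 1) ^ (p ^ n - 1) = 0 := by
    have : p ^ n - 1 = (p ^ n - p) + (p - 1) := by have := hp.two_le; omega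
    rw [this, pow_add, hz, zero_mul]
  have hΘv₀ : Θ v₀ = 0 := by
    rw [hΘsplit, LinearMap.add_apply]
    obtain ⟨w, hw⟩ := tic_trace_filt (F := F) p (ρ x) (ρ x⁻¹) hyy' hy'y Ψ n 1 le_rfl v₀ htv₀
    rw [hw, hpow_q1, LinearMap.zero_apply, zero_add, hRcomm, LinearMap.add_apply,
      LinearMap.smul_apply, Module.End.mul_apply]
    have e1 : ((ρ x - 1) ^ (p - 1)) v₀ = 0 := by
      have : p - 1 = (p - 2) + 1 := by have := hp.two_le; omega
      rw [this, pow_add, Module.End.mul_apply, htv₀, map_zero]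
    have e2 : ((ρ x - 1) ^ p) v₀ = 0 := by
      have : p = (p - 1) + 1 := by have := hp.two_le; omega
      rw [this, pow_add, Module.End.mul_apply, htv₀, map_zero]
    rw [e1, e2, smul_zero, map_zero, add_zero]
  -- Θ = 0 by irreducibility
  have hΘ0 : Θ = 0 := by
    have := hirr
    set f := Θ.intertwiningMap_of_isIntertwiningMap ρ ρ hΘcomm with hf
    rcases Representation.IsIrreducible.injective_or_eq_zero f with hinj | h0
    · exfalso
      have : f v₀ = f 0 := by
        rw [map_zero]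
        exact hΘv₀
      exact hw₀ (hinj this)
    · refine LinearMap.ext (fun v => ?_)
      have : f v = 0 := by rw [h0]; rfl
      exact this
  -- t^(p-1) V ⊆ t^p V
  have hstep : ∀ v : V, ∃ w : V, ((ρ x - 1) ^ (p - 1)) v = ((ρ x - 1) ^ p) w := by
    intro v
    have hj : ((ρ x - 1) ^ (p ^ n - p)) v = 0 := by rw [hz]; rfl
    obtain ⟨w, hw⟩ := tic_trace_filt (F := F) p (ρ x) (ρ x⁻¹) hyy' hy'y Ψ n (p ^ n - p) (by omega)
      v hj
    have h0 : Θ v = 0 := by rw [hΘ0]; rfl
    rw [hΘsplit, LinearMap.add_apply, hw, show p ^ n - (p ^ n - p) = p by omega,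
      LinearMap.add_apply, LinearMap.smul_apply, Module.End.mul_apply] at h0
    refine ⟨(S'.card : F)⁻¹ • (-w - R v), ?_⟩
    have h2 : (S'.card : F) • ((ρ x - 1) ^ (p - 1)) v = ((ρ x - 1) ^ p) (-w - R v) := by
      rw [map_sub, map_neg]
      have : ((ρ x - 1) ^ p) w + ((S'.card : F) • ((ρ x - 1) ^ (p - 1)) v + ((ρ x - 1) ^ p) (R v))
          = 0 := h0
      rw [← sub_eq_zero]
      rw [← this]; abel
    rw [map_smul, ← h2, smul_smul, inv_mul_cancel₀ hkF, one_smul]
  have hiter : ∀ l : ℕ, ∀ v : V, ∃ w : V,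
      ((ρ x - 1) ^ (p - 1)) v = ((ρ x - 1) ^ (p - 1 + l)) w := by
    intro l
    induction l with
    | zero => intro v; exact ⟨v, rfl⟩
    | succ l ih =>
      intro v
      obtain ⟨w, hw⟩ := ih v
      obtain ⟨w', hw'⟩ := hstep w
      refine ⟨w', ?_⟩
      rw [hw, show p - 1 + l = l + (p - 1) by omega, pow_add, Module.End.mul_apply, hw',
        ← Module.End.mul_apply, ← pow_add]
      have : l + p = p - 1 + (l + 1) := by have := hp.two_le; omega
      rw [this]
  apply h1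
  refine LinearMap.ext (fun v => ?_)
  obtain ⟨w, hw⟩ := hiter (p ^ n) v
  rw [hw]
  have : p - 1 + p ^ n = (p ^ n - p) + (2 * p - 1) := by omega
  rw [this, pow_add, hz, zero_mul]
  rfl

end Cfsg.Agent.Helper67
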