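import Mathlib
import Cfsg.Agent.Helper95.UBNDefs

set_option autoImplicit false

/-!
CALL S2546 (helper95), piece GEN (helper67): the unitary group is generated by its upper
triangular and monomial elements (assembly of STEP1-3 and BASE).
-/

namespace Cfsg.Agent.Helper67.UBN

open Matrix Cfsg.Agent.Helper95.UBN

variable {F : Type*} [Field F] {n : ℕ}

-- === PIECE GEN ===
theorem p_GEN (τ : F →+* F)
    (hS1 : ∀ (c : Fin n), 2 * c.1 + 2 ≤ n → ∀ g : Matrix.SpecialLinearGroup (Fin n) F,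
      g ∈ UG τ n → Fixk c.1 g.1 →
      ∃ h : Matrix.SpecialLinearGroup (Fin n) F, h ∈ UG τ n ∧ h ∈ uH τ n ∧ Fixk c.1 (h * g).1 ∧
        ∃ l : F, ∀ a, (h * g).1 a c = if a = c then l else 0)
    (hS2 : ∀ (c : Fin n), 2 * c.1 + 2 ≤ n → ∀ g : Matrix.SpecialLinearGroup (Fin n) F,
      g ∈ UG τ n → Fixk c.1 g.1 → ∀ l : F, (∀ a, g.1 a c = if a = c then l else 0) →
      ∃ u : Matrix.SpecialLinearGroup (Fin n) F, u ∈ UG τ n ∧ IsUp u.1 ∧ Fixk c.1 (u * g).1 ∧
        (∀ a, (u * g).1 a c = if a = c then l else 0) ∧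
        ∃ l' : F, ∀ a, (u * g).1 a (Fin.rev c) = if a = Fin.rev c then l' else 0)
    (hS3 : ∀ (c : Fin n), 2 * c.1 + 2 ≤ n → ∀ g : Matrix.SpecialLinearGroup (Fin n) F,
      g ∈ UG τ n → Fixk c.1 g.1 → ∀ l l' : F, (∀ a, g.1 a c = if a = c then l else 0) →
      (∀ a, g.1 a (Fin.rev c) = if a = Fin.rev c then l' else 0) →
      ∃ t : Matrix.SpecialLinearGroup (Fin n) F, t ∈ UG τ n ∧ Pat t.1 1 ∧
        Fixk (c.1 + 1) (t⁻¹ * g).1)
    (hBase : ∀ k : ℕ, n ≤ 2 * k + 1 → ∀ g : Matrix.SpecialLinearGroup (Fin n) F,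
      g ∈ UG τ n → Fixk k g.1 → Pat g.1 1) :
    ∀ g : ↥(UG τ n), g ∈ uB τ n ⊔ uN τ n := by
  -- the main claim
  have claim : ∀ d k : ℕ, n ≤ 2 * k + 1 + 2 * d → ∀ g : Matrix.SpecialLinearGroup (Fin n) F,
      g ∈ UG τ n → Fixk k g.1 → g ∈ uH τ n := by
    intro d
    induction d with
    | zero =>
      intro k hk g hg hfix
      exact Subgroup.subset_closure ⟨hg, Or.inr ⟨1, hBase k (by omega) g hg hfix⟩⟩
    | succ d ih =>
      intro k hk g hg hfix
      by_cases hk1 : n ≤ 2 * k + 1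
      · exact Subgroup.subset_closure ⟨hg, Or.inr ⟨1, hBase k hk1 g hg hfix⟩⟩
      · have hkn : k < n := by omega
        have hc : 2 * (⟨k, hkn⟩ : Fin n).1 + 2 ≤ n := by
          show 2 * k + 2 ≤ n
          omega
        obtain ⟨h, hhU, hhH, hfix1, l, hl⟩ := hS1 ⟨k, hkn⟩ hc g hg hfix
        obtain ⟨u, huU, huUp, hfix2, hl2, l', hl'⟩ :=
          hS2 ⟨k, hkn⟩ hc (h * g) (Subgroup.mul_mem _ hhU hg) hfix1 l hl
        obtain ⟨t, htU, htP, hfix3⟩ :=
          hS3 ⟨k, hkn⟩ hc (u * (h * g)) (Subgroup.mul_mem _ huU (Subgroup.mul_mem _ hhU hg))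
            hfix2 l l' hl2 hl'
        have hg'U : t⁻¹ * (u * (h * g)) ∈ UG τ n :=
          Subgroup.mul_mem _ (Subgroup.inv_mem _ htU)
            (Subgroup.mul_mem _ huU (Subgroup.mul_mem _ hhU hg))
        have hg'H : t⁻¹ * (u * (h * g)) ∈ uH τ n :=
          ih (k + 1) (by omega) _ hg'U hfix3
        have huH : u ∈ uH τ n := Subgroup.subset_closure ⟨huU, Or.inl huUp⟩
        have htH : t ∈ uH τ n := Subgroup.subset_closure ⟨htU, Or.inr ⟨1, htP⟩⟩
        have e : g = h⁻¹ * (u⁻¹ * (t * (t⁻¹ * (u * (h * g))))) := by group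
        rw [e]
        exact Subgroup.mul_mem _ (Subgroup.inv_mem _ hhH)
          (Subgroup.mul_mem _ (Subgroup.inv_mem _ huH) (Subgroup.mul_mem _ htH hg'H))
  have hle : uH τ n ≤ (uB τ n ⊔ uN τ n).map (UG τ n).subtype := by
    unfold uH
    rw [Subgroup.closure_le]
    rintro h ⟨hh, hor⟩
    rcases hor with hup | hpat
    · exact ⟨⟨h, hh⟩, Subgroup.mem_sup_left (Subgroup.subset_closure hup), rfl⟩
    · exact ⟨⟨h, hh⟩, Subgroup.mem_sup_right (Subgroup.subset_closure hpat), rfl⟩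
  intro g
  have hfix0 : Fixk 0 g.1.1 := by
    intro i hi
    exfalso
    have := i.2
    omega
  have hg : g.1 ∈ uH τ n := claim n 0 (by omega) g.1 g.2 hfix0
  obtain ⟨g', hg', hgg'⟩ := hle hg
  have : g' = g := Subtype.ext hgg'
  rw [← this]
  exact hg'

end Cfsg.Agent.Helper67.UBN
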