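import Mathlib
import Cfsg.Agent.Helper95.UBNDefs

set_option autoImplicit false

/-!
CALL S2546 (helper95), piece PRES (helper67): membership in `UG τ n` = preservation of the
antidiagonal sesquilinear form.
-/

namespace Cfsg.Agent.Helper67.UBN

open Matrix Cfsg.Agent.Helper95.UBN

variable {F : Type*} [Field F] {n : ℕ}

theorem pres_expand (τ : F →+* F) (M : Matrix (Fin n) (Fin n) F) (u v : Fin n → F) :
    ∑ i, (M *ᵥ u) i * τ ((M *ᵥ v) (Fin.rev i)) =
      ∑ a, ∑ b, u a * τ (v b) * ∑ i, M i a * τ (M (Fin.rev i) b) := by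
  simp only [Matrix.mulVec, dotProduct, map_sum, map_mul, Finset.sum_mul, Finset.mul_sum]
  rw [Finset.sum_comm]
  conv_rhs => rw [Finset.sum_comm]
  apply Finset.sum_congr rfl; intro b _
  rw [Finset.sum_comm]
  apply Finset.sum_congr rfl; intro a _
  apply Finset.sum_congr rfl; intro i _
  ring

-- === PIECE PRES ===
theorem p_PRES (τ : F →+* F) (hτ : ∀ x, τ (τ x) = x) (g : Matrix.SpecialLinearGroup (Fin n) F) :
    g ∈ UG τ n ↔ ∀ u v : Fin n → F,
      ∑ i, (g.1 *ᵥ u) i * τ ((g.1 *ᵥ v) (Fin.rev i)) = ∑ i, u i * τ (v (Fin.rev i)) := by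
  constructor
  · intro hg u v
    have hU := (isU_iff τ g.1).mp (isU_of_mem hg)
    rw [pres_expand]
    have hC : ∀ a b, ∑ i, g.1 i a * τ (g.1 (Fin.rev i) b) = if Fin.rev b = a then 1 else 0 := by
      intro a b
      have h := hU (Fin.rev b) a
      rw [Fin.rev_rev] at h
      rw [← h]
      apply Finset.sum_congr rfl; intro i _; ring
    simp only [hC]
    apply Finset.sum_congr rfl; intro a _
    rw [Finset.sum_eq_single (Fin.rev a)]
    · rw [Fin.rev_rev, if_pos rfl, mul_one]
    · intro b _ hb
      rw [if_neg, mul_zero]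
      intro h; apply hb; rw [← h, Fin.rev_rev]
    · intro h; exact absurd (Finset.mem_univ _) h
  · intro h
    rw [mem_UG_iff hτ, isU_iff]
    intro a b
    have h1 := h (Pi.single b 1) (Pi.single (Fin.rev a) 1)
    have hR : ∑ i, (Pi.single b (1:F) : Fin n → F) i *
        τ ((Pi.single (Fin.rev a) (1:F) : Fin n → F) (Fin.rev i)) = if a = b then 1 else 0 := by
      rw [Finset.sum_eq_single b]
      · rw [Pi.single_eq_same, one_mul]
        by_cases hab : a = b
        · subst hab; rw [Pi.single_eq_same, map_one, if_pos rfl]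
        · rw [Pi.single_eq_of_ne (fun h => hab (Fin.rev_injective h).symm), map_zero, if_neg hab]
      · intro i _ hi; rw [Pi.single_eq_of_ne hi, zero_mul]
      · intro h; exact absurd (Finset.mem_univ _) h
    rw [hR] at h1
    rw [← h1]
    apply Finset.sum_congr rfl; intro k _
    rw [Matrix.mulVec_single_one, Matrix.mulVec_single_one, mul_comm]
    rfl

end Cfsg.Agent.Helper67.UBN
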