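import Mathlib
import Cfsg.Agent.Helper95.UBNDefs
import Cfsg.Agent.Helper8.SpWGen

set_option autoImplicit false

/-!
CALL S2546 (helper95), piece WGENU (helper67): the permutations of `Fin n` commuting with
`Fin.rev` are generated by the simple reflections `sigP j`.  Transfer of Helper8's `p_WGEN`
along the embedding `Fin (n/2) ⊕ Fin (n/2) ↪ Fin n`.
-/

namespace Cfsg.Agent.Helper67.UBN

open Matrix Cfsg.Agent.Helper95.UBN

variable {n : ℕ}

/-- the embedding of `Fin (n/2) ⊕ Fin (n/2)` into `Fin n` -/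
def wfun : Fin (n / 2) ⊕ Fin (n / 2) → Fin n
  | Sum.inl i => ia i
  | Sum.inr i => Fin.rev (ia i)

theorem wfun_inl (i : Fin (n / 2)) : wfun (Sum.inl i) = ia i := rfl

theorem wfun_inr (i : Fin (n / 2)) : wfun (Sum.inr i) = Fin.rev (ia i) := rfl

theorem wfun_inj : Function.Injective (wfun (n := n)) := by
  rintro (i | i) (j | j) h
  · have h' := congrArg Fin.val h
    simp only [wfun, ia] at h'
    exact congrArg Sum.inl (Fin.ext h')
  · exfalso
    have h' := congrArg Fin.val h
    simp only [wfun, ia, Fin.val_rev] at h'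
    have := i.2; have := j.2; omega
  · exfalso
    have h' := congrArg Fin.val h
    simp only [wfun, ia, Fin.val_rev] at h'
    have := i.2; have := j.2; omega
  · have h' := congrArg Fin.val h
    simp only [wfun, ia, Fin.val_rev] at h'
    have := i.2; have := j.2
    exact congrArg Sum.inr (Fin.ext (by omega))

/-- `wfun` as an embedding -/
def wemb : Fin (n / 2) ⊕ Fin (n / 2) ↪ Fin n := ⟨wfun, wfun_inj⟩

theorem wemb_apply (s : Fin (n / 2) ⊕ Fin (n / 2)) : wemb s = wfun s := rfl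

theorem wfun_tau (s : Fin (n / 2) ⊕ Fin (n / 2)) :
    wfun (Cfsg.Agent.Helper13.tauP (n / 2) s) = Fin.rev (wfun s) := by
  rcases s with i | i
  · rw [Cfsg.Agent.Helper13.tauP_inl, wfun_inr, wfun_inl]
  · rw [Cfsg.Agent.Helper13.tauP_inr, wfun_inr, wfun_inl, Fin.rev_rev]

theorem mem_range_wfun (x : Fin n) : x ∈ Set.range (wfun (n := n)) ↔ x ≠ Fin.rev x := by
  constructor
  · rintro ⟨s, rfl⟩ h
    rcases s with i | i
    · have h' := congrArg Fin.val h
      simp only [wfun, ia, Fin.val_rev] at h'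
      have := i.2; omega
    · have h' := congrArg Fin.val h
      simp only [wfun, ia, Fin.val_rev] at h'
      have := i.2; omega
  · intro h
    have hx : x.1 ≠ n - (x.1 + 1) := by
      intro e
      apply h
      apply Fin.ext
      rw [Fin.val_rev]
      exact e
    have := x.2
    by_cases hlt : x.1 < n / 2
    · exact ⟨Sum.inl ⟨x.1, hlt⟩, Fin.ext rfl⟩
    · have h2 : n - 1 - x.1 < n / 2 := by omega
      refine ⟨Sum.inr ⟨n - 1 - x.1, h2⟩, Fin.ext ?_⟩
      simp only [wfun, ia, Fin.val_rev]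
      omega

theorem via_swap {α β : Type*} [DecidableEq α] [DecidableEq β] (a b : α) (ι : α ↪ β) :
    Equiv.Perm.viaEmbedding (Equiv.swap a b) ι = Equiv.swap (ι a) (ι b) := by
  refine Equiv.ext fun x => ?_
  by_cases hx : x ∈ Set.range ι
  · obtain ⟨y, rfl⟩ := hx
    rw [Equiv.Perm.viaEmbedding_apply, ι.injective.swap_apply]
  · rw [Equiv.Perm.viaEmbedding_apply_of_notMem _ _ _ hx, Equiv.swap_apply_of_ne_of_ne]
    · rintro rfl; exact hx ⟨a, rfl⟩
    · rintro rfl; exact hx ⟨b, rfl⟩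

theorem sig_via (j : Fin (n / 2)) :
    sigP j = Equiv.Perm.viaEmbedding (Cfsg.Agent.Helper95.SpBN.sigP j) wemb := by
  by_cases h : j.1 + 1 < n / 2
  · unfold sigP Cfsg.Agent.Helper95.SpBN.sigP
    rw [if_pos h, if_pos h, ← Equiv.Perm.viaEmbeddingHom_apply, map_mul,
      Equiv.Perm.viaEmbeddingHom_apply, Equiv.Perm.viaEmbeddingHom_apply, via_swap, via_swap,
      wemb_apply, wemb_apply, wemb_apply, wemb_apply, wfun_tau, wfun_tau]
    have e1 : wfun (Cfsg.Agent.Helper95.SpBN.ra j) = ia j := rfl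
    have e2 : wfun (Cfsg.Agent.Helper95.SpBN.rb j) = ib j := by
      unfold Cfsg.Agent.Helper95.SpBN.rb ib
      rw [dif_pos h, dif_pos h]
      rfl
    rw [e1, e2]
  · unfold sigP Cfsg.Agent.Helper95.SpBN.sigP
    rw [if_neg h, if_neg h, via_swap, wemb_apply, wemb_apply]
    have e1 : wfun (Cfsg.Agent.Helper95.SpBN.ra j) = ia j := rfl
    have e2 : wfun (Cfsg.Agent.Helper95.SpBN.rb j) = ib j := by
      unfold Cfsg.Agent.Helper95.SpBN.rb ib
      rw [dif_neg h, dif_neg h]
      rfl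
    rw [e1, e2]

-- === PIECE WGENU ===
theorem p_WGENU (π : Equiv.Perm (Fin n)) (hπ : ∀ b, π (Fin.rev b) = Fin.rev (π b)) :
    π ∈ Subgroup.closure (Set.range (sigP (n := n))) := by
  classical
  have hpres : ∀ x, x ∈ Set.range (wfun (n := n)) → π x ∈ Set.range (wfun (n := n)) := by
    intro x hx
    rw [mem_range_wfun] at hx ⊢
    intro h
    apply hx
    apply π.injective
    rw [hπ]
    exact h
  have hpres' : ∀ x, x ∈ Set.range (wfun (n := n)) → π⁻¹ x ∈ Set.range (wfun (n := n)) := by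
    intro x hx
    rw [mem_range_wfun] at hx ⊢
    intro h
    apply hx
    have h2 := congrArg π h
    rw [hπ] at h2
    have h3 : π (π⁻¹ x) = x := π.apply_symm_apply x
    rw [h3] at h2
    exact h2
  choose g hg using fun s => hpres (wfun s) ⟨s, rfl⟩
  choose g' hg' using fun s => hpres' (wfun s) ⟨s, rfl⟩
  let π₀ : Equiv.Perm (Fin (n / 2) ⊕ Fin (n / 2)) :=
    ⟨g, g', fun s => wfun_inj (by rw [hg', hg]; exact π.symm_apply_apply _),
      fun s => wfun_inj (by rw [hg, hg']; exact π.apply_symm_apply _)⟩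
  have hπ₀ : ∀ s, wfun (π₀ s) = π (wfun s) := hg
  have hcomm : ∀ b, π₀ (Cfsg.Agent.Helper13.tauP (n / 2) b)
      = Cfsg.Agent.Helper13.tauP (n / 2) (π₀ b) := by
    intro b
    apply wfun_inj
    rw [hπ₀, wfun_tau, wfun_tau, hπ, hπ₀]
  have hmem := Cfsg.Agent.Helper8.SpBN.p_WGEN π₀ hcomm
  have hvia : π = Equiv.Perm.viaEmbeddingHom wemb π₀ := by
    rw [Equiv.Perm.viaEmbeddingHom_apply]
    refine Equiv.ext fun x => ?_
    by_cases hx : x ∈ Set.range (wfun (n := n))
    · obtain ⟨s, rfl⟩ := hx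
      have h1 : (π₀.viaEmbedding wemb) (wemb s) = wemb (π₀ s) :=
        Equiv.Perm.viaEmbedding_apply _ _ s
      rw [wemb_apply, wemb_apply] at h1
      rw [h1, hπ₀]
    · have hx' : x ∉ Set.range (wemb (n := n)) := hx
      rw [Equiv.Perm.viaEmbedding_apply_of_notMem _ _ _ hx']
      rw [mem_range_wfun, not_not] at hx
      have h1 : π x = Fin.rev (π x) := by
        conv_lhs => rw [hx]
        exact hπ x
      apply Fin.ext
      have e1 := congrArg Fin.val hx
      have e2 := congrArg Fin.val h1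
      rw [Fin.val_rev] at e1 e2
      have := x.2
      have := (π x).2
      omega
  rw [hvia]
  have hmap : (Subgroup.closure (Set.range (Cfsg.Agent.Helper95.SpBN.sigP (m := n / 2)))).map
      (Equiv.Perm.viaEmbeddingHom wemb) ≤ Subgroup.closure (Set.range (sigP (n := n))) := by
    rw [MonoidHom.map_closure]
    apply Subgroup.closure_mono
    rintro _ ⟨_, ⟨j, rfl⟩, rfl⟩
    exact ⟨j, by rw [Equiv.Perm.viaEmbeddingHom_apply, sig_via]⟩
  exact hmap ⟨π₀, hmem, rfl⟩

end Cfsg.Agent.Helper67.UBN
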